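import Cfsg.Agent.CosetEnum.Level

/-!
Partial coset enumerations: proofs that a word lies in a subgroup (owner: helper58, built on `CosetEnum` of helper28).

A partial certificate is a pruned Todd-Coxeter certificate in which fields may be missing.
-/
set_option autoImplicit false

namespace Cfsg.Agent.CosetEnum

local notation "sel(" c ", " a ", " b ")" => @Bool.rec (fun _ => Bool) b a c

/-- Check of the node `j` (fields may be missing). -/
noncomputable def nodeQ (P : Par) (L : LL) (j v : Nat) (cont : Nat → Bool) : Bool :=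
  force (rowV P j) fun w => link P j w v
    (fun v' => edges P j w true L (fun v'' _ => cont v'') v' false)
    (fun v' => edges P j w true L (fun v'' _ => cont v'') v' false)

noncomputable def nodesQ (P : Par) (L : LL) (c : Nat) : Nat → Nat → Bool :=
  @Nat.rec (fun _ => Nat → Nat → Bool) (fun _ _ => true)
    (fun _ ih j v => force j fun j => nodeQ P L j v (fun v' => ih (Nat.succ j) v')) c

/-- Check of the nodes from `j` to `j₁`. -/
noncomputable def chunksQ (P : Par) (L : LL) (j₁ : Nat) (l : CK) : Nat → Bool :=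
  @CK.rec (fun _ => Nat → Bool) (fun j => Nat.beq j j₁)
    (fun c _ v _ ih j => sel(nodesQ P L c j v, force (Nat.add j c) ih, false)) l

section

variable {G : Type*} [Group G]

/-- Everything that the check of a node gives. -/
def NodeQ (H : Subgroup G) (s w : ℕ → G) (P : Par) (A : ℕ → Prop) (L : LL) (j : ℕ) : Prop :=
  (∀ x y, L.Mem x y → FieldOK H s w P A j true x y) ∧
  (∀ x y x' y', L.Mem x y → L.Mem x' y' → fld (rowV P j) x < j → fld (rowV P j) x' < j → x = x') ∧
  (Real P j ∨ LinkOK H s w P A j)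

variable {H : Subgroup G} {s : ℕ → G} {P : Par} {A : ℕ → Prop}

theorem nodeQ_sound {w : ℕ → G} (hm : P.m ≤ 1048576) (h0 : w 0 = 1) {L : LL} (hL : L.OK H s A)
    (hic : ∀ x y, P.ic x y = true → A x ∧ A y ∧ s x * s y = 1)
    (htr : P.tr.All fun z _ => (∀ a ∈ z, A a) ∧ val s z = 1)
    {j v : ℕ} (hj : j < P.m) {cont : ℕ → Bool} (h : nodeQ P L j v cont = true) :
    NodeQ H s w P A L j ∧ ∃ v', cont v' = true := by
  unfold nodeQ at h
  rw [force_eq] at h
  rcases link_sound (H := H) (w := w) hm hic htr hj h with ⟨h1, v', h2⟩ | ⟨h1, hl, v', h2⟩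
  · obtain ⟨g1, _, g3, v'', p', g4⟩ := edges_sound (H := H) (w := w) hm h0 hL hj h2
    exact ⟨⟨g1, g3, Or.inl h1⟩, _, g4⟩
  · obtain ⟨g1, _, g3, v'', p', g4⟩ := edges_sound (H := H) (w := w) hm h0 hL hj h2
    exact ⟨⟨g1, g3, Or.inr hl⟩, _, g4⟩

theorem nodesQ_sound {w : ℕ → G} (hm : P.m ≤ 1048576) (h0 : w 0 = 1) {L : LL} (hL : L.OK H s A)
    (hic : ∀ x y, P.ic x y = true → A x ∧ A y ∧ s x * s y = 1)
    (htr : P.tr.All fun z _ => (∀ a ∈ z, A a) ∧ val s z = 1)
    {c j v : ℕ} (hj : j + c ≤ P.m) (h : nodesQ P L c j v = true) :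
    ∀ i, j ≤ i → i < j + c → NodeQ H s w P A L i := by
  induction c generalizing j v with
  | zero => exact fun i h1 h2 => by omega
  | succ c ih =>
    have h' : (force j fun j => nodeQ P L j v (fun v' => nodesQ P L c (Nat.succ j) v')) = true := h
    rw [force_eq] at h'
    obtain ⟨h1, v', h2⟩ := nodeQ_sound (H := H) (w := w) hm h0 hL hic htr (by omega) h'
    intro i hi1 hi2
    rcases Nat.lt_or_ge j i with h9 | h9
    · exact ih (j := j.succ) (by rw [Nat.succ_eq_add_one]; omega) h2 i h9 (by rw [Nat.succ_eq_add_one]; omega)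
    · have : i = j := by omega
      rw [this]; exact h1

theorem chunksQ_sound {w : ℕ → G} (hm : P.m ≤ 1048576) (h0 : w 0 = 1) {L : LL} (hL : L.OK H s A)
    (hic : ∀ x y, P.ic x y = true → A x ∧ A y ∧ s x * s y = 1)
    (htr : P.tr.All fun z _ => (∀ a ∈ z, A a) ∧ val s z = 1)
    {j₁ : ℕ} (hj₁ : j₁ ≤ P.m) {l : CK} {j : ℕ} (h : chunksQ P L j₁ l j = true) :
    j ≤ j₁ ∧ ∀ i, j ≤ i → i < j₁ → NodeQ H s w P A L i := by
  induction l generalizing j with
  | nil =>
    have h1 : j = j₁ := beq_true h
    subst h1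
    exact ⟨le_rfl, fun i h3 h4 => by omega⟩
  | cons c nc v l ih =>
    have h' : @Bool.rec (fun _ => Bool) false (force (Nat.add j c) fun j' => chunksQ P L j₁ l j') (nodesQ P L c j v) = true := h
    obtain ⟨h1, h2⟩ := sel_true_left h'
    rw [force_eq] at h2
    have e : Nat.add j c = j + c := rfl
    rw [e] at h2
    obtain ⟨g1, g2⟩ := ih h2
    refine ⟨by omega, fun i h5 h6 => ?_⟩
    rcases Nat.lt_or_ge i (j + c) with h7 | h7
    · exact nodesQ_sound (H := H) (w := w) hm h0 hL hic htr (by omega) h1 i h5 h7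
    · exact g2 i h7 h6

/-- The nodes below `j` have been checked. -/
inductive SegQ (P : Par) (L : LL) : ℕ → Prop
  | nil : SegQ P L 0
  | snoc {j j₁ : ℕ} {l : CK} : SegQ P L j → chunksQ P L j₁ l j = true → SegQ P L j₁

theorem chunksQ_le {L : LL} {j₁ : ℕ} {l : CK} {j : ℕ} (h : chunksQ P L j₁ l j = true) : j ≤ j₁ := by
  induction l generalizing j with
  | nil => exact (beq_true h).le
  | cons c nc v l ih =>
    have h' : @Bool.rec (fun _ => Bool) false (force (Nat.add j c) fun j' => chunksQ P L j₁ l j') (nodesQ P L c j v) = true := h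
    obtain ⟨h1, h2⟩ := sel_true_left h'
    rw [force_eq] at h2
    have e : Nat.add j c = j + c := rfl
    rw [e] at h2
    have := ih h2
    omega

theorem SegQ.sound {w : ℕ → G} (hm : P.m ≤ 1048576) (h0 : w 0 = 1) {L : LL} (hL : L.OK H s A)
    (hic : ∀ x y, P.ic x y = true → A x ∧ A y ∧ s x * s y = 1)
    (htr : P.tr.All fun z _ => (∀ a ∈ z, A a) ∧ val s z = 1) {j : ℕ} (h : SegQ P L j) (hj : j ≤ P.m) :
    ∀ i < j, NodeQ H s w P A L i := by
  induction h with
  | nil => exact fun i hi => absurd hi (Nat.not_lt_zero _)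
  | snoc h1 h2 ih =>
    intro i hi
    rename_i j j₁ l
    have hle := chunksQ_le h2
    rcases Nat.lt_or_ge i j with h7 | h7
    · exact ih (by omega) i h7
    · exact (chunksQ_sound (H := H) (w := w) hm h0 hL hic htr hj h2).2 i h7 hi

/-- parent of a node -/
theorem wd_parentQ {L : LL} {w : ℕ → G} {j : ℕ} (hN : NodeQ H s w P A L j) {x y : ℕ} (hx : L.Mem x y)
    (h : fld (rowV P j) x < j) : wd P s L j = (s x)⁻¹ * wd P s L (fld (rowV P j) x) := by
  have hex : ∃ x, (∃ y, L.Mem x y) ∧ fld (rowV P j) x < j := ⟨x, ⟨y, hx⟩, h⟩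
  have hc := hex.choose_spec
  obtain ⟨⟨y', hy'⟩, h'⟩ := hc
  have heq : hex.choose = x := hN.2.1 _ _ _ _ hy' hx h' h
  conv_lhs => unfold wd
  rw [dif_pos hex, heq]

theorem valid_allQ (hm : P.m ≤ 1048576) {L : LL} (hL : L.OK H s A) (hS : L.Symm)
    (hA : ∀ x, A x → ∃ y, L.Mem x y)
    (hN : ∀ i < P.m, NodeQ H s (wd P s L) P A L i) (R : ℕ) (hR : R ≤ 17592184995840) :
    Valid H s (wd P s L) P A R := by
  induction R using Nat.strong_induction_on with
  | _ R ih =>
    intro j hj
    obtain ⟨hF, hU, hLk⟩ := hN j hj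
    refine ⟨fun he => ?_, fun x hx he => ?_⟩
    · rcases hLk with h1 | ⟨h1, h2, h3⟩
      · unfold Real at h1
        omega
      · have : tg (fld (rowV P j) 0) ≤ fld (rowV P j) 0 := Nat.mod_le _ _
        have h4 : fld (rowV P j) 0 < R := he
        have hr : fld (rowV P j) 0 - tg (fld (rowV P j) 0) < R := by omega
        exact ⟨h2.trans hj, h3 (ih _ hr (by omega))⟩
    · obtain ⟨y, hxy⟩ := hA x hx
      obtain ⟨_, hAy, hxy1⟩ := hxy.ok hL
      rcases hF x y hxy with ⟨h1, _⟩ | ⟨h1, h2, h3⟩
      · omega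
      · refine ⟨h2, ?_⟩
        rcases h3 with h3 | ⟨h3, h4, h5⟩ | ⟨h3, h4⟩
        · have ht : tg (fld (rowV P j) x) = fld (rowV P j) x := Nat.mod_eq_of_lt (by omega)
          rw [ht]
          unfold Rel
          rw [wd_parentQ (hN j hj) hxy h3]
          simp only [mul_assoc, mul_inv_cancel_left, inv_mul_cancel, H.one_mem]
        · have ht : tg (fld (rowV P j) x) = fld (rowV P j) x := Nat.mod_eq_of_lt (by omega)
          rw [ht] at h2 ⊢
          obtain ⟨x', hx'⟩ := hS x y hxy
          have h6 := wd_parentQ (hN _ h2) hx' (by rw [h5]; exact h4)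
          rw [h5] at h6
          unfold Rel
          rw [h6, eq_inv_of_mul_eq_one_left hxy1]
          simp only [inv_inv, mul_inv_rev, mul_assoc, mul_inv_cancel, inv_mul_cancel, inv_mul_cancel_left,
            mul_inv_cancel_left, mul_one, H.one_mem]
        · have htl : tg (fld (rowV P j) x) ≤ fld (rowV P j) x := Nat.mod_le _ _
          have htl' : tg (fld (rowV P j) x) < 1048576 := Nat.mod_lt _ (by norm_num)
          have hr : fld (rowV P j) x - tg (fld (rowV P j) x) < R := by omega
          rcases h4 with ⟨h4, h5⟩ | h4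
          · -- mirror
            obtain ⟨x', hx'⟩ := hS x y hxy
            set e := fld (rowV P j) x with he'
            have hmod : (e - tg e) % 1048576 = 0 := by
              show (e - e % 1048576) % 1048576 = 0
              omega
            have ht2 : tg (e - tg e + j) = j := by
              show (e - tg e + j) % 1048576 = j
              omega
            rcases (hN _ h2).1 y x' hx' with ⟨g1, _⟩ | ⟨g1, g2, g3⟩
            · rw [h5] at g1
              have : e - tg e ≤ 17592183947264 := by omega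
              omega
            · rw [h5] at g1 g2 g3
              rcases g3 with g3 | ⟨g3, _⟩ | ⟨g3, g4⟩
              · omega
              · omega
              · rcases g4 with ⟨g4, _⟩ | g4
                · omega
                · rw [ht2] at g4
                  have g5 := g4 (ih _ (by omega) (by omega))
                  have g6 := g5.symm
                  rwa [← eq_inv_of_mul_eq_one_left hxy1] at g6
          · exact h4 (ih _ hr (by omega))

/-- test of the target words: they lead from the node `0` to itself -/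
noncomputable def tgtB (P : Par) (us : List (List ℕ)) : Bool := us.all fun z => Nat.beq (walkV P 17592184995840 z 0) 0

/-- **Membership in a subgroup from a partial coset enumeration.** -/
theorem mem_of_part {G : Type*} [Group G] (g : ℕ → G) (H : Subgroup G) (ng : ℕ) (l : List (ℕ × ℕ))
    (hl : ∀ x, g (ivL l x) = (g x)⁻¹) (rels subs : List (List ℕ)) (hrels : ∀ r ∈ rels, (r.map g).prod = 1)
    (hsubs : ∀ r ∈ subs, (r.map g).prod ∈ H) (P : Par) (L : LL)
    (hic : P.ic = icG ng l) (hst : staticOK ng l rels subs P L = true) (hN : SegQ P L P.m) {us : List (List ℕ)}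
    (hw : us.all (wOK ng) = true) (ht : tgtB P us = true) : ∀ u ∈ us, (u.map g).prod ∈ H := by
  simp only [staticOK, Bool.and_eq_true] at hst
  obtain ⟨⟨⟨⟨h1, h2⟩, h3⟩, h4⟩, h5⟩ := hst
  have hm := ble_true h4
  have hm0 := ble_true h5
  have hOK := LL.ok_of_okB hl hrels hsubs h1
  have hA : ∀ x, isLet ng x = true → ∃ y, L.Mem x y := by
    intro x hx
    apply LL.mem_of_lets
    have hx' := hx
    simp only [isLet, Bool.and_eq_true] at hx'
    have h6 := ble_true hx'.2
    simp only [List.all_eq_true, List.mem_range] at h3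
    have h7 := h3 x (by omega)
    simpa [hx] using h7
  have hS : L.Symm := by
    intro x y hxy
    obtain ⟨_, hy, _⟩ := hxy.ok hOK
    exact hA y hy
  have htr : P.tr.All fun z _ => (∀ a ∈ z, isLet ng a = true) ∧ val (fun x => (g x)⁻¹) z = 1 := by
    refine WT.all_of_allB ?_ h2
    intro z _ hz
    simp only [Bool.and_eq_true, List.all_eq_true] at hz
    refine ⟨hz.1, ?_⟩
    rw [val_inv, prod_of_isRel hl hrels hz.2, inv_one]
  have hic' : ∀ x y, P.ic x y = true → isLet ng x = true ∧ isLet ng y = true ∧ (g x)⁻¹ * (g y)⁻¹ = 1 := by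
    intro x y hxy
    rw [hic] at hxy
    obtain ⟨hx, hy, h6⟩ := icG_spec ng l x y hxy
    refine ⟨hx, hy, ?_⟩
    rw [h6, hl]
    simp
  have g1 := SegQ.sound (H := H) (w := wd P (fun x => (g x)⁻¹) L) hm (wd_zero L) hOK hic' htr hN le_rfl
  have hV := valid_allQ hm hOK hS hA g1 17592184995840 le_rfl
  intro u hu
  simp only [List.all_eq_true, tgtB] at hw ht
  have hu1 := hw u hu
  simp only [wOK, List.all_eq_true] at hu1
  have hu2 := Nat.eq_of_beq_eq_true (ht u hu)
  rcases walkV_sound hV (by norm_num) u hu1 hm0 with h6 | ⟨h6, h7⟩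
  · rw [hu2] at h6
    exact absurd h6 (by norm_num)
  · rw [hu2] at h7
    unfold Rel at h7
    rw [wd_zero, val_inv] at h7
    simpa using h7

end

/-- A partial certificate. -/
def PCert (k : ℕ) (l : List (ℕ × ℕ)) (RL : List (List ℕ × ℕ)) (subs us : List (List ℕ)) : Prop :=
  ∀ {G : Type} [Group G] (g : ℕ → G) (H : Subgroup G), (∀ x, g (ivL l x) = (g x)⁻¹) →
    (∀ r ∈ RL.map expand, (r.map g).prod = 1) → (∀ r ∈ subs, (r.map g).prod ∈ H) → ∀ u ∈ us, (u.map g).prod ∈ H

theorem PCert.apply {G : Type} [Group G] {g : ℕ → G} {ng : ℕ} {l : List (ℕ × ℕ)} {RL : List (List ℕ × ℕ)}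
    {subs us : List (List ℕ)} (C : PCert ng l RL subs us) (hg : Good g ng l RL) {H : Subgroup G}
    (hs : ∀ r ∈ subs, (r.map g).prod ∈ H) : ∀ u ∈ us, (u.map g).prod ∈ H :=
  C g H hg.inv (map_expand hg.rel) hs

/-- a certificate with subgroup generators known to lie in the subgroup generated by the first letters -/
theorem Bd.cl' {G : Type} [Group G] {g : ℕ → G} {ng k k' : ℕ} {l lk : List (ℕ × ℕ)} {RL RLk : List (List ℕ × ℕ)}
    {subs : List (List ℕ)} {n N M : ℕ} (hb : Bd (Cl g k') N) (C : Cert k lk RLk subs n) (hg : Good g ng l RL)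
    (hc : cutB k l lk RL RLk = true) (hk : subs.all (wOK k) = true) (hs : ∀ r ∈ subs, (r.map g).prod ∈ Cl g k')
    (hM : n * N = M) : Bd (Cl g k) M := by
  subst hM
  refine hb.step (C.apply_cut hg hc fun r hr => ⟨?_, hs r hr⟩)
  simp only [List.all_eq_true] at hk
  exact hk r hr

end Cfsg.Agent.CosetEnum
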