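import Cfsg.Agent.MulX.Tab

/-!
Non-cyclic kernels of covering groups (owner: helper58).
-/
set_option autoImplicit false

namespace Cfsg.Agent.MulX

open Cfsg.Agent.CosetEnum Cfsg Subgroup

/-- A finite abelian group of order at most `∏ m i` with elements `c i` and subgroups `S i` which separate them. -/
theorem pi_iso {N ι : Type*} [CommGroup N] [Finite N] [Fintype ι] [DecidableEq ι] (m : ι → ℕ) (hm : ∀ i, 0 < m i)
    (c : ι → N) (S : ι → Subgroup N) (h1 : ∀ i j, j ≠ i → c j ∈ S i) (h2 : ∀ i (k : ℕ), (c i) ^ k ∈ S i ↔ m i ∣ k) :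
    (∏ i, m i ≤ Nat.card N) ∧ (Nat.card N ≤ ∏ i, m i → Nonempty (N ≃* Multiplicative (∀ i, ZMod (m i)))) := by
  have : ∀ i, NeZero (m i) := fun i => ⟨(hm i).ne'⟩
  -- separation
  have sep : ∀ i, ∀ k : ι → ℕ, ((∏ j, c j ^ k j) ∈ S i ↔ m i ∣ k i) := by
    intro i k
    rw [← Finset.mul_prod_erase _ _ (Finset.mem_univ i)]
    have h3 : (∏ j ∈ Finset.univ.erase i, c j ^ k j) ∈ S i :=
      Subgroup.prod_mem _ fun j hj => (S i).pow_mem (h1 i j (Finset.ne_of_mem_erase hj)) _
    rw [(S i).mul_mem_cancel_right h3]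
    exact h2 i (k i)
  have inj : ∀ k l : ∀ i, Fin (m i), (∏ j, c j ^ (k j : ℕ)) = (∏ j, c j ^ (l j : ℕ)) → k = l := by
    intro k l hkl
    funext i
    have key : ∀ a b : ℕ, a ≤ b → b < m i → (c i) ^ b / (c i) ^ a ∈ S i → a = b := by
      intro a b hab hb h
      have h3 : (c i) ^ b / (c i) ^ a = (c i) ^ (b - a) := by
        rw [div_eq_mul_inv, pow_sub _ hab]
      rw [h3] at h
      have h4 := (h2 i _).1 h
      have h5 := Nat.eq_zero_of_dvd_of_lt h4 (by omega)
      omega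
    have h3 : (c i) ^ (k i : ℕ) / (c i) ^ (l i : ℕ) ∈ S i := by
      have h4 := congrArg (fun z => z / (∏ j, c j ^ (l j : ℕ))) hkl
      simp only [div_self'] at h4
      rw [← Finset.prod_div_distrib, ← Finset.mul_prod_erase _ _ (Finset.mem_univ i)] at h4
      rw [mul_eq_one_iff_eq_inv] at h4
      rw [h4]
      apply (S i).inv_mem
      exact Subgroup.prod_mem _ fun j hj => (S i).div_mem ((S i).pow_mem (h1 i j (Finset.ne_of_mem_erase hj)) _)
        ((S i).pow_mem (h1 i j (Finset.ne_of_mem_erase hj)) _)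
    apply Fin.ext
    rcases le_total (l i : ℕ) (k i : ℕ) with h | h
    · exact (key _ _ h (k i).2 h3).symm
    · refine key _ _ h (l i).2 ?_
      rw [← inv_div]
      exact (S i).inv_mem h3
  have hcardF : Nat.card (∀ i, Fin (m i)) = ∏ i, m i := by
    rw [Nat.card_pi]
    simp
  have hle : ∏ i, m i ≤ Nat.card N := by
    rw [← hcardF]
    exact Nat.card_le_card_of_injective (fun k : ∀ i, Fin (m i) => ∏ j, c j ^ (k j : ℕ)) inj
  refine ⟨hle, fun hN => ?_⟩
  have hbij : Function.Bijective (fun k : ∀ i, Fin (m i) => ∏ j, c j ^ (k j : ℕ)) := by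
    rw [Nat.bijective_iff_injective_and_card]
    exact ⟨inj, by rw [hcardF]; omega⟩
  -- orders
  have hord : ∀ i, c i ^ m i = 1 := by
    intro i
    obtain ⟨k, hk⟩ := hbij.2 (c i ^ m i)
    have hk' : (∏ j, c j ^ (k j : ℕ)) = c i ^ m i := hk
    have h4 : ∀ j, (k j : ℕ) = 0 := by
      intro j
      have h5 : (∏ j, c j ^ (k j : ℕ)) ∈ S j := by
        rw [hk']
        by_cases hij : i = j
        · subst hij
          exact (h2 i _).2 dvd_rfl
        · exact (S j).pow_mem (h1 j i hij) _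
      exact Nat.eq_zero_of_dvd_of_lt ((sep j _).1 h5) (k j).2
    rw [← hk']
    apply Finset.prod_eq_one
    intro j _
    rw [h4 j, pow_zero]
  have hz : ∀ (i : ι) (a : ℤ), c i ^ (a : ℤ) = c i ^ (a % m i : ℤ) := by
    intro i a
    conv_lhs => rw [← Int.emod_add_mul_ediv a (m i)]
    rw [zpow_add, zpow_mul, zpow_natCast, hord, one_zpow, mul_one]
  -- the homomorphism
  let f : ∀ i, ZMod (m i) →+ Additive N := fun i =>
    ZMod.lift (m i) ⟨zmultiplesHom (Additive N) (Additive.ofMul (c i)), by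
      rw [zmultiplesHom_apply, natCast_zsmul]
      show Additive.ofMul (c i ^ m i) = 0
      rw [hord]; rfl⟩
  let F : (∀ i, ZMod (m i)) →+ Additive N :=
    { toFun := fun k => ∑ i, f i (k i)
      map_zero' := by simp
      map_add' := fun a b => by simp [Finset.sum_add_distrib] }
  have hf : ∀ i (k : Fin (m i)), f i ((k : ℕ) : ZMod (m i)) = Additive.ofMul (c i ^ (k : ℕ)) := by
    intro i k
    show ZMod.lift (m i) _ _ = _
    have : (((k : ℕ) : ZMod (m i))) = (((k : ℕ) : ℤ) : ZMod (m i)) := by simp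
    rw [this, ZMod.lift_coe]
    simp [zmultiplesHom_apply]
  have hsurj : Function.Surjective F := by
    intro y
    obtain ⟨k, hk⟩ := hbij.2 y.toMul
    refine ⟨fun i => ((k i : ℕ) : ZMod (m i)), ?_⟩
    show ∑ i, f i (((k i : ℕ) : ZMod (m i))) = y
    have : ∑ i, f i (((k i : ℕ) : ZMod (m i))) = ∑ i, Additive.ofMul (c i ^ (k i : ℕ)) :=
      Finset.sum_congr rfl fun i _ => hf i (k i)
    rw [this, ← ofMul_prod]
    exact congrArg Additive.ofMul hk
  have hfinZ : Finite (∀ i, ZMod (m i)) := by infer_instance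
  have hcardZ : Nat.card (∀ i, ZMod (m i)) = ∏ i, m i := by
    rw [Nat.card_pi]
    simp
  have hb : Function.Bijective F := by
    rw [Nat.bijective_iff_surjective_and_card]
    refine ⟨hsurj, ?_⟩
    rw [hcardZ]
    have : Nat.card (Additive N) = Nat.card N := rfl
    omega
  exact ⟨(AddEquiv.toMultiplicative (AddEquiv.ofBijective F hb)).symm⟩

/-- fixed point test -/
noncomputable def fixB (P : Par) (c : List ℕ) (i : ℕ) : Bool := Nat.beq (actW P c i) i

section

variable {ng : ℕ} {l : List (ℕ × ℕ)} {RL : List (List ℕ × ℕ)} {P : Par} {lets : List ℕ}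

/-- stabiliser of a point of a table -/
theorem exists_stab (T : TabOK P ng l lets RL) {i : ℕ} (hi : i < P.m) :
    ∃ S : Subgroup (QG ng l RL), (∀ c : List ℕ, wOK ng c = true → fixB P c i = true → (c.map (qg ng l RL)).prod ∈ S) ∧
      ∀ (c : List ℕ) (m : ℕ), wOK ng c = true → 0 < m → perB P c m i = true →
        ∀ k : ℕ, (c.map (qg ng l RL)).prod ^ k ∈ S ↔ m ∣ k := by
  obtain ⟨A, hA, -⟩ := T.exists_action (univ_qg ng l RL)
  have hact : ∀ c : List ℕ, wOK ng c = true → ∀ j : Fin P.m,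
      ((((c.map (qg ng l RL)).prod)⁻¹ • j : Fin P.m) : ℕ) = actW P c j := by
    intro c hc j
    have hu : ∀ x ∈ c, x ∈ lets := by
      intro x hx
      simp only [wOK, List.all_eq_true] at hc
      exact T.mem_iff.2 (hc x hx)
    have := hA.word hu j
    rw [val_inv] at this
    exact this
  refine ⟨MulAction.stabilizer (QG ng l RL) (⟨i, hi⟩ : Fin P.m), ?_, ?_⟩
  · intro c hc h
    rw [← Subgroup.inv_mem_iff, MulAction.mem_stabilizer_iff]
    apply Fin.ext
    rw [hact c hc]
    exact Nat.eq_of_beq_eq_true h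
  · intro c m hc hm h k
    set a : QG ng l RL := ((c.map (qg ng l RL)).prod)⁻¹ with ha
    have hk : ∀ k : ℕ, ((a ^ k • (⟨i, hi⟩ : Fin P.m) : Fin P.m) : ℕ) = itA P c i k := by
      intro k
      induction k with
      | zero => rw [pow_zero, one_smul]; rfl
      | succ k ih =>
        rw [pow_succ', mul_smul, hact c hc, ih]
        rfl
    simp only [perB, Bool.and_eq_true, List.all_eq_true, Bool.or_eq_true] at h
    obtain ⟨h1, h2⟩ := h
    have h3 : MulAction.period a (⟨i, hi⟩ : Fin P.m) ∣ m := by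
      apply MulAction.pow_smul_eq_iff_period_dvd.1
      apply Fin.ext
      rw [hk]
      exact Nat.eq_of_beq_eq_true h1
    have h4 : MulAction.period a (⟨i, hi⟩ : Fin P.m) = m := by
      by_contra hne
      set d := MulAction.period a (⟨i, hi⟩ : Fin P.m) with hd
      have hd0 : d ≠ 0 := by
        intro h0
        rw [h0, zero_dvd_iff] at h3
        omega
      have hlt : d < m := lt_of_le_of_ne (Nat.le_of_dvd hm h3) hne
      rcases h2 d (List.mem_range.2 hlt) with (h5 | h5) | h5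
      · exact hd0 (Nat.eq_of_beq_eq_true h5)
      · have : m % d = 0 := Nat.mod_eq_zero_of_dvd h3
        rw [this] at h5
        exact absurd h5 (by decide)
      · have h6 : ((a ^ d • (⟨i, hi⟩ : Fin P.m) : Fin P.m) : ℕ) = i := by
          rw [hd, MulAction.pow_period_smul]
        rw [hk] at h6
        rw [h6, Nat.beq_refl] at h5
        exact absurd h5 (by decide)
    rw [← Subgroup.inv_mem_iff, ← inv_pow, MulAction.mem_stabilizer_iff, MulAction.pow_smul_eq_iff_period_dvd, h4]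

end

section

variable {G : Type*} [Group G] {g : ℕ → G} {ng : ℕ} {l : List (ℕ × ℕ)} {R1 : List (ℕ × List ℕ)}
  {R2 : List (List ℕ)} {RL : List (List ℕ × ℕ)}

/-- **Multiplier which is a product of cyclic groups.** -/
theorem CP.multi (C : CP g ng l R1 R2 RL) (hex : exB l R1 RL = true) (hce : ceB l ng R2 RL = true) {n : ℕ}
    (hn : Nat.card G = n) (hn0 : 0 < n) {ι : Type} [Fintype ι] [DecidableEq ι] {m : ι → ℕ} (hm : ∀ i, 0 < m i)
    (hb : Bd (⊤ : Subgroup (QG ng l RL)) (n * ∏ i, m i))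
    {ws : ι → List (List ℕ)} (hws : ∀ i, ∀ w ∈ ws i, w ∈ R2)
    {S : ι → Subgroup (QG ng l RL)}
    (h1 : ∀ i j, j ≠ i → ((ws j).flatten.map (qg ng l RL)).prod ∈ S i)
    (h2 : ∀ i (k : ℕ), ((ws i).flatten.map (qg ng l RL)).prod ^ k ∈ S i ↔ m i ∣ k) :
    ∃ σ : QG ng l RL →* G, IsStemExtension σ ∧ σ.ker = cenN ng l R2 RL ∧ Nat.card σ.ker = ∏ i, m i ∧
      (∀ x, σ (qg ng l RL x) = g x) ∧ Nonempty (σ.ker ≃* Multiplicative (∀ i, ZMod (m i))) := by
  obtain ⟨hfin, -⟩ := finite_of_bd hb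
  have hcen := cenN_le_center (R2 := R2) C.lets hce
  let icomm : CommGroup (cenN ng l R2 RL) :=
    { (inferInstance : Group (cenN ng l R2 RL)) with
      mul_comm := fun a b => Subtype.ext ((mem_center_iff.1 (hcen a.2) b.1).symm) }
  have key := @pi_iso (cenN ng l R2 RL) ι icomm inferInstance _ _ m hm
    (fun i => ⟨_, words_mem (hws i)⟩) (fun i => (S i).subgroupOf (cenN ng l R2 RL))
    (fun i j hij => h1 i j hij) (fun i k => h2 i k)
  obtain ⟨σ, h3, h4, h5, h6⟩ := C.cover hex hce hn hn0 hb key.1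
  refine ⟨σ, h3, h4, by rw [h4, h5], h6, ?_⟩
  obtain ⟨e⟩ := key.2 h5.le
  rw [h4]
  exact ⟨e⟩

theorem hasSchur_of_cover (C : CP g ng l R1 R2 RL) {n m : ℕ} (hn : Nat.card G = n) (hn0 : 0 < n)
    (hb : Bd (⊤ : Subgroup (QG ng l RL)) (n * m)) {σ : QG ng l RL →* G} (hσ : IsStemExtension σ)
    (hc : Nat.card σ.ker = m) {A : Type*} [CommGroup A] (e : Nonempty (σ.ker ≃* A)) : HasSchurMultiplier G A := by
  obtain ⟨hfin, -⟩ := finite_of_bd hb
  obtain ⟨e⟩ := e
  have hcA : Nat.card A = m := by rw [← hc, Nat.card_congr e.toEquiv]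
  have : Finite σ.ker := inferInstance
  have : Finite A := Finite.of_equiv _ e.toEquiv
  apply Cfsg.Agent.SchurMult.hasSchurMultiplier_of_card_le
  · exact ⟨QG ng l RL, inferInstance, hfin, σ, hσ, ⟨e⟩⟩
  · intro Γ _ _ τ hτ
    rw [hcA]
    exact C.card_ker_le hn hn0 hb hτ

end

end Cfsg.Agent.MulX
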