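import Cfsg.Agent.MulX.Alt
import Cfsg.Agent.MulX.MA6Rel
import Cfsg.Agent.CosetEnum.MA6.Certs

/-!
The Schur multiplier of the alternating group of degree 6 (owner: helper58).
-/
set_option autoImplicit false
set_option maxRecDepth 1000000

namespace Cfsg.Agent.MulX.A6R

open Cfsg.Agent.CosetEnum Cfsg.Agent Cfsg Equiv

/-- letters -/
def gP : ℕ → Perm (Fin 6)
  | 1 => swap 0 4 * swap 4 5
  | 2 => swap 4 5 * swap 0 4
  | 3 => swap 1 4 * swap 4 5
  | 4 => swap 4 5 * swap 1 4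
  | 5 => swap 2 4 * swap 4 5
  | 6 => swap 4 5 * swap 2 4
  | 7 => swap 3 4 * swap 4 5
  | 8 => swap 4 5 * swap 3 4
  | _ => 1

theorem gP_one (x : ℕ) (hx : isLet 8 x = false) : gP x = 1 := by
  by_cases h : x ≤ 8
  · have key : ∀ x ≤ 8, isLet 8 x = false → gP x = 1 := by decide +kernel
    exact key x h hx
  · match x, h with
    | m + 9, _ => rfl

theorem gP_mem (x : ℕ) : gP x ∈ alternatingGroup (Fin 6) := by
  rw [Perm.mem_alternatingGroup]
  by_cases h : x ≤ 8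
  · have key : ∀ x ≤ 8, Perm.sign (gP x) = 1 := by decide +kernel
    exact key x h
  · rw [gP_one x (by
      by_contra hc
      rw [Bool.not_eq_false] at hc
      exact h (isLet_iff.1 hc).2), map_one]

/-- words of the three-cycles -/
def wl : List (List ℕ) := [[], [], [], [], [], [], [], [], [1, 6, 3, 2], [1, 8, 3, 2], [3, 2], [4, 1], [], [1, 4, 5, 2], [], [1, 8, 5, 2], [5, 2], [6, 1], [], [1, 4, 7, 2], [1, 6, 7, 2], [], [7, 2], [8, 1], [], [1, 4], [1, 6], [1, 8], [], [1], [], [2, 3], [2, 5], [2, 7], [2], [], [], [], [1, 4, 5, 2], [1, 4, 7, 2], [1, 4], [2, 3], [], [], [], [], [], [], [1, 6, 3, 2], [], [], [3, 8, 5, 4], [5, 4], [6, 3], [1, 8, 3, 2], [], [3, 6, 7, 4], [], [7, 4], [8, 3], [3, 2], [], [3, 6], [3, 8], [], [3], [4, 1], [], [4, 5], [4, 7], [4], [], [], [1, 6, 3, 2], [], [1, 6, 7, 2], [1, 6], [2, 5], [1, 4, 5, 2], [], [], [3, 6, 7, 4], [3, 6], [4, 5], [], [], [], [], [], [], [1, 8, 5, 2], [3, 8, 5,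 4], [], [], [7, 6], [8, 5], [5, 2], [5, 4], [], [5, 8], [], [5], [6, 1], [6, 3], [], [6, 7], [6], [], [], [1, 8, 3, 2], [1, 8, 5, 2], [], [1, 8], [2, 7], [1, 4, 7, 2], [], [3, 8, 5, 4], [], [3, 8], [4, 7], [1, 6, 7, 2], [3, 6, 7, 4], [], [], [5, 8], [6, 7], [], [], [], [], [], [], [7, 2], [7, 4], [7, 6], [], [], [7], [8, 1], [8, 3], [8, 5], [], [8], [], [], [3, 2], [5, 2], [7, 2], [], [2], [1, 4], [], [5, 4], [7, 4], [], [4], [1, 6], [3, 6], [], [7, 6], [], [6], [1, 8], [3, 8], [5, 8], [], [], [8], [], [], [], [], [], [], [1], [3], [5], [7], [], [], [], [4, 1], [6, 1], [8, 1], [1], [], [2, 3], [], [6, 3], [8, 3], [3], [], [2, 5], [4, 5], [], [8, 5], [5], [], [2, 7], [4, 7], [6, 7], [], [7], [], [2], [4], [6], [8], [], [], [], [], [], [], [], []]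

/-- words of the three-cycles -/
def wd (a b c : Fin 6) : List ℕ := wl.getD ((a.1 * 6 + b.1) * 6 + c.1) []

theorem top : Cl (altF gP_mem) 8 = ⊤ :=
  altF_top gP_mem (wd := wd) (by decide +kernel) (by decide +kernel)

theorem rel_ok : letB 8 MA6A.iv = true ∧ triB 8 MA6A.iv MA6R.R1 = true ∧ relB MA6A.iv 8 MA6R.R1 MA6R.R2 MA6A.RL = true ∧
    (List.range (8 + 1)).all (fun x => !isLet 8 x || (MA6R.R1.any fun q => q.1 == x || ivL MA6A.iv q.1 == x)) = true ∧
    exB MA6A.iv MA6R.R1 MA6A.RL = true ∧ ceB MA6A.iv 8 MA6R.R2 MA6A.RL = true := by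
  decide +kernel

theorem cp : CP (altF gP_mem) 8 MA6A.iv MA6R.R1 MA6R.R2 MA6A.RL := by
  obtain ⟨h1, h2, h3, h4, -, -⟩ := rel_ok
  exact altF_cp gP_mem h1 h2 h3 h4 (by decide +kernel) gP_one (by decide +kernel) (by decide +kernel) top

theorem ord : 6 ∣ orderOf ((([[1, 7, 1, 7]] : List (List ℕ)).flatten.map (qg 8 MA6A.iv MA6A.RL)).prod) :=
  dvd_orderOf MA6T.tabOK (c := [1, 7, 1, 7]) (by decide) (by norm_num) (i := 0) (by decide +kernel) (by decide +kernel)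

theorem bd : Bd (⊤ : Subgroup (QG 8 MA6A.iv MA6A.RL)) (360 * 6) := by
  have U := univ_qg 8 MA6A.iv MA6A.RL
  have g := U.good
  rw [← U.top]
  exact (Bd.zero (qg 8 MA6A.iv MA6A.RL)).cl (M := 360 * 6) MA6A.cert g (by decide +kernel) (by decide +kernel)
    (by norm_num) rfl

theorem card : Nat.card (alternatingGroup (Fin 6)) = 360 := by
  rw [nat_card_alternatingGroup, Nat.card_eq_fintype_card, Fintype.card_fin]
  decide

theorem mult : HasCyclicSchurMultiplier (alternatingGroup (Fin 6)) 6 := by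
  obtain ⟨-, -, -, -, h5, h6⟩ := rel_ok
  exact cp.cyclic h5 h6 card (by norm_num) (by norm_num) bd (ws := [[1, 7, 1, 7]]) (by decide) ord

end Cfsg.Agent.MulX.A6R
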