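import Cfsg.Agent.MulX.TabFam

/-!
Central presentations of groups acting on labelled points (owner: helper58).

`pt : Fin n → Ω` labels points of a `G`-set, the letters act on the labelled points through permutation tables.
-/
set_option autoImplicit false

namespace Cfsg.Agent.MulX

open Cfsg.Agent.CosetEnum Cfsg.Agent.PermTab Cfsg.Agent.LE Subgroup

variable {G Ω : Type*} [Group G] [MulAction G Ω] {w n idt : ℕ} {tb : ℕ → ℕ} {g : ℕ → G} {pt : Fin n → Ω}

/-- the letters act as the tables -/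
structure ActT (w n : ℕ) (tb : ℕ → ℕ) (g : ℕ → G) (pt : Fin n → Ω) : Prop where
  valid : ∀ x, tvalid w n (tb x) = true
  act : ∀ x i, g x • pt i = pt (toPerm w n (tb x) i)
  faith : ∀ a : G, (∀ i, a • pt i = pt i) → a = 1
  inj : Function.Injective pt

theorem ActT.inGrp (A : ActT w n tb g pt) (x : ℕ) : InGrp w n ⊤ (tb x) := ⟨A.valid x, mem_top _⟩

theorem ActT.word (A : ActT w n tb g pt) (hn : n ≤ 2 ^ w) (hid : idt = tid w n) (u : List ℕ) (i : Fin n) :
    (u.map g).prod • pt i = pt (toPerm w n (tword w n idt tb u) i) := by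
  induction u generalizing i with
  | nil =>
    rw [tword_nil, hid, (toPerm_tid hn).2]
    simp
  | cons x u ih =>
    rw [List.map_cons, List.prod_cons, mul_smul, ih, A.act, tword_cons,
      toPerm_tmul (A.valid x) (tword_spec hn hid A.inGrp u).1]
    rfl

theorem ActT.word_one (A : ActT w n tb g pt) (hn : n ≤ 2 ^ w) (hid : idt = tid w n) {u : List ℕ}
    (hu : tword w n idt tb u = idt) : (u.map g).prod = 1 := by
  apply A.faith
  intro i
  rw [A.word hn hid, hu, hid, (toPerm_tid hn).2]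
  rfl

theorem ActT.lift (A : ActT w n tb g pt) {ng : ℕ} {σ : Equiv.Perm (Fin n)}
    (hσ : σ ∈ closure {x | ∃ y, isLet ng y = true ∧ x = toPerm w n (tb y)}) :
    ∃ a ∈ Cl g ng, ∀ i, a • pt i = pt (σ i) := by
  induction hσ using closure_induction with
  | mem x hx =>
    obtain ⟨y, hy, rfl⟩ := hx
    exact ⟨g y, subset_closure ⟨y, hy, rfl⟩, A.act y⟩
  | one => exact ⟨1, one_mem _, fun i => by simp⟩
  | mul x y _ _ ihx ihy =>
    obtain ⟨a, ha, ha'⟩ := ihx
    obtain ⟨b, hb, hb'⟩ := ihy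
    exact ⟨a * b, mul_mem ha hb, fun i => by rw [mul_smul, hb', ha', Equiv.Perm.mul_apply]⟩
  | inv x _ ihx =>
    obtain ⟨a, ha, ha'⟩ := ihx
    refine ⟨a⁻¹, inv_mem ha, fun i => ?_⟩
    rw [inv_smul_eq_iff, ha']
    exact congrArg pt (Equiv.apply_symm_apply x i).symm

theorem ActT.card_le (A : ActT w n tb g pt) [Finite G] {ng : ℕ} {J : Subgroup (Equiv.Perm (Fin n))}
    (hJ : J ≤ closure {x | ∃ y, isLet ng y = true ∧ x = toPerm w n (tb y)}) : Nat.card J ≤ Nat.card (Cl g ng) := by
  have h : ∀ σ : J, ∃ a : Cl g ng, ∀ i, (a : G) • pt i = pt ((σ : Equiv.Perm (Fin n)) i) := by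
    intro σ
    obtain ⟨a, ha, ha'⟩ := A.lift (hJ σ.2)
    exact ⟨⟨a, ha⟩, ha'⟩
  choose f hf using h
  apply Nat.card_le_card_of_injective f
  intro σ τ hστ
  apply Subtype.ext
  ext i
  have h1 := hf σ i
  rw [hστ, hf τ i] at h1
  rw [A.inj h1]

theorem ActT.grp_le (A : ActT w n tb g pt) (hn : n ≤ 2 ^ w) (hid : idt = tid w n) {ng : ℕ} {lev : Lev} {L : List Lev}
    {ws : List (List ℕ)} (hws : lev.gens = ws.map (tword w n idt tb))
    (hlet : ws.all (fun u => u.all fun x => isLet ng x) = true) :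
    grp w n (lev :: L) ≤ closure {x | ∃ y, isLet ng y = true ∧ x = toPerm w n (tb y)} := by
  show grpOf w n lev.gens ≤ _
  unfold grpOf
  rw [closure_le]
  rintro _ ⟨t, ht, rfl⟩
  rw [hws] at ht
  obtain ⟨u, hu, rfl⟩ := List.mem_map.1 ht
  rw [List.all_eq_true] at hlet
  have hu' := hlet u hu
  clear ht hu
  induction u with
  | nil =>
    rw [tword_nil, hid, (toPerm_tid hn).2]
    exact one_mem _
  | cons x u ih =>
    rw [List.all_cons, Bool.and_eq_true] at hu'
    rw [tword_cons, toPerm_tmul (A.valid x) (tword_spec hn hid A.inGrp u).1]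
    exact mul_mem (subset_closure ⟨x, hu'.1, rfl⟩) (ih hu'.2)

/-- generation from a stabiliser chain -/
theorem ActT.top (A : ActT w n tb g pt) [Finite G] (hn : n ≤ 2 ^ w) (hid : idt = tid w n) {ng : ℕ} {lev : Lev}
    {L : List Lev} (hc : chkChain w n idt (lev :: L) = true)
    {ws : List (List ℕ)} (hws : lev.gens = ws.map (tword w n idt tb))
    (hlet : ws.all (fun u => u.all fun x => isLet ng x) = true) (hcard : Nat.card G ≤ chainCard n (lev :: L)) :
    Cl g ng = ⊤ := by
  have h1 := A.card_le (A.grp_le hn hid (L := L) hws hlet)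
  rw [card_grp hn hid _ hc] at h1
  exact Subgroup.eq_top_of_le_card _ (hcard.trans h1)

theorem ActT.cp (A : ActT w n tb g pt) (hn : n ≤ 2 ^ w) (hid : idt = tid w n) {ng : ℕ}
    {iv : List (ℕ × ℕ)} {R1 : List (ℕ × List ℕ)} {R2 : List (List ℕ)} {RL : List (List ℕ × ℕ)}
    (hlet : letB ng iv = true) (htri : triB ng iv R1 = true) (hrel : relB iv ng R1 R2 RL = true)
    (hcov : (List.range (ng + 1)).all (fun x => !isLet ng x || (R1.any fun q => q.1 == x || ivL iv q.1 == x)) = true)
    (hinv : ∀ x ≤ ng, tmul w n (tb (ivL iv x)) (tb x) = idt)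
    (h0 : tb 0 = idt) (hone : ∀ x, ng < x → tb x = idt)
    (hR1 : trivTB w n idt tb (R1.map Prod.snd) = true) (hR2 : trivTB w n idt tb R2 = true)
    (htop : Cl g ng = ⊤) : CP g ng iv R1 R2 RL := by
  have hone' : ∀ x, tb x = idt → g x = 1 := by
    intro x hx
    apply A.faith
    intro i
    rw [A.act, hx, hid, (toPerm_tid hn).2]; rfl
  have hnot : ∀ y, isLet ng y = false → tb y = idt := by
    intro y hy
    rcases Nat.eq_zero_or_pos y with rfl | h1
    · exact h0
    · apply hone
      by_contra hc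
      rw [isLet_iff.2 ⟨h1, by omega⟩] at hy
      exact Bool.noConfusion hy
  refine ⟨hlet, htri, hrel, hcov, ?_, fun y hy => hone' y (hnot y hy), ?_, ?_, htop⟩
  · intro x
    by_cases hx : x ≤ ng
    · have h1 := hinv x hx
      rw [eq_inv_iff_mul_eq_one]
      apply A.faith
      intro i
      rw [mul_smul, A.act, A.act, ← Equiv.Perm.mul_apply, ← toPerm_tmul (A.valid _) (A.valid _), h1, hid,
        (toPerm_tid hn).2]
      rfl
    · have hx' : isLet ng x = false := by
        by_contra hc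
        rw [Bool.not_eq_false] at hc
        have := (isLet_iff.1 hc).2
        omega
      rw [hone' x (hone x (by omega)), hone' _ (hnot _ (letB_out hlet hx')), inv_one]
  · intro q hq
    exact A.word_one hn hid (Nat.eq_of_beq_eq_true ((lall_iff _ _).1 hR1 q.2 (List.mem_map.2 ⟨q, hq, rfl⟩)))
  · intro u hu
    exact A.word_one hn hid (Nat.eq_of_beq_eq_true ((lall_iff _ _).1 hR2 u hu))

end Cfsg.Agent.MulX
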