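import Cfsg.Agent.MulX.Tab
import Mathlib.GroupTheory.SpecificGroups.Alternating

/-!
Central presentations of alternating groups (owner: helper58).
-/
set_option autoImplicit false

namespace Cfsg.Agent.MulX

open Cfsg.Agent.CosetEnum Cfsg Subgroup Equiv

variable {n : ℕ} {gP : ℕ → Perm (Fin n)}

/-- the family in the alternating group -/
def altF (hs : ∀ x, gP x ∈ alternatingGroup (Fin n)) (x : ℕ) : alternatingGroup (Fin n) := ⟨gP x, hs x⟩

theorem altF_prod (hs : ∀ x, gP x ∈ alternatingGroup (Fin n)) (w : List ℕ) :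
    (((w.map (altF hs)).prod : alternatingGroup (Fin n)) : Perm (Fin n)) = (w.map gP).prod := by
  induction w with
  | nil => rfl
  | cons x w ih => rw [List.map_cons, List.prod_cons, List.map_cons, List.prod_cons, ← ih]; rfl

theorem prod_mem_Cl' {H : Type*} [Group H] (h : ℕ → H) (ng : ℕ) (w : List ℕ) (hw : w.all (fun x => isLet ng x) = true) :
    (w.map h).prod ∈ Cl h ng := by
  apply list_prod_mem
  intro y hy
  obtain ⟨x, hx, rfl⟩ := List.mem_map.1 hy
  rw [List.all_eq_true] at hw
  exact subset_closure ⟨x, hw x hx, rfl⟩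

theorem altF_top (hs : ∀ x, gP x ∈ alternatingGroup (Fin n)) {ng : ℕ} {wd : Fin n → Fin n → Fin n → List ℕ}
    (hwl : ∀ a b c, (wd a b c).all (fun x => isLet ng x) = true)
    (h : ∀ a b c : Fin n, a ≠ b → a ≠ c → b ≠ c → ((wd a b c).map gP).prod = swap a b * swap b c) :
    Cl (altF hs) ng = ⊤ := by
  have key : alternatingGroup (Fin n) ≤ (Cl (altF hs) ng).map (alternatingGroup (Fin n)).subtype := by
    refine Perm.closure_three_cycles_eq_alternating.symm.le.trans ((closure_le _).2 ?_)
    intro σ (hσ : σ.IsThreeCycle)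
    have hne : σ.support.Nonempty := by
      rw [← Finset.card_pos, hσ.card_support]; norm_num
    obtain ⟨a, ha⟩ := hne
    have e := hσ.eq_swap_mul_swap_iff_mem_support.2 ha
    have hnd := hσ.nodup_iff_mem_support.2 ha
    simp only [List.nodup_cons, List.mem_cons, List.not_mem_nil, or_false, not_or, not_false_eq_true] at hnd
    refine ⟨_, prod_mem_Cl' (altF hs) ng _ (hwl a (σ a) (σ (σ a))), ?_⟩
    rw [Subgroup.subtype_apply, altF_prod, h a (σ a) (σ (σ a)) hnd.1.1 hnd.1.2 hnd.2.1, ← e]
  rw [eq_top_iff]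
  intro x _
  obtain ⟨y, hy, he⟩ := key x.2
  have : y = x := Subtype.ext he
  rwa [this] at hy

theorem altF_cp (hs : ∀ x, gP x ∈ alternatingGroup (Fin n)) {ng : ℕ}
    {iv : List (ℕ × ℕ)} {R1 : List (ℕ × List ℕ)} {R2 : List (List ℕ)} {RL : List (List ℕ × ℕ)}
    (hlet : letB ng iv = true) (htri : triB ng iv R1 = true) (hrel : relB iv ng R1 R2 RL = true)
    (hcov : (List.range (ng + 1)).all (fun x => !isLet ng x || (R1.any fun q => q.1 == x || ivL iv q.1 == x)) = true)
    (hinv : ∀ x ≤ ng, gP (ivL iv x) * gP x = 1)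
    (hone : ∀ x, isLet ng x = false → gP x = 1)
    (hR1 : ∀ q ∈ R1, (q.2.map gP).prod = 1) (hR2 : ∀ w ∈ R2, (w.map gP).prod = 1)
    (htop : Cl (altF hs) ng = ⊤) : CP (altF hs) ng iv R1 R2 RL := by
  refine ⟨hlet, htri, hrel, hcov, ?_, fun y hy => Subtype.ext (hone y hy), ?_, ?_, htop⟩
  · intro x
    rw [eq_inv_iff_mul_eq_one]
    apply Subtype.ext
    show gP (ivL iv x) * gP x = 1
    by_cases hx : x ≤ ng
    · exact hinv x hx
    · have hx' : isLet ng x = false := by
        by_contra hc
        rw [Bool.not_eq_false] at hc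
        have := (isLet_iff.1 hc).2
        omega
      rw [hone x hx', hone _ (letB_out hlet hx'), one_mul]
  · intro q hq
    apply Subtype.ext
    rw [altF_prod]; exact hR1 q hq
  · intro u hu
    apply Subtype.ext
    rw [altF_prod]; exact hR2 u hu

end Cfsg.Agent.MulX
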