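import Cfsg.Agent.MulX.Co0ED

/-!
Data for the prime 5 in `Co0` (owner: helper58)
-/

set_option autoImplicit false
set_option maxRecDepth 1000000

namespace Cfsg.Agent.MulX.Co0E

open Cfsg Cfsg.Agent.Leech Cfsg.Agent.H90.Co Cfsg.Agent.MulX.Stb

theorem K_good : K.Good := ⟨bd_of_bdB 21 (by decide +kernel), bd_of_bdB 21 (by decide +kernel), bd_of_bdB 21 (by decide +kernel)⟩
theorem rules_ok : (rules.all fun r => ruleOK q 7 r) = true := by decide +kernel
theorem pc_ok : pcOK 5 4 10 rules = true := by decide +kernel
theorem chn_ok : chainB q 7 4 chn = true := by decide +kernel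
theorem chn_prod : (chn.map fun b => b.2.length).prod = 5 ^ 4 := by decide +kernel
theorem paths_ok0 : pathsB 5 K rules paths0 rows0 = true := by decide +kernel
theorem rows_eq : rows = rows0 := rfl
theorem rows_ok : ∀ row ∈ rows, ∃ d, pathOK 5 K rules d row = true := by
  intro row h
  rw [rows_eq] at h
  exact pathsB_spec paths_ok0 row h
theorem gau_ok : gauge.all (fun L => Nat.beq (Nat.land L K.M7) L) = true := by decide +kernel
theorem tgts_ok0 : tgtsOK 5 K rules 8 rows gauge 0 certs0 = true := by decide +kernel
theorem tgts_ok : ∀ r < 10, ∃ M, tgtOK 5 K rules 8 rows gauge r M = true := by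
  intro r hr
  have h1 := tgtsOK_spec tgts_ok0 (r - 0) (by have : certs0.length = 10 := rfl; omega)
  rwa [show 0 + (r - 0) = r by omega] at h1
theorem rows_len : rows.length ≤ 8 := by decide +kernel

end Cfsg.Agent.MulX.Co0E
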