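import Cfsg.Agent.MulX.Co0B
import Cfsg.Agent.MulX.Co0C
import Cfsg.Agent.MulX.Co0E
import Cfsg.Agent.MulX.Co0G
import Cfsg.Agent.MulX.Co1NL
import Cfsg.Agent.H90.CoLoc
import Cfsg.Agent.Mult.SLMult
import Cfsg.Agent.LeechSimple.HS
import Cfsg.Agent.BSW.Main

/-!
# The Schur multiplier of `Co0` is trivial, that of `Co1` has order 2 (owner: helper58)
-/

set_option autoImplicit false

namespace Cfsg.Agent.MulX.Co1Fin

open Cfsg Cfsg.Agent.Golay Cfsg.Agent.MulX.Coh Cfsg.Agent.MulX.Stb Cfsg.Agent.Leech Cfsg.Agent.H90.Co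
open scoped commutatorElement

instance : Finite Co0 := Cfsg.Agent.LeechSimple.finite_Co0

theorem card_T : Nat.card (⊤ : Subgroup Co0) = 8315553613086720000 := by rw [Subgroup.card_top, card_Co0]

variable {Γ : Type} [Group Γ] [Finite Γ] {σ : Γ →* (⊤ : Subgroup Co0)}

theorem two (hσ : IsStemExtension σ) : ¬ 2 ∣ Nat.card σ.ker := by
  have : Fact (Nat.Prime 2) := ⟨Nat.prime_two⟩
  refine co_main hσ Co0B.D_ok (fun _ => Subgroup.mem_top _)
    (rules := Co0B.rules) (N := 27) (by rw [Co0B.D_len]) ?_ Co0B.K_good Co0B.pc_ok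
    (L := Co0B.chn) (by rw [Co0B.qs_D]; exact Co0B.chn_ok) Co0B.chn_prod (m := 1982582476875) (by rw [card_T]; norm_num)
    (by norm_num) Co0B.rows_ok Co0B.rows_len Co0B.gau_ok Co0B.tgts_ok
  rw [Co0B.qs_D]
  exact fun r hr => List.all_eq_true.1 Co0B.rules_ok r hr

theorem three (hσ : IsStemExtension σ) : ¬ 3 ∣ Nat.card σ.ker := by
  have : Fact (Nat.Prime 3) := ⟨Nat.prime_three⟩
  refine co_main hσ Co0C.D_ok (fun _ => Subgroup.mem_top _)
    (rules := Co0C.rules) (N := 11) (by rw [Co0C.D_len]) ?_ Co0C.K_good Co0C.pc_ok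
    (L := Co0C.chn) (by rw [Co0C.qs_D]; exact Co0C.chn_ok) Co0C.chn_prod (m := 422473891840000) (by rw [card_T]; norm_num)
    (by norm_num) Co0C.rows_ok Co0C.rows_len Co0C.gau_ok Co0C.tgts_ok
  rw [Co0C.qs_D]
  exact fun r hr => List.all_eq_true.1 Co0C.rules_ok r hr

theorem five (hσ : IsStemExtension σ) : ¬ 5 ∣ Nat.card σ.ker := by
  have : Fact (Nat.Prime 5) := ⟨Nat.prime_five⟩
  refine co_main hσ Co0E.D_ok (fun _ => Subgroup.mem_top _)
    (rules := Co0E.rules) (N := 7) (by rw [Co0E.D_len]) ?_ Co0E.K_good Co0E.pc_ok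
    (L := Co0E.chn) (by rw [Co0E.qs_D]; exact Co0E.chn_ok) Co0E.chn_prod (m := 13304885780938752) (by rw [card_T]; norm_num)
    (by norm_num) Co0E.rows_ok Co0E.rows_len Co0E.gau_ok Co0E.tgts_ok
  rw [Co0E.qs_D]
  exact fun r hr => List.all_eq_true.1 Co0E.rules_ok r hr

theorem seven (hσ : IsStemExtension σ) : ¬ 7 ∣ Nat.card σ.ker := by
  have : Fact (Nat.Prime 7) := ⟨by norm_num⟩
  refine co_main hσ Co0G.D_ok (fun _ => Subgroup.mem_top _)
    (rules := Co0G.rules) (N := 5) (by rw [Co0G.D_len]) ?_ Co0G.K_good Co0G.pc_ok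
    (L := Co0G.chn) (by rw [Co0G.qs_D]; exact Co0G.chn_ok) Co0G.chn_prod (m := 169705175777280000) (by rw [card_T]; norm_num)
    (by norm_num) Co0G.rows_ok Co0G.rows_len Co0G.gau_ok Co0G.tgts_ok
  rw [Co0G.qs_D]
  exact fun r hr => List.all_eq_true.1 Co0G.rules_ok r hr

theorem sq_cases {q : ℕ} (hq : q.Prime) (h : q ^ 2 ∣ 8315553613086720000) : q = 2 ∨ q = 3 ∨ q = 5 ∨ q = 7 := by
  have h1 : q ∣ 2 ^ 22 * 3 ^ 9 * 5 ^ 4 * 7 ^ 2 * 11 * 13 * 23 :=
    (dvd_pow_self q two_ne_zero).trans (by norm_num at h ⊢; exact h)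
  rw [hq.dvd_mul, hq.dvd_mul, hq.dvd_mul, hq.dvd_mul, hq.dvd_mul, hq.dvd_mul] at h1
  rcases h1 with (((((h1 | h1) | h1) | h1) | h1) | h1) | h1
  · left; exact (Nat.prime_dvd_prime_iff_eq hq Nat.prime_two).1 (hq.dvd_of_dvd_pow h1)
  · right; left; exact (Nat.prime_dvd_prime_iff_eq hq Nat.prime_three).1 (hq.dvd_of_dvd_pow h1)
  · right; right; left; exact (Nat.prime_dvd_prime_iff_eq hq Nat.prime_five).1 (hq.dvd_of_dvd_pow h1)
  · right; right; right; exact (Nat.prime_dvd_prime_iff_eq hq (by norm_num)).1 (hq.dvd_of_dvd_pow h1)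
  · have h2 := (Nat.prime_dvd_prime_iff_eq hq (by norm_num)).1 h1
    subst h2; norm_num at h
  · have h2 := (Nat.prime_dvd_prime_iff_eq hq (by norm_num)).1 h1
    subst h2; norm_num at h
  · have h2 := (Nat.prime_dvd_prime_iff_eq hq (by norm_num)).1 h1
    subst h2; norm_num at h

theorem main0 : HasCyclicSchurMultiplier (⊤ : Subgroup Co0) 1 := by
  rw [Cfsg.Agent.SchurMult.hasCyclicSchurMultiplier_one_iff]
  intro Γ _ _ σ hσ
  rw [← Subgroup.card_eq_one]
  by_contra hne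
  obtain ⟨q, hq, hqd⟩ := Nat.exists_prime_and_dvd hne
  have : Fact q.Prime := ⟨hq⟩
  by_cases h2 : q ^ 2 ∣ Nat.card (⊤ : Subgroup Co0)
  · rw [card_T] at h2
    rcases sq_cases hq h2 with rfl | rfl | rfl | rfl
    · exact two hσ hqd
    · exact three hσ hqd
    · exact five hσ hqd
    · exact seven hσ hqd
  · exact Cfsg.Agent.H90.Stem.not_dvd_of_sq hσ h2 hqd

/-- The Schur multiplier of `Co0` is trivial. -/
theorem main_co0 : HasCyclicSchurMultiplier Co0 1 :=
  Cfsg.Agent.SchurMult.hasSchurMultiplier_of_equiv Subgroup.topEquiv main0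

/-! ### `Co0` is perfect -/

noncomputable def g3 (i : ℕ) : Co0 := if i = 2 then negElt else gl Co1N.D i
def q3 : List (List ℕ × ℕ) := [Co1N.q0, Co1N.q1, (mnQ, mnK)]

theorem act3 : ∀ i < 3, Act (g3 i) (q3.getD i ([], 0)) := by
  intro i hi
  interval_cases i
  · exact gl_act (ds := Co1N.D) Co1N.D_ok (i := 0) (by rw [Co1N.D_len]; norm_num)
  · exact gl_act (ds := Co1N.D) Co1N.D_ok (i := 1) (by rw [Co1N.D_len]; norm_num)
  · show Act negElt (mnQ, mnK)
    rw [← mn_eq]; exact act_mat mnM mnP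

theorem rel3 : eqW q3 [0, 1] [1, 0, 2] = true := by decide +kernel

theorem neg_mem : negElt ∈ commutator Co0 := by
  have h := eq_of_eqW (qs := q3) (gs := g3) (w := [0, 1]) (w' := [1, 0, 2])
    (by intro i hi; apply act3; fin_cases hi <;> norm_num) (by intro i hi; apply act3; fin_cases hi <;> norm_num) rel3
  have h1 : g3 1 * g3 0 = negElt * g3 0 * g3 1 := by
    have e1 : wd g3 [0, 1] = g3 1 * g3 0 := by rw [wd_cons, wd_cons, wd_nil, one_mul]
    have e2 : wd g3 [1, 0, 2] = g3 2 * g3 0 * g3 1 := by rw [wd_cons, wd_cons, wd_cons, wd_nil, one_mul]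
    rw [e1, e2] at h
    exact h
  have h2 : negElt = ⁅g3 1, g3 0⁆ := by
    rw [commutatorElement_def, h1]; group
  rw [h2]
  exact Subgroup.commutator_mem_commutator (Subgroup.mem_top _) (Subgroup.mem_top _)

theorem perfect : commutator Co0 = ⊤ := by
  have hs : IsSimpleGroup (Co0 ⧸ Subgroup.center Co0) :=
    Cfsg.Agent.LeechSimple.simple_co1 Cfsg.Agent.LeechSimple.card_hs
  have hnc : ¬ IsCyclic (Co0 ⧸ Subgroup.center Co0) := by
    intro hc
    letI := IsCyclic.commGroup (α := Co0 ⧸ Subgroup.center Co0)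
    have h1 : (Nat.card (Co0 ⧸ Subgroup.center Co0)).Prime := IsSimpleGroup.prime_card
    rw [Cfsg.Agent.LeechSimple.card_co1] at h1
    have h2 := (Nat.prime_dvd_prime_iff_eq Nat.prime_two h1).1 (by norm_num)
    norm_num at h2
  have h1 := Cfsg.Agent.BSW.commutator_eq_top hnc
  have h2 : (commutator Co0).map (QuotientGroup.mk' (Subgroup.center Co0)) = ⊤ := by
    rw [← h1, commutator_def, Subgroup.map_commutator,
      Subgroup.map_top_of_surjective _ (QuotientGroup.mk'_surjective _), commutator_def]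
  rw [eq_top_iff]
  intro g _
  have h3 : QuotientGroup.mk' (Subgroup.center Co0) g ∈ (commutator Co0).map (QuotientGroup.mk' (Subgroup.center Co0)) := by
    rw [h2]; exact Subgroup.mem_top _
  obtain ⟨c, hc, hcg⟩ := h3
  have h4 : c⁻¹ * g ∈ Subgroup.center Co0 := QuotientGroup.eq.1 hcg
  have h5 : c⁻¹ * g ∈ commutator Co0 := by
    rcases center_cases h4 with h | h
    · rw [h]; exact Subgroup.one_mem _
    · rw [h]; exact neg_mem
  have : g = c * (c⁻¹ * g) := by group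
  rw [this]
  exact Subgroup.mul_mem _ hc h5

/-- The Schur multiplier of `Co1` has order 2. -/
theorem main : HasCyclicSchurMultiplier Spor.Co1 2 := by
  have hk : (QuotientGroup.mk' (Subgroup.center Co0)).ker = Subgroup.center Co0 := QuotientGroup.ker_mk' _
  have h2 : Nat.card (QuotientGroup.mk' (Subgroup.center Co0)).ker = 2 := by rw [hk, card_center_Co0]
  have : Fact (Nat.Prime 2) := ⟨Nat.prime_two⟩
  have e : (QuotientGroup.mk' (Subgroup.center Co0)).ker ≃* Multiplicative (ZMod 2) :=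
    mulEquivOfPrimeCardEq (p := 2) h2 (by rw [Nat.card_congr Multiplicative.toAdd, Nat.card_zmod])
  exact Cfsg.Agent.Mult.mult_of_central perfect main_co0 (QuotientGroup.mk' (Subgroup.center Co0))
    (QuotientGroup.mk'_surjective _) (by rw [hk]) e

end Cfsg.Agent.MulX.Co1Fin
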