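import Cfsg.Agent.MulX.Co2BD

/-!
Data for the prime 2 in `Co2` (owner: helper58)
-/

set_option autoImplicit false
set_option maxRecDepth 1000000

namespace Cfsg.Agent.MulX.Co2B

open Cfsg Cfsg.Agent.Leech Cfsg.Agent.H90.Co Cfsg.Agent.MulX.Stb

theorem K_good : K.Good := ⟨bd_of_bdB 238 (by decide +kernel), bd_of_bdB 238 (by decide +kernel), bd_of_bdB 238 (by decide +kernel)⟩
theorem rules_ok : (rules.all fun r => ruleOK q 22 r) = true := by decide +kernel
theorem pc_ok : pcOK 2 18 171 rules = true := by decide +kernel
theorem chn_ok : chainB q 22 18 chn = true := by decide +kernel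
theorem chn_prod : (chn.map fun b => b.2.length).prod = 2 ^ 18 := by decide +kernel
theorem paths_ok0 : pathsB 2 K rules paths0 rows0 = true := by decide +kernel
theorem paths_ok1 : pathsB 2 K rules paths1 rows1 = true := by decide +kernel
theorem paths_ok2 : pathsB 2 K rules paths2 rows2 = true := by decide +kernel
theorem paths_ok3 : pathsB 2 K rules paths3 rows3 = true := by decide +kernel
theorem paths_ok4 : pathsB 2 K rules paths4 rows4 = true := by decide +kernel
theorem rows_eq : rows = rows0 ++ rows1 ++ rows2 ++ rows3 ++ rows4 := rfl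
theorem rows_ok : ∀ row ∈ rows, ∃ d, pathOK 2 K rules d row = true := by
  intro row h
  rw [rows_eq] at h
  simp only [List.mem_append] at h
  rcases h with (((h | h) | h) | h) | h
  · exact pathsB_spec paths_ok0 row h
  · exact pathsB_spec paths_ok1 row h
  · exact pathsB_spec paths_ok2 row h
  · exact pathsB_spec paths_ok3 row h
  · exact pathsB_spec paths_ok4 row h
theorem gau_ok : gauge.all (fun L => Nat.beq (Nat.land L K.M7) L) = true := by decide +kernel
theorem tgts_ok0 : tgtsOK 2 K rules 175 rows gauge 0 certs0 = true := by decide +kernel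
theorem tgts_ok1 : tgtsOK 2 K rules 175 rows gauge 40 certs1 = true := by decide +kernel
theorem tgts_ok2 : tgtsOK 2 K rules 175 rows gauge 80 certs2 = true := by decide +kernel
theorem tgts_ok3 : tgtsOK 2 K rules 175 rows gauge 120 certs3 = true := by decide +kernel
theorem tgts_ok4 : tgtsOK 2 K rules 175 rows gauge 160 certs4 = true := by decide +kernel
theorem tgts_ok : ∀ r < 171, ∃ M, tgtOK 2 K rules 175 rows gauge r M = true := by
  intro r hr
  by_cases h0 : r < 40
  · have h1 := tgtsOK_spec tgts_ok0 (r - 0) (by have : certs0.length = 40 := rfl; omega)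
    rwa [show 0 + (r - 0) = r by omega] at h1
  by_cases h1 : r < 80
  · have h1 := tgtsOK_spec tgts_ok1 (r - 40) (by have : certs1.length = 40 := rfl; omega)
    rwa [show 40 + (r - 40) = r by omega] at h1
  by_cases h2 : r < 120
  · have h1 := tgtsOK_spec tgts_ok2 (r - 80) (by have : certs2.length = 40 := rfl; omega)
    rwa [show 80 + (r - 80) = r by omega] at h1
  by_cases h3 : r < 160
  · have h1 := tgtsOK_spec tgts_ok3 (r - 120) (by have : certs3.length = 40 := rfl; omega)
    rwa [show 120 + (r - 120) = r by omega] at h1
  have h1 := tgtsOK_spec tgts_ok4 (r - 160) (by have : certs4.length = 11 := rfl; omega)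
  rwa [show 160 + (r - 160) = r by omega] at h1
theorem rows_len : rows.length ≤ 175 := by decide +kernel

end Cfsg.Agent.MulX.Co2B
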