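import Cfsg.Agent.MulX.Co2EL

/-!
Data for the prime 5 in `Co2` (owner: helper58)
-/

set_option autoImplicit false
set_option maxRecDepth 1000000

namespace Cfsg.Agent.MulX.Co2E

open Cfsg Cfsg.Agent.Leech Cfsg.Agent.H90.Co Cfsg.Agent.MulX.Stb

/-- rules -/
def rules : List (List ℕ × List ℕ) := [([0, 0, 0, 0, 0], []), ([1, 1, 1, 1, 1], []), ([2, 2, 2, 2, 2], []), ([1, 0], [0, 1, 2, 2, 2, 2]), ([2, 0], [0, 2]), ([2, 1], [1, 2]), ([3, 1], [1, 1, 1, 1, 2, 2, 2, 3]), ([3, 0], [0, 0, 0, 0, 2, 3]), ([3, 2], [2, 3])]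
/-- masks -/
def K : Mk := ⟨0x700070007000700070007000700070007, 0xfff0fff0fff0fff0fff0fff0fff0fff0fff, 0x3ff03ff03ff03ff03ff03ff03ff03ff03ff⟩
def paths0 : List (List ℕ × ℕ × ℕ) := [([3, 2, 1], 9, 0xa03000c0100100f000a06000a04000a02000a00000c02001000), ([3, 2, 0], 9, 0x803000e0100100b000806000804000802000800000e02001000), ([1, 1, 1, 1, 1, 0], 21, 0x609000607000605000603000601000a0b000a09000a07000a05000407000a0b000a09000a07000409000a0b000a0900040b000a0b000203000403000200), ([3, 0, 0, 0, 0, 0], 51, 0x300040000000000080800080a00080c00080e00080600080800080a00080c00080400080600080800080a00080200080400080600080800080000080200080400000000080800080a00080c00080600080800080a00080400080600080800080200080400080000080200000000080800080a000806000808000804000802000800000000000808000e28000e1e000e14000e0a000e00), ([3, 1, 1, 1, 1, 1], 53, 0x203000400000200000a08000a0a000a06000a08000a04000a06000a02000a04000402000a00000a02000a04000a06000200000a08000a0a000a0c000a0e000a06000a08000a0a000a0c000a04000a06000a08000a0a000a02000a00000200000a08000a06000406000a04000a06000a08000a02000a04000a06000a00000a02000a04000200000a08000a0a000a0c000c38000c2a000c1c000c0e000c00)]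
def rows0 : List ℕ := [0x300000000000000000000, 0x30000000000000000, 0x100000000, 0x100000003, 0x300030000]
/-- rows -/
def rows : List ℕ := [0x300000000000000000000, 0x30000000000000000, 0x100000000, 0x100000003, 0x300030000]
/-- gauge -/
def gauge : List ℕ := [0x0, 0x0, 0x4000000000000]
def certs0 : List ℕ := [0x4c0, 0x2100, 0x40, 0x0, 0x10, 0x2]
/-- chain of blocks -/
def chn : List (ℕ × List (List ℕ)) := [(0x842108421084210842108421084194, [[0, 0, 0, 1], [0, 1], [0, 0, 0, 0, 1, 2, 2, 2], [], [0, 0, 0], [0, 1, 2, 2, 2, 2], [0, 0, 1, 2, 2, 2, 2], [0, 0, 0, 0, 2], [1], [0, 0, 1], [0, 2, 2], [0, 0], [1, 1], [0, 0, 0, 1, 2, 2, 2], [0, 0, 0, 0, 1, 2, 2, 2, 2], [2, 2], [0, 0, 0, 0], [0, 0, 0, 1, 2, 2], [0, 0, 1, 2, 2, 2], [0, 0, 2], [0, 0, 0, 1, 2, 2, 2, 2], [0, 0, 0, 0, 1], [0, 2], [0], [2]]),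
  (0x842108421084210842108421084294, [[], [1, 1, 1, 1, 2, 2, 2, 2], [1, 2], [1, 1, 2, 2], [1, 1, 1, 2, 2, 2]])]

end Cfsg.Agent.MulX.Co2E
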