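import Cfsg.Agent.MulX.Co2B
import Cfsg.Agent.MulX.Co2C
import Cfsg.Agent.MulX.Co2E
import Cfsg.Agent.H90.CoTrans
import Cfsg.Agent.SchurMult.Basic
import Cfsg.Agent.LeechSimple.Basic
import Cfsg.Agent.Leech.Dots

/-!
# The Schur multiplier of `Co2` is trivial (owner: helper58)
-/

set_option autoImplicit false

namespace Cfsg.Agent.MulX.Co2Fin

open Cfsg Cfsg.Agent.Golay Cfsg.Agent.MulX.Coh Cfsg.Agent.MulX.Stb Cfsg.Agent.Leech Cfsg.Agent.H90.Co
open MulAction

/-- code of `leechU` -/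
def cU : ℕ := Nat.add (Nat.add (Nat.mul 16 EE) 4) (Nat.shiftLeft 4 115)

theorem cU_lt : cU < 32 ^ 24 := by decide +kernel

theorem cU_eq : (Spor.leechU : GolayPt → ℤ) = vecOf cU := by
  funext p
  revert p
  decide +kernel

theorem norm_U : sqNorm (Spor.leechU : GolayPt → ℤ) ≤ 48 := by rw [norm_leechU]; norm_num

theorem card_S : Nat.card (stabilizer Co0 Spor.leechU) = 42305421312000 := card_stab_32 _ norm_leechU

instance : Finite Co0 := Cfsg.Agent.LeechSimple.finite_Co0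

theorem fixB : ((List.range 22).all fun i => fixW Co2B.q 22 cU [i]) = true := by decide +kernel
theorem fixC : ((List.range 10).all fun i => fixW Co2C.q 10 cU [i]) = true := by decide +kernel
theorem fixE : ((List.range 4).all fun i => fixW Co2E.q 4 cU [i]) = true := by decide +kernel

variable {Γ : Type} [Group Γ] [Finite Γ] {σ : Γ →* stabilizer Co0 Spor.leechU}

theorem two (hσ : IsStemExtension σ) : ¬ 2 ∣ Nat.card σ.ker := by
  have : Fact (Nat.Prime 2) := ⟨Nat.prime_two⟩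
  refine co_main hσ Co2B.D_ok (fun i => gl_fix Co2B.D_ok Co2B.qs_D Co2B.D_len fixB cU_lt cU_eq norm_U i)
    (rules := Co2B.rules) (N := 22) (by rw [Co2B.D_len]) ?_ Co2B.K_good Co2B.pc_ok
    (L := Co2B.chn) (by rw [Co2B.qs_D]; exact Co2B.chn_ok) Co2B.chn_prod (m := 161382375) (by rw [card_S]; norm_num)
    (by norm_num) Co2B.rows_ok Co2B.rows_len Co2B.gau_ok Co2B.tgts_ok
  rw [Co2B.qs_D]
  exact fun r hr => List.all_eq_true.1 Co2B.rules_ok r hr

theorem three (hσ : IsStemExtension σ) : ¬ 3 ∣ Nat.card σ.ker := by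
  have : Fact (Nat.Prime 3) := ⟨Nat.prime_three⟩
  refine co_main hσ Co2C.D_ok (fun i => gl_fix Co2C.D_ok Co2C.qs_D Co2C.D_len fixC cU_lt cU_eq norm_U i)
    (rules := Co2C.rules) (N := 10) (by rw [Co2C.D_len]) ?_ Co2C.K_good Co2C.pc_ok
    (L := Co2C.chn) (by rw [Co2C.qs_D]; exact Co2C.chn_ok) Co2C.chn_prod (m := 58032128000) (by rw [card_S]; norm_num)
    (by norm_num) Co2C.rows_ok Co2C.rows_len Co2C.gau_ok Co2C.tgts_ok
  rw [Co2C.qs_D]
  exact fun r hr => List.all_eq_true.1 Co2C.rules_ok r hr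

theorem five (hσ : IsStemExtension σ) : ¬ 5 ∣ Nat.card σ.ker := by
  have : Fact (Nat.Prime 5) := ⟨Nat.prime_five⟩
  refine co_main hσ Co2E.D_ok (fun i => gl_fix Co2E.D_ok Co2E.qs_D Co2E.D_len fixE cU_lt cU_eq norm_U i)
    (rules := Co2E.rules) (N := 4) (by rw [Co2E.D_len]) ?_ Co2E.K_good Co2E.pc_ok
    (L := Co2E.chn) (by rw [Co2E.qs_D]; exact Co2E.chn_ok) Co2E.chn_prod (m := 338443370496) (by rw [card_S]; norm_num)
    (by norm_num) Co2E.rows_ok Co2E.rows_len Co2E.gau_ok Co2E.tgts_ok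
  rw [Co2E.qs_D]
  exact fun r hr => List.all_eq_true.1 Co2E.rules_ok r hr

theorem sq_cases {q : ℕ} (hq : q.Prime) (h : q ^ 2 ∣ 42305421312000) : q = 2 ∨ q = 3 ∨ q = 5 := by
  have h1 : q ∣ 2 ^ 18 * 3 ^ 6 * 5 ^ 3 * 7 * 11 * 23 := (dvd_pow_self q two_ne_zero).trans (by norm_num at h ⊢; exact h)
  rw [hq.dvd_mul, hq.dvd_mul, hq.dvd_mul, hq.dvd_mul, hq.dvd_mul] at h1
  rcases h1 with ((((h1 | h1) | h1) | h1) | h1) | h1
  · left; exact (Nat.prime_dvd_prime_iff_eq hq Nat.prime_two).1 (hq.dvd_of_dvd_pow h1)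
  · right; left; exact (Nat.prime_dvd_prime_iff_eq hq Nat.prime_three).1 (hq.dvd_of_dvd_pow h1)
  · right; right; exact (Nat.prime_dvd_prime_iff_eq hq Nat.prime_five).1 (hq.dvd_of_dvd_pow h1)
  · have h2 := (Nat.prime_dvd_prime_iff_eq hq (by norm_num)).1 h1
    subst h2; norm_num at h
  · have h2 := (Nat.prime_dvd_prime_iff_eq hq (by norm_num)).1 h1
    subst h2; norm_num at h
  · have h2 := (Nat.prime_dvd_prime_iff_eq hq (by norm_num)).1 h1
    subst h2; norm_num at h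

theorem main0 : HasCyclicSchurMultiplier (stabilizer Co0 Spor.leechU) 1 := by
  rw [Cfsg.Agent.SchurMult.hasCyclicSchurMultiplier_one_iff]
  intro Γ _ _ σ hσ
  rw [← Subgroup.card_eq_one]
  by_contra hne
  obtain ⟨q, hq, hqd⟩ := Nat.exists_prime_and_dvd hne
  have : Fact q.Prime := ⟨hq⟩
  by_cases h2 : q ^ 2 ∣ Nat.card (stabilizer Co0 Spor.leechU)
  · rw [card_S] at h2
    rcases sq_cases hq h2 with rfl | rfl | rfl
    · exact two hσ hqd
    · exact three hσ hqd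
    · exact five hσ hqd
  · exact Cfsg.Agent.H90.Stem.not_dvd_of_sq hσ h2 hqd

/-- The Schur multiplier of `Co2` is trivial. -/
theorem main : HasCyclicSchurMultiplier ↥Spor.Co2 1 :=
  Cfsg.Agent.SchurMult.hasSchurMultiplier_of_equiv isoCo2 main0

end Cfsg.Agent.MulX.Co2Fin
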