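import Cfsg.Agent.MulX.Proj

/-!
Coded arithmetic of small fields: fast kernel checks of the action of matrices on projective points (owner: helper58).
-/
set_option autoImplicit false

namespace Cfsg.Agent.MulX

open Matrix Cfsg.Agent.PermTab Cfsg.Agent.LE

/-- codes `< q` for the elements of a field -/
structure FCode (F : Type*) [Field F] where
  q : ℕ
  dec : ℕ → F
  mul : ℕ → ℕ → ℕ
  add : ℕ → ℕ → ℕ
  pos : 0 < q
  mul_lt : ∀ x < q, ∀ y < q, mul x y < q
  add_lt : ∀ x < q, ∀ y < q, add x y < q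
  dec_mul : ∀ x < q, ∀ y < q, dec (mul x y) = dec x * dec y
  dec_add : ∀ x < q, ∀ y < q, dec (add x y) = dec x + dec y
  dec_zero : dec 0 = 0
  dec_ne : ∀ x < q, x ≠ 0 → dec x ≠ 0

namespace FCode

variable {F : Type*} [Field F] (C : FCode F)

/-- product of a row and a column -/
def dot : List ℕ → List ℕ → ℕ
  | a :: as, b :: bs => C.add (C.mul a b) (dot as bs)
  | _, _ => 0

/-- all entries are codes -/
def okL (l : List ℕ) : Bool := l.all fun x => Nat.blt x C.q

theorem dot_lt {a b : List ℕ} (ha : C.okL a = true) (hb : C.okL b = true) : C.dot a b < C.q := by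
  induction a generalizing b with
  | nil => simpa [dot] using C.pos
  | cons x a ih =>
    cases b with
    | nil => simpa [dot] using C.pos
    | cons y b =>
      simp only [okL, List.all_cons, Bool.and_eq_true, Nat.blt_eq] at ha hb
      exact C.add_lt _ (C.mul_lt _ ha.1 _ hb.1) _ (ih ha.2 hb.2)

theorem dec_dot {a b : List ℕ} (ha : C.okL a = true) (hb : C.okL b = true) (h : a.length = b.length) :
    C.dec (C.dot a b) = ((List.range a.length).map fun i => C.dec (a.getD i 0) * C.dec (b.getD i 0)).sum := by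
  induction a generalizing b with
  | nil => simp [dot, C.dec_zero]
  | cons x a ih =>
    cases b with
    | nil => simp at h
    | cons y b =>
      simp only [okL, List.all_cons, Bool.and_eq_true, Nat.blt_eq] at ha hb
      have h' : a.length = b.length := by simpa using h
      rw [dot, C.dec_add _ (C.mul_lt _ ha.1 _ hb.1) _ (C.dot_lt ha.2 hb.2), C.dec_mul _ ha.1 _ hb.1, ih ha.2 hb.2 h']
      simp [List.length_cons, List.range_succ_eq_map, Function.comp_def]

/-- vector of a list -/
def vec (n : ℕ) (l : List ℕ) : Fin n → F := fun i => C.dec (l.getD i 0)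

/-- matrix of a list of rows -/
def mat (n : ℕ) (m : List (List ℕ)) : Matrix (Fin n) (Fin n) F := Matrix.of fun i j => C.dec ((m.getD i []).getD j 0)

/-- `m` maps `v` to `c * w` -/
def actB (n : ℕ) (m : List (List ℕ)) (v w : List ℕ) (c : ℕ) : Bool :=
  !(Nat.beq c 0) && Nat.blt c C.q && (List.range n).all fun k => Nat.beq (C.dot (m.getD k []) v) (C.mul c (w.getD k 0))

theorem actB_spec {n : ℕ} {m : List (List ℕ)} {v w : List ℕ} (hm : ∀ k < n, C.okL (m.getD k []) = true ∧ (m.getD k []).length = n)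
    (hv : C.okL v = true ∧ v.length = n) (hw : C.okL w = true) {c : ℕ} (h : C.actB n m v w c = true) :
    ∃ d : F, d ≠ 0 ∧ C.mat n m *ᵥ C.vec n v = d • C.vec n w := by
  simp only [actB, Bool.and_eq_true, List.all_eq_true, List.mem_range, Nat.blt_eq, Bool.not_eq_true'] at h
  obtain ⟨⟨h1, h2⟩, h3⟩ := h
  have h1' : c ≠ 0 := by
    rintro rfl
    simp at h1
  refine ⟨C.dec c, C.dec_ne c h2 h1', ?_⟩
  funext k
  have h4 := Nat.eq_of_beq_eq_true (h3 k k.2)
  obtain ⟨h5, h6⟩ := hm k k.2
  have h7 := C.dec_dot h5 hv.1 (by rw [h6, hv.2])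
  have hwk : w.getD k 0 < C.q := by
    by_cases hk : (k : ℕ) < w.length
    · simp only [okL, List.all_eq_true, Nat.blt_eq] at hw
      rw [List.getD_eq_getElem _ _ hk]
      exact hw _ (List.getElem_mem hk)
    · rw [List.getD_eq_default _ _ (by omega)]
      exact C.pos
  have h9 : (C.mat n m *ᵥ C.vec n v) k = C.dec (C.dot (m.getD k []) v) := by
    rw [h7, h6, Matrix.mulVec, dotProduct, Fin.sum_univ_def, ← List.map_coe_finRange_eq_range]
    rw [List.map_map]
    rfl
  rw [h9, h4, C.dec_mul c h2 _ hwk]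
  rfl

/-- some scalar works -/
def actE (n : ℕ) (m : List (List ℕ)) (v w : List ℕ) : Bool := (List.range C.q).any fun c => C.actB n m v w c

theorem actE_spec {n : ℕ} {m : List (List ℕ)} {v w : List ℕ} (hm : ∀ k < n, C.okL (m.getD k []) = true ∧ (m.getD k []).length = n)
    (hv : C.okL v = true ∧ v.length = n) (hw : C.okL w = true) (h : C.actE n m v w = true) :
    ∃ d : F, d ≠ 0 ∧ C.mat n m *ᵥ C.vec n v = d • C.vec n w := by
  simp only [actE, List.any_eq_true] at h
  obtain ⟨c, -, hc⟩ := h
  exact C.actB_spec hm hv hw hc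

end FCode

section

variable {ι F : Type*} [Fintype ι] [DecidableEq ι] [Field F]

/-- a matrix for which a basis and a vector in general position are eigenvectors is scalar -/
theorem scalar_of_frame {A V W : Matrix ι ι F} (hVW : V * W = 1) (hb : ∀ i, ∃ c : F, A *ᵥ (fun k => V k i) = c • (fun k => V k i))
    {u : ι → F} (hu : ∀ i, (W *ᵥ u) i ≠ 0) (h : ∃ c : F, A *ᵥ u = c • u) : ∃ c : F, A = c • (1 : Matrix ι ι F) := by
  have hWV : W * V = 1 := mul_eq_one_comm.1 hVW
  have hcol : ∀ i, V *ᵥ (Pi.single i 1) = fun k => V k i := by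
    intro i
    rw [Matrix.mulVec_single_one]; rfl
  obtain ⟨c, hc⟩ := scalar_of_eigen (A := W * A * V) (fun i => by
      obtain ⟨c, hc⟩ := hb i
      refine ⟨c, ?_⟩
      rw [← Matrix.mulVec_mulVec, hcol, ← Matrix.mulVec_mulVec, hc, Matrix.mulVec_smul, ← hcol i, Matrix.mulVec_mulVec, hWV,
        Matrix.one_mulVec]) hu (by
      obtain ⟨c, hc⟩ := h
      refine ⟨c, ?_⟩
      rw [Matrix.mulVec_mulVec, Matrix.mul_assoc, hVW, Matrix.mul_one, ← Matrix.mulVec_mulVec, hc, Matrix.mulVec_smul])
  refine ⟨c, ?_⟩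
  calc A = V * (W * A * V) * W := by
        rw [Matrix.mul_assoc W, ← Matrix.mul_assoc V, hVW, Matrix.one_mul, Matrix.mul_assoc, hVW, Matrix.mul_one]
    _ = c • (1 : Matrix ι ι F) := by
        rw [hc, Matrix.mul_smul, Matrix.mul_one, Matrix.smul_mul, hVW]

/-- vectors with first nonzero entry `1` -/
def leadOne {n : ℕ} (v : Fin n → F) : Prop := ∃ i, v i = 1 ∧ ∀ j < i, v j = 0

theorem eq_of_leadOne {n : ℕ} {v w : Fin n → F} (hv : leadOne v) (hw : leadOne w) {c : F} (hc : c ≠ 0) (h : v = c • w) : v = w := by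
  obtain ⟨i, hi, hi'⟩ := hv
  obtain ⟨j, hj, hj'⟩ := hw
  have e : i = j := by
    rcases lt_trichotomy i j with h1 | h1 | h1
    · have := congrFun h i
      rw [hi, Pi.smul_apply, hj' i h1, smul_zero] at this
      exact absurd this one_ne_zero
    · exact h1
    · have := congrFun h j
      rw [hi' j h1, Pi.smul_apply, hj, smul_eq_mul, mul_one] at this
      exact absurd this.symm hc
  subst e
  have := congrFun h i
  rw [hi, Pi.smul_apply, hj, smul_eq_mul, mul_one] at this
  rw [h, ← this, one_smul]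

end

end Cfsg.Agent.MulX
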