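import Cfsg.Agent.MulX.TabFam
import Cfsg.Agent.MulX.J2Rel
import Cfsg.Agent.CosetEnum.MJ2.Certs
import Cfsg.Agent.LE.J2Iso

/-!
The Schur multiplier of the Hall–Janko group (owner: helper58).
-/
set_option autoImplicit false

namespace Cfsg.Agent.MulX.J2R

open Cfsg.Agent.CosetEnum Cfsg.Agent.PermTab Cfsg.Agent.LE Cfsg.Agent

/-- tables of the letters -/
def tb : ℕ → ℕ
  | 1 => LE.J2T.t1
  | 2 => LE.J2T.t2
  | 3 => LE.J2T.t3
  | 4 => LE.J2T.t4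
  | 5 => LE.J2T.t5
  | 6 => LE.J2T.t6
  | 7 => LE.J2T.t7
  | 8 => LE.J2T.t7
  | 9 => LE.J2T.t13
  | 10 => LE.J2T.t14
  | _ => J2Tab.idt

theorem tb_big (x : ℕ) (hx : 10 < x) : tb x = J2Tab.idt := by
  match x, hx with
  | n + 11, _ => rfl

theorem tb_ok : ∀ x ≤ 10, tvalid 7 100 (tb x) = true ∧ sift 7 100 J2Tab.idt J2Tab.chain (tb x) = true := by
  decide +kernel

theorem tb_in (x : ℕ) : InGrp 7 100 J2Tab.J (tb x) := by
  have h : tvalid 7 100 (tb x) = true ∧ sift 7 100 J2Tab.idt J2Tab.chain (tb x) = true := by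
    by_cases hx : x ≤ 10
    · exact tb_ok x hx
    · rw [tb_big x (by omega)]; exact LE.idt_ok
  exact ⟨h.1, mem_of_sift (by norm_num) J2Tab.hid J2Tab.chk h.1 h.2⟩

/-- word of the first generator -/
def w0 : List ℕ := [3, 1, 7, 2, 10, 7, 1, 7, 2, 9, 5, 1, 7, 2, 6, 1, 1, 7, 2, 3, 1]
/-- word of the second generator -/
def w1 : List ℕ := [5, 1, 7, 2, 6, 2, 7, 9, 1, 7, 2, 10, 7, 9, 5, 1, 7, 2, 6, 3, 1]

theorem w_ok : tword 7 100 J2Tab.idt tb w0 = J2Tab.g0 ∧ tword 7 100 J2Tab.idt tb w1 = J2Tab.g1 ∧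
    (∀ x ∈ w0, isLet 10 x = true) ∧ (∀ x ∈ w1, isLet 10 x = true) := by
  decide +kernel

theorem top_tb : Cl (tfam tb_in) 10 = ⊤ := by
  obtain ⟨h0, h1, h2, h3⟩ := w_ok
  have s0 := (tword_spec (by norm_num) J2Tab.hid tb_in w0).2
  have s1 := (tword_spec (by norm_num) J2Tab.hid tb_in w1).2
  rw [h0] at s0
  rw [h1] at s1
  have key : J2Tab.J ≤ (Cl (tfam tb_in) 10).map J2Tab.J.subtype := by
    conv_lhs => rw [← J2Tab.gen_J]
    rw [Subgroup.closure_le]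
    rintro _ ⟨g, hg, rfl⟩
    rcases List.mem_cons.1 hg with rfl | hg
    · exact ⟨_, LE.prod_mem_Cl _ _ _ h2, s0.symm⟩
    · rcases List.mem_cons.1 hg with rfl | hg
      · exact ⟨_, LE.prod_mem_Cl _ _ _ h3, s1.symm⟩
      · exact absurd hg List.not_mem_nil
  rw [eq_top_iff]
  intro x _
  obtain ⟨y, hy, he⟩ := key x.2
  have : y = x := Subtype.ext he
  rwa [this] at hy

theorem rel_ok : letB 10 MJ2C.iv = true ∧ triB 10 MJ2C.iv R1 = true ∧ relB MJ2C.iv 10 R1 R2 MJ2C.RL = true ∧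
    (List.range (10 + 1)).all (fun x => !isLet 10 x || (R1.any fun q => q.1 == x || ivL MJ2C.iv q.1 == x)) = true ∧
    exB MJ2C.iv R1 MJ2C.RL = true ∧ ceB MJ2C.iv 10 R2 MJ2C.RL = true := by
  decide +kernel

theorem tb_rel : (∀ x ≤ 10, tmul 7 100 (tb (ivL MJ2C.iv x)) (tb x) = J2Tab.idt) ∧
    trivTB 7 100 J2Tab.idt tb (R1.map Prod.snd) = true ∧ trivTB 7 100 J2Tab.idt tb R2 = true := by
  decide +kernel

theorem cp : CP (tfam tb_in) 10 MJ2C.iv R1 R2 MJ2C.RL := by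
  obtain ⟨h1, h2, h3, h4, -, -⟩ := rel_ok
  obtain ⟨h5, h6, h7⟩ := tb_rel
  exact cp_of_tab (by norm_num) J2Tab.hid tb_in h1 h2 h3 h4 h5 rfl tb_big h6 h7 top_tb

theorem bd : Bd (⊤ : Subgroup (QG 10 MJ2C.iv MJ2C.RL)) (604800 * 2) := by
  have U := univ_qg 10 MJ2C.iv MJ2C.RL
  have g := U.good
  rw [← U.top]
  have h1 := (Bd.zero (qg 10 MJ2C.iv MJ2C.RL)).cl (M := 120) MJ2A.cert g (by decide +kernel) (by decide +kernel)
    (by norm_num) rfl
  have h2 := h1.cl (M := 3840) MJ2B.cert g (by decide +kernel) (by decide +kernel) (by norm_num) rfl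
  exact h2.cl (M := 604800 * 2) MJ2C.cert g (by decide +kernel) (by decide +kernel) (by norm_num) rfl

theorem ord : 2 ∣ orderOf ((([[1, 3, 1, 3]] : List (List ℕ)).flatten.map (qg 10 MJ2C.iv MJ2C.RL)).prod) :=
  dvd_orderOf MJ2T.tabOK (c := [1, 3, 1, 3]) (by decide) (by norm_num) (i := 0) (by decide +kernel) (by decide +kernel)

theorem mult_J : HasCyclicSchurMultiplier J2Tab.J 2 := by
  obtain ⟨-, -, -, -, h5, h6⟩ := rel_ok
  exact cp.cyclic h5 h6 J2Tab.card_J (by norm_num) (by norm_num) bd (ws := [[1, 3, 1, 3]]) (by decide) ord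

theorem mult_J2 : HasCyclicSchurMultiplier Cfsg.Spor.J2 2 :=
  SchurMult.hasSchurMultiplier_of_equiv Ico.isoJ.symm mult_J

end Cfsg.Agent.MulX.J2R
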