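import Cfsg.Agent.MulX.L34Data
import Cfsg.Agent.MulX.ML34Rel
import Cfsg.Agent.MulX.Proj
import Cfsg.Agent.MulX.Multi
import Cfsg.Agent.CosetEnum.ML34.Certs
import Cfsg.Agent.CosetEnum.MA6.Certs
import Cfsg.Prelude.Def_Classical

/-!
The Schur multiplier of `PSL₃(4)` (owner: helper58).
-/
set_option autoImplicit false
set_option maxRecDepth 1000000

namespace Cfsg.Agent.MulX

open Matrix Cfsg.Agent.CosetEnum Cfsg.Agent.PermTab Cfsg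

/-- Model of the field with four elements. -/
abbrev K4 := QuadraticAlgebra (ZMod 2) 1 1

namespace K4

instance fact : Fact (∀ r : ZMod 2, r ^ 2 ≠ 1 + 1 * r) := ⟨by decide⟩

instance fint : Fintype K4 := Fintype.ofEquiv _ (QuadraticAlgebra.equivProd (1 : ZMod 2) 1).symm

theorem card : Fintype.card K4 = 4 := by
  rw [Fintype.card_congr (QuadraticAlgebra.equivProd (1 : ZMod 2) 1), Fintype.card_prod, ZMod.card]

/-- element with number `k` -/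
def num (k : ℕ) : K4 := ⟨((k % 2 : ℕ) : ZMod 2), ((k / 2 : ℕ) : ZMod 2)⟩

end K4

namespace L34

open K4

/-- letters -/
def gS : ℕ → SpecialLinearGroup (Fin 3) K4
  | 1 => ⟨!![⟨1, 0⟩, ⟨1, 0⟩, ⟨0, 0⟩; ⟨1, 0⟩, ⟨0, 0⟩, ⟨0, 0⟩; ⟨0, 0⟩, ⟨0, 0⟩, ⟨1, 0⟩], by decide +kernel⟩
  | 2 => ⟨!![⟨0, 0⟩, ⟨1, 0⟩, ⟨0, 0⟩; ⟨1, 0⟩, ⟨1, 0⟩, ⟨0, 0⟩; ⟨0, 0⟩, ⟨0, 0⟩, ⟨1, 0⟩], by decide +kernel⟩
  | 3 => ⟨!![⟨0, 0⟩, ⟨1, 0⟩, ⟨0, 0⟩; ⟨1, 0⟩, ⟨1, 0⟩, ⟨1, 0⟩; ⟨0, 0⟩, ⟨0, 0⟩, ⟨1, 0⟩], by decide +kernel⟩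
  | 4 => ⟨!![⟨1, 0⟩, ⟨1, 0⟩, ⟨1, 0⟩; ⟨1, 0⟩, ⟨0, 0⟩, ⟨0, 0⟩; ⟨0, 0⟩, ⟨0, 0⟩, ⟨1, 0⟩], by decide +kernel⟩
  | 5 => ⟨!![⟨1, 0⟩, ⟨0, 1⟩, ⟨0, 0⟩; ⟨1, 1⟩, ⟨0, 0⟩, ⟨0, 0⟩; ⟨1, 0⟩, ⟨1, 1⟩, ⟨1, 0⟩], by decide +kernel⟩
  | 6 => ⟨!![⟨0, 0⟩, ⟨0, 1⟩, ⟨0, 0⟩; ⟨1, 1⟩, ⟨1, 0⟩, ⟨0, 0⟩; ⟨0, 1⟩, ⟨1, 0⟩, ⟨1, 0⟩], by decide +kernel⟩
  | 7 => ⟨!![⟨1, 0⟩, ⟨1, 1⟩, ⟨0, 0⟩; ⟨0, 1⟩, ⟨0, 0⟩, ⟨0, 0⟩; ⟨1, 0⟩, ⟨0, 1⟩, ⟨1, 0⟩], by decide +kernel⟩
  | 8 => ⟨!![⟨0, 0⟩, ⟨1, 1⟩, ⟨0, 0⟩; ⟨0, 1⟩, ⟨1, 0⟩, ⟨0, 0⟩; ⟨1, 1⟩, ⟨1, 0⟩, ⟨1, 0⟩], by decide +kernel⟩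
  | 9 => ⟨!![⟨1, 0⟩, ⟨1, 0⟩, ⟨0, 1⟩; ⟨1, 0⟩, ⟨0, 0⟩, ⟨1, 0⟩; ⟨0, 0⟩, ⟨0, 0⟩, ⟨1, 0⟩], by decide +kernel⟩
  | 10 => ⟨!![⟨0, 0⟩, ⟨1, 0⟩, ⟨1, 0⟩; ⟨1, 0⟩, ⟨1, 0⟩, ⟨1, 1⟩; ⟨0, 0⟩, ⟨0, 0⟩, ⟨1, 0⟩], by decide +kernel⟩
  | _ => 1

/-- codes of the points -/
def codes : List ℕ := [1, 4, 5, 6, 7, 16, 17, 18, 19, 20, 21, 22, 23, 24, 25, 26, 27, 28, 29, 30, 31]

/-- representatives of the points -/
def v (i : Fin 21) : Fin 3 → K4 :=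
  ![num (codes.getD i 0 / 16), num (codes.getD i 0 / 4 % 4), num (codes.getD i 0 % 4)]

theorem slToMat_eq (a : SpecialLinearGroup (Fin 3) K4) : slToMat 3 K4 a = a.1 := rfl

theorem slToMat_inj : Function.Injective (slToMat 3 K4) := fun _ _ h => Subtype.ext h

theorem act_le : ∀ x ≤ 10, ∀ i : Fin 21, ∃ c : K4, c ≠ 0 ∧ ∀ k : Fin 3,
    ((gS x).1 *ᵥ v i) k = c * v ⟨tget 5 (tb x) i % 21, Nat.mod_lt _ (by norm_num)⟩ k := by
  decide +kernel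

theorem v_inj : ∀ i j : Fin 21, (∃ c : K4, c ≠ 0 ∧ ∀ k, v i k = c * v j k) → i = j := by decide +kernel

theorem mem_D (x : ℕ) : (gS x, toPerm 5 21 (tb x)) ∈ projD (slToMat 3 K4) v := by
  rw [mem_projD]
  have key : ∀ x ≤ 10, ∀ i, ∃ c : K4, c ≠ 0 ∧ slToMat 3 K4 (gS x) *ᵥ v i = c • v (toPerm 5 21 (tb x) i) := by
    intro x hx i
    obtain ⟨c, hc, h⟩ := act_le x hx i
    refine ⟨c, hc, ?_⟩
    have e : (⟨tget 5 (tb x) i % 21, Nat.mod_lt _ (by norm_num)⟩ : Fin 21) = toPerm 5 21 (tb x) i := by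
      apply Fin.ext
      rw [toPerm_apply (tb_valid x)]
      exact Nat.mod_eq_of_lt (tget_lt_of_valid (tb_valid x) i.2)
    rw [← e]
    funext k
    exact h k
  by_cases hx : x ≤ 10
  · exact key x hx
  · match x, hx with
    | m + 11, _ =>
      have e1 : gS (m + 11) = gS 0 := rfl
      have e2 : tb (m + 11) = tb 0 := rfl
      rw [e1, e2]
      exact key 0 (by omega)

theorem ce (a : SpecialLinearGroup (Fin 3) K4) (ha : (a, 1) ∈ projD (slToMat 3 K4) v) :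
    a ∈ Subgroup.center (SpecialLinearGroup (Fin 3) K4) := by
  apply mem_center_of_scalar slToMat_inj
  rw [mem_projD] at ha
  apply scalar_of_eigen (u := v 10)
  · intro i
    have h : ∀ i : Fin 3, ∃ j : Fin 21, ∀ k, v j k = (Pi.single i 1 : Fin 3 → K4) k := by decide +kernel
    obtain ⟨j, hj⟩ := h i
    obtain ⟨c, -, hc⟩ := ha j
    rw [← (funext hj : v j = Pi.single i 1)]
    exact ⟨c, hc⟩
  · decide +kernel
  · obtain ⟨c, -, hc⟩ := ha 10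
    exact ⟨c, hc⟩

theorem fn (σ : Equiv.Perm (Fin 21)) (h : ((1 : SpecialLinearGroup (Fin 3) K4), σ) ∈ projD (slToMat 3 K4) v) : σ = 1 := by
  rw [mem_projD] at h
  ext i
  obtain ⟨c, hc, h1⟩ := h i
  rw [map_one, Matrix.one_mulVec] at h1
  have h2 := v_inj i (σ i) ⟨c, hc, fun k => congrFun h1 k⟩
  rw [← h2]; rfl

/-- letters in the quotient -/
noncomputable def gP (x : ℕ) : ProjectiveSpecialLinearGroup (Fin 3) K4 :=
  QuotientGroup.mk' (Subgroup.center (SpecialLinearGroup (Fin 3) K4)) (gS x)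

theorem rep : RepT 5 21 tb gP (quotD (projD (slToMat 3 K4) v)) :=
  RepT.of_quot (ng := 10) (by norm_num) hid tb_valid mem_D ce fn chk (by decide +kernel) (by decide +kernel) hws (by decide)

theorem top (card : Nat.card (ProjectiveSpecialLinearGroup (Fin 3) K4) = 20160) : Cl gP 10 = ⊤ :=
  rep.top (by norm_num) hid chk hws (by decide) (by rw [card]; exact hcard.ge)

theorem rel_ok : letB 10 ML34B.iv = true ∧ triB 10 ML34B.iv ML34R.R1 = true ∧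
    relB ML34B.iv 10 ML34R.R1 ML34R.R2 ML34B.RL = true ∧
    (List.range (10 + 1)).all (fun x => !isLet 10 x || (ML34R.R1.any fun q => q.1 == x || ivL ML34B.iv q.1 == x)) = true ∧
    exB ML34B.iv ML34R.R1 ML34B.RL = true ∧ ceB ML34B.iv 10 ML34R.R2 ML34B.RL = true := by
  decide +kernel

theorem cp (card : Nat.card (ProjectiveSpecialLinearGroup (Fin 3) K4) = 20160) :
    CP gP 10 ML34B.iv ML34R.R1 ML34R.R2 ML34B.RL := by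
  obtain ⟨h1, h2, h3, h4, -, -⟩ := rel_ok
  exact rep.cp (by norm_num) hid h1 h2 h3 h4 (by decide +kernel) rfl (fun x hx => by
    match x, hx with
    | m + 11, _ => rfl) (by decide +kernel) (by decide +kernel) (top card)

theorem bd : Bd (⊤ : Subgroup (QG 10 ML34B.iv ML34B.RL)) (20160 * ∏ i : Fin 3, (![4, 4, 3] : Fin 3 → ℕ) i) := by
  have e : 20160 * ∏ i : Fin 3, (![4, 4, 3] : Fin 3 → ℕ) i = 967680 := by decide
  rw [e]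
  have U := univ_qg 10 ML34B.iv ML34B.RL
  have g := U.good
  rw [← U.top]
  have h1 := (Bd.zero (qg 10 ML34B.iv ML34B.RL)).cl (M := 2160) MA6A.cert g (by decide +kernel) (by decide +kernel)
    (by norm_num) rfl
  exact h1.cl (M := 967680) ML34B.cert g (by decide +kernel) (by decide +kernel) (by norm_num) rfl

/-- words of the generators of the kernel -/
def cws : Fin 3 → List (List ℕ) := ![[[8, 9, 8, 9, 8, 9]], [[2, 8, 9, 7, 2, 10, 8, 9]], [[4, 10, 4, 10]]]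

theorem main (card : Nat.card (ProjectiveSpecialLinearGroup (Fin 3) K4) = 20160) :
    ∃ σ : QG 10 ML34B.iv ML34B.RL →* ProjectiveSpecialLinearGroup (Fin 3) K4, IsStemExtension σ ∧
      σ.ker = cenN 10 ML34B.iv ML34R.R2 ML34B.RL ∧ Nat.card σ.ker = ∏ i : Fin 3, (![4, 4, 3] : Fin 3 → ℕ) i ∧
      (∀ x, σ (qg 10 ML34B.iv ML34B.RL x) = gP x) ∧
      Nonempty (σ.ker ≃* Multiplicative (∀ i : Fin 3, ZMod ((![4, 4, 3] : Fin 3 → ℕ) i))) := by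
  obtain ⟨-, -, -, -, h5, h6⟩ := rel_ok
  obtain ⟨S1, a1, b1⟩ := exists_stab ML34T1.tabOK (i := 0) (by decide +kernel)
  obtain ⟨S2, a2, b2⟩ := exists_stab ML34T2.tabOK (i := 0) (by decide +kernel)
  obtain ⟨S3, a3, b3⟩ := exists_stab ML34T3.tabOK (i := 0) (by decide +kernel)
  refine (cp card).multi h5 h6 card (by norm_num) (by decide) bd (ws := cws) (by decide) (S := ![S1, S2, S3]) ?_ ?_
  · intro i j hij
    fin_cases i <;> fin_cases j <;> first | exact absurd rfl hij | skip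
    · exact a1 _ (by decide +kernel) (by decide +kernel)
    · exact a1 _ (by decide +kernel) (by decide +kernel)
    · exact a2 _ (by decide +kernel) (by decide +kernel)
    · exact a2 _ (by decide +kernel) (by decide +kernel)
    · exact a3 _ (by decide +kernel) (by decide +kernel)
    · exact a3 _ (by decide +kernel) (by decide +kernel)
  · intro i
    fin_cases i
    · exact b1 _ 4 (by decide +kernel) (by norm_num) (by decide +kernel)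
    · exact b2 _ 4 (by decide +kernel) (by norm_num) (by decide +kernel)
    · exact b3 _ 3 (by decide +kernel) (by norm_num) (by decide +kernel)

end L34

end Cfsg.Agent.MulX
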