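import Cfsg.Agent.MulX.L34

/-!
The Schur multiplier of `PSL₃(4)`, final form (owner: helper58).
-/
set_option autoImplicit false

namespace Cfsg.Agent.MulX.L34

open Matrix Cfsg.Agent.CosetEnum Cfsg

/-- reordering the factors -/
def prodE : (∀ i : Fin 3, ZMod ((![4, 4, 3] : Fin 3 → ℕ) i)) ≃+ ZMod 3 × ZMod 4 × ZMod 4 where
  toFun f := (f 2, f 0, f 1)
  invFun p := Fin.cons p.2.1 (Fin.cons p.2.2 (Fin.cons p.1 finZeroElim))
  left_inv f := by
    funext i
    fin_cases i <;> rfl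
  right_inv p := rfl
  map_add' f g := rfl

theorem mult (card : Nat.card (ProjectiveSpecialLinearGroup (Fin 3) K4) = 20160) :
    HasSchurMultiplier (ProjectiveSpecialLinearGroup (Fin 3) K4) (Multiplicative (ZMod 3 × ZMod 4 × ZMod 4)) := by
  obtain ⟨σ, h1, -, h3, -, ⟨e⟩⟩ := main card
  exact hasSchur_of_cover (cp card) card (by norm_num) bd h1 h3 ⟨e.trans (AddEquiv.toMultiplicative prodE)⟩

end Cfsg.Agent.MulX.L34
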