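import Cfsg.Agent.MulX.L34B
import Cfsg.Prelude.Def_CaseTheorems

/-!
Perfect central extensions of `PSL₃(4)` by a four-group (owner: helper58).
-/
set_option autoImplicit false

namespace Cfsg.Agent.MulX.L34

open Matrix Cfsg.Agent.CosetEnum Cfsg Subgroup

universe u v

theorem card_sq : Nat.card (powMonoidHom 2 : Multiplicative (ZMod 3 × ZMod 4 × ZMod 4) →*
    Multiplicative (ZMod 3 × ZMod 4 × ZMod 4)).ker = 4 := by
  have h : Nat.card {a : ZMod 3 × ZMod 4 × ZMod 4 // 2 • a = 0} = 4 := by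
    rw [Nat.card_eq_fintype_card]; decide
  refine Eq.trans (Nat.card_congr ?_) h
  exact Equiv.subtypeEquiv Multiplicative.toAdd (fun a => by
    rw [MonoidHom.mem_ker, powMonoidHom_apply]
    exact Iff.rfl)

/-- the set of squares of the kernel -/
def sqN (N : Subgroup (QG 10 ML34B.iv ML34B.RL)) : Set (QG 10 ML34B.iv ML34B.RL) := {y | ∃ x ∈ N, y = x ^ 2}

theorem card_sqN {N : Subgroup (QG 10 ML34B.iv ML34B.RL)} (e : Nonempty (N ≃* Multiplicative (ZMod 3 × ZMod 4 × ZMod 4))) :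
    (sqN N).ncard = 12 := by
  obtain ⟨e⟩ := e
  have h1 := Subgroup.card_eq_card_quotient_mul_card_subgroup (powMonoidHom 2 : Multiplicative (ZMod 3 × ZMod 4 × ZMod 4) →*
    Multiplicative (ZMod 3 × ZMod 4 × ZMod 4)).ker
  have h2 : Nat.card (Multiplicative (ZMod 3 × ZMod 4 × ZMod 4)) = 48 := by
    rw [Nat.card_congr Multiplicative.toAdd, Nat.card_prod, Nat.card_prod, Nat.card_zmod, Nat.card_zmod]
  rw [card_sq, h2, Nat.card_congr (QuotientGroup.quotientKerEquivRange _).toEquiv] at h1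
  have h3 : Nat.card (powMonoidHom 2 : Multiplicative (ZMod 3 × ZMod 4 × ZMod 4) →*
    Multiplicative (ZMod 3 × ZMod 4 × ZMod 4)).range = 12 := by omega
  rw [← h3]
  have h4 : sqN N = (fun x : Multiplicative (ZMod 3 × ZMod 4 × ZMod 4) => ((e.symm x : N) : QG 10 ML34B.iv ML34B.RL)) ''
      ((powMonoidHom 2 : Multiplicative (ZMod 3 × ZMod 4 × ZMod 4) →*
    Multiplicative (ZMod 3 × ZMod 4 × ZMod 4)).range : Set _) := by
    ext y
    constructor
    · rintro ⟨x, hx, rfl⟩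
      refine ⟨(e ⟨x, hx⟩) ^ 2, ⟨e ⟨x, hx⟩, rfl⟩, ?_⟩
      simp
    · rintro ⟨_, ⟨x, rfl⟩, rfl⟩
      refine ⟨_, (e.symm x).2, ?_⟩
      simp [powMonoidHom_apply]
  rw [h4, Set.ncard_image_of_injective _ (fun a b h => e.symm.injective (Subtype.ext h))]
  rfl

/-- quotients of the cover by kernels of order 12 whose kernel in the image is elementary abelian agree -/
theorem ker_eq (card : Nat.card (ProjectiveSpecialLinearGroup (Fin 3) K4) = 20160)
    {L : Type u} [Group L] [Finite L] {τ : L →* ProjectiveSpecialLinearGroup (Fin 3) K4} (hτ : IsStemExtension τ)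
    (hc : Nat.card τ.ker = 4) (he : ∀ x ∈ τ.ker, x * x = 1) :
    ∃ φ : QG 10 ML34B.iv ML34B.RL →* L, Function.Surjective φ ∧ 
      (φ.ker : Set (QG 10 ML34B.iv ML34B.RL)) = sqN (cenN 10 ML34B.iv ML34R.R2 ML34B.RL) := by
  obtain ⟨σ, h1, h2, h3, h4, h5⟩ := main card
  obtain ⟨φ, h6, h7⟩ := (cp card).exists_surj hτ
  obtain ⟨hfin, -⟩ := finite_of_bd bd
  refine ⟨φ, h6, ?_⟩
  have hcomp : ∀ x, τ (φ x) = σ x := by
    have : τ.comp φ = σ := by
      apply MonoidHom.eq_of_eqOn_dense (qg_top 10 ML34B.iv ML34B.RL)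
      rintro _ ⟨x, -, rfl⟩
      show τ (φ _) = σ _
      rw [h7, h4]
    intro x
    rw [← this]; rfl
  have hsub : sqN (cenN 10 ML34B.iv ML34R.R2 ML34B.RL) ⊆ (φ.ker : Set (QG 10 ML34B.iv ML34B.RL)) := by
    rintro _ ⟨x, hx, rfl⟩
    show x ^ 2 ∈ φ.ker
    rw [MonoidHom.mem_ker, map_pow, sq]
    apply he
    rw [MonoidHom.mem_ker, hcomp, ← MonoidHom.mem_ker, h2]
    exact hx
  symm
  apply Set.eq_of_subset_of_ncard_le hsub _ (Set.toFinite _)
  have e1 : Nat.card (QG 10 ML34B.iv ML34B.RL) = 20160 * 48 := by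
    rw [card_eq_mul_ker h1.1, card, h3]; rfl
  have e2 : Nat.card L = 20160 * 4 := by rw [card_eq_mul_ker hτ.1, card, hc]
  have e3 := card_eq_mul_ker h6
  rw [e1, e2] at e3
  rw [card_sqN (by rw [← h2]; obtain ⟨e⟩ := h5; exact ⟨e.trans (AddEquiv.toMultiplicative prodE)⟩)]
  have e4 : (φ.ker : Set (QG 10 ML34B.iv ML34B.RL)).ncard = Nat.card φ.ker := rfl
  rw [e4]
  omega

/-- **Uniqueness.** -/
theorem unique (card : Nat.card (ProjectiveSpecialLinearGroup (Fin 3) K4) = 20160)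
    {L₁ : Type u} [Group L₁] [Finite L₁] {L₂ : Type v} [Group L₂] [Finite L₂]
    (h₁ : IsQuasisimple L₁) (h₂ : IsQuasisimple L₂)
    (hc₁ : Nat.card (center L₁) = 4) (hc₂ : Nat.card (center L₂) = 4)
    (he₁ : ∀ x ∈ center L₁, x * x = 1) (he₂ : ∀ x ∈ center L₂, x * x = 1)
    (e₁ : L₁ ⧸ center L₁ ≃* ProjectiveSpecialLinearGroup (Fin 3) K4)
    (e₂ : L₂ ⧸ center L₂ ≃* ProjectiveSpecialLinearGroup (Fin 3) K4) : Nonempty (L₁ ≃* L₂) := by
  have key : ∀ {L : Type (max u v)} [Group L], True := fun {_} [_] => trivial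
  have k1 : (e₁.toMonoidHom.comp (QuotientGroup.mk' (center L₁))).ker = center L₁ := by
    ext x
    rw [MonoidHom.mem_ker]
    show e₁ (QuotientGroup.mk' (center L₁) x) = 1 ↔ _
    rw [map_eq_one_iff e₁ e₁.injective]
    exact QuotientGroup.eq_one_iff x
  have k2 : (e₂.toMonoidHom.comp (QuotientGroup.mk' (center L₂))).ker = center L₂ := by
    ext x
    rw [MonoidHom.mem_ker]
    show e₂ (QuotientGroup.mk' (center L₂) x) = 1 ↔ _
    rw [map_eq_one_iff e₂ e₂.injective]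
    exact QuotientGroup.eq_one_iff x
  have s1 : IsStemExtension (e₁.toMonoidHom.comp (QuotientGroup.mk' (center L₁))) :=
    ⟨e₁.surjective.comp (QuotientGroup.mk'_surjective _), k1.le, by
      have : commutator L₁ = ⊤ := h₁.1.commutator_eq_top
      rw [this]; exact le_top⟩
  have s2 : IsStemExtension (e₂.toMonoidHom.comp (QuotientGroup.mk' (center L₂))) :=
    ⟨e₂.surjective.comp (QuotientGroup.mk'_surjective _), k2.le, by
      have : commutator L₂ = ⊤ := h₂.1.commutator_eq_top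
      rw [this]; exact le_top⟩
  obtain ⟨φ₁, f1, g1⟩ := ker_eq card s1 (by rw [k1]; exact hc₁) (by rw [k1]; exact he₁)
  obtain ⟨φ₂, f2, g2⟩ := ker_eq card s2 (by rw [k2]; exact hc₂) (by rw [k2]; exact he₂)
  have hk : φ₁.ker = φ₂.ker := SetLike.coe_injective (g1.trans g2.symm)
  exact ⟨((QuotientGroup.quotientKerEquivOfSurjective φ₁ f1).symm.trans
    (QuotientGroup.quotientMulEquivOfEq hk)).trans (QuotientGroup.quotientKerEquivOfSurjective φ₂ f2)⟩

end Cfsg.Agent.MulX.L34
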