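import Cfsg.Agent.MulX.Rep
import Mathlib

/-!
Cheap lower bounds for the order of a permutation group: orbits of stabilisers, no Schreier generators (owner: helper58).
-/
set_option autoImplicit false

namespace Cfsg.Agent.MulX

open Cfsg.Agent.PermTab Cfsg.Agent.CosetEnum Cfsg.Agent.LE Subgroup

/-- level: base point, tables of elements fixing the previous base points, list of (point, predecessor) -/
structure LBl where
  b : ℕ
  gens : List ℕ
  tr : List (ℕ × ℕ)

/-- test of an orbit -/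
def treeB (w : ℕ) (gens : List ℕ) : List (ℕ × ℕ) → List ℕ → Bool
  | [], _ => true
  | (p, q) :: l, seen => (seen.any fun a => Nat.beq q a) && !(seen.any fun a => Nat.beq p a) &&
      (gens.any fun t => Nat.beq (tget w t q) p) && treeB w gens l (p :: seen)

/-- test of a chain -/
def chkL (w n : ℕ) (G0 : List ℕ) : List ℕ → List LBl → Bool
  | _, [] => true
  | F, l :: L => Nat.blt l.b n && (l.gens.all fun t => (G0.any fun a => Nat.beq t a) && F.all fun p => Nat.beq (tget w t p) p) &&
      treeB w l.gens l.tr [l.b] && chkL w n G0 (l.b :: F) L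

/-- the bound -/
def lbCard (L : List LBl) : ℕ := (L.map fun l => l.tr.length + 1).prod

section

variable {w n : ℕ}

/-- elements of `K` that fix the points of `F` -/
def KF (K : Subgroup (Equiv.Perm (Fin n))) (F : List ℕ) : Subgroup (Equiv.Perm (Fin n)) where
  carrier := {σ | σ ∈ K ∧ ∀ p ∈ F, ∀ h : p < n, σ ⟨p, h⟩ = ⟨p, h⟩}
  one_mem' := ⟨one_mem K, fun _ _ _ => rfl⟩
  mul_mem' := by
    rintro a b ⟨ha, ha'⟩ ⟨hb, hb'⟩
    refine ⟨mul_mem ha hb, fun p hp h => ?_⟩
    rw [Equiv.Perm.mul_apply, hb' p hp h, ha' p hp h]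
  inv_mem' := by
    rintro a ⟨ha, ha'⟩
    refine ⟨inv_mem ha, fun p hp h => ?_⟩
    rw [Equiv.Perm.inv_eq_iff_eq, ha' p hp h]

theorem mem_KF {K : Subgroup (Equiv.Perm (Fin n))} {F : List ℕ} {σ : Equiv.Perm (Fin n)} :
    σ ∈ KF K F ↔ σ ∈ K ∧ ∀ p ∈ F, ∀ h : p < n, σ ⟨p, h⟩ = ⟨p, h⟩ := Iff.rfl

theorem treeB_spec {J : Subgroup (Equiv.Perm (Fin n))} {gens : List ℕ} (hg : ∀ t ∈ gens, InGrp w n J t) (b : Fin n) :
    ∀ (l : List (ℕ × ℕ)) (seen : List ℕ), treeB w gens l seen = true → seen.Nodup →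
      (∀ p ∈ seen, ∃ h : p < n, (⟨p, h⟩ : Fin n) ∈ MulAction.orbit J b) →
      ∃ s : List ℕ, s.length = seen.length + l.length ∧ s.Nodup ∧
        ∀ p ∈ s, ∃ h : p < n, (⟨p, h⟩ : Fin n) ∈ MulAction.orbit J b
  | [], seen, _, h2, h3 => ⟨seen, by simp, h2, h3⟩
  | (p, q) :: l, seen, h1, h2, h3 => by
    simp only [treeB, Bool.and_eq_true, List.any_eq_true, Bool.not_eq_true'] at h1
    obtain ⟨⟨⟨⟨a, ha, ha'⟩, h5⟩, ⟨t, ht, ht'⟩⟩, h6⟩ := h1
    have ha' := Nat.eq_of_beq_eq_true ha'
    have ht' := Nat.eq_of_beq_eq_true ht'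
    subst ha'
    obtain ⟨hq, hqo⟩ := h3 q ha
    have hpn : p ∉ seen := by
      intro hp
      rw [← Bool.not_eq_true, List.any_eq_true] at h5
      exact h5 ⟨p, hp, Nat.beq_refl p⟩
    obtain ⟨hv, hJ⟩ := hg t ht
    have hlt : p < n := by
      rw [← ht']
      exact tget_lt_of_valid hv hq
    obtain ⟨s, hs1, hs2, hs3⟩ := treeB_spec hg b l (p :: seen) h6 (List.nodup_cons.2 ⟨hpn, h2⟩) (by
      intro x hx
      rcases List.mem_cons.1 hx with rfl | hx
      · refine ⟨hlt, ?_⟩
        have e : (⟨x, hlt⟩ : Fin n) = (⟨toPerm w n t, hJ⟩ : J) • (⟨q, hq⟩ : Fin n) := by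
          apply Fin.ext
          show x = ((toPerm w n t ⟨q, hq⟩ : Fin n) : ℕ)
          rw [toPerm_apply hv]
          exact ht'.symm
        rw [e]
        exact MulAction.mem_orbit_of_mem_orbit _ hqo
      · exact h3 x hx)
    exact ⟨s, by rw [hs1]; simp; omega, hs2, hs3⟩

theorem lb_spec {K : Subgroup (Equiv.Perm (Fin n))} {G0 : List ℕ} (hG : ∀ t ∈ G0, InGrp w n K t) :
    ∀ (L : List LBl) (F : List ℕ), chkL w n G0 F L = true → lbCard L ≤ Nat.card (KF K F)
  | [], F, _ => by
    show 1 ≤ _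
    exact Nat.card_pos
  | l :: L, F, h => by
    simp only [chkL, Bool.and_eq_true, List.all_eq_true, List.any_eq_true, Nat.blt_eq] at h
    obtain ⟨⟨⟨h1, h2⟩, h3⟩, h4⟩ := h
    have ih := lb_spec hG L (l.b :: F) h4
    set b : Fin n := ⟨l.b, h1⟩ with hb
    have hgen : ∀ t ∈ l.gens, InGrp w n (KF K F) t := by
      intro t ht
      obtain ⟨⟨a, ha, ha'⟩, h5⟩ := h2 t ht
      have ha' := Nat.eq_of_beq_eq_true ha'
      subst ha'
      obtain ⟨hv, hK⟩ := hG t ha
      refine ⟨hv, hK, fun p hp hpn => ?_⟩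
      apply Fin.ext
      rw [toPerm_apply hv]
      exact Nat.eq_of_beq_eq_true (h5 p hp)
    obtain ⟨s, hs1, hs2, hs3⟩ := treeB_spec hgen b l.tr [l.b] h3 (List.nodup_singleton _) (by
      intro p hp
      rw [List.mem_singleton] at hp
      subst hp
      exact ⟨h1, MulAction.mem_orbit_self b⟩)
    -- size of the orbit
    have h6 : l.tr.length + 1 ≤ (MulAction.orbit (KF K F) b).ncard := by
      have h7 : s.length ≤ Nat.card (MulAction.orbit (KF K F) b) := by
        have h8 : Function.Injective (fun i : Fin s.length => (⟨⟨s.get i, (hs3 _ (s.get_mem i)).choose⟩,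
            (hs3 _ (s.get_mem i)).choose_spec⟩ : MulAction.orbit (KF K F) b)) := by
          intro i j hij
          have h9 : s.get i = s.get j := congrArg (fun z : MulAction.orbit (KF K F) b => ((z : Fin n) : ℕ)) hij
          exact (List.nodup_iff_injective_get.1 hs2) h9
        have h10 := Nat.card_le_card_of_injective _ h8
        rwa [Nat.card_eq_fintype_card, Fintype.card_fin] at h10
      rw [Nat.card_coe_set_eq] at h7
      rw [hs1] at h7
      simpa [add_comm] using h7
    have h7 := Subgroup.card_mul_index (MulAction.stabilizer (KF K F) b)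
    rw [MulAction.index_stabilizer] at h7
    have h8 : Nat.card (KF K (l.b :: F)) ≤ Nat.card (MulAction.stabilizer (KF K F) b) := by
      have h9 : ∀ x : KF K (l.b :: F), (x : Equiv.Perm (Fin n)) ∈ KF K F := fun x =>
        ⟨x.2.1, fun p hp => x.2.2 p (List.mem_cons_of_mem _ hp)⟩
      apply Nat.card_le_card_of_injective (fun x : KF K (l.b :: F) =>
        (⟨⟨x, h9 x⟩, by
          rw [MulAction.mem_stabilizer_iff]
          exact x.2.2 l.b (by simp) h1⟩ : MulAction.stabilizer (KF K F) b))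
      intro x y hxy
      apply Subtype.ext
      exact congrArg (fun z : MulAction.stabilizer (KF K F) b => ((z : KF K F) : Equiv.Perm (Fin n))) hxy
    show (l.tr.length + 1) * lbCard L ≤ _
    rw [← h7, mul_comm]
    exact Nat.mul_le_mul (ih.trans h8) h6

end

/-- **the letters generate the group** -/
theorem RepT.top_lb {G : Type*} [Group G] {w n idt : ℕ} {tb : ℕ → ℕ} {g : ℕ → G} {D : Subgroup (G × Equiv.Perm (Fin n))}
    (A : RepT w n tb g D) [Finite G] (hn : n ≤ 2 ^ w) (hid : idt = tid w n) {ng : ℕ} {G0 : List ℕ} {L : List LBl}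
    {ws : List (List ℕ)} (hws : G0 = ws.map (tword w n idt tb))
    (hlet : ws.all (fun u => u.all fun x => isLet ng x) = true) (hc : chkL w n G0 [] L = true)
    (hcard : Nat.card G ≤ lbCard L) : Cl g ng = ⊤ := by
  set J := closure {x | ∃ y, isLet ng y = true ∧ x = toPerm w n (tb y)} with hJ
  have hlJ : ∀ x, isLet ng x = true → InGrp w n J (tb x) := fun x hx => ⟨A.valid x, subset_closure ⟨x, hx, rfl⟩⟩
  have hG : ∀ t ∈ G0, InGrp w n J t := by
    intro t ht
    rw [hws, List.mem_map] at ht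
    obtain ⟨u, hu, rfl⟩ := ht
    simp only [List.all_eq_true] at hlet
    have h1 := hlet u hu
    clear hu
    induction u with
    | nil =>
      rw [tword_nil, hid]
      exact ⟨(toPerm_tid hn).1, by rw [(toPerm_tid hn).2]; exact one_mem _⟩
    | cons x u ih =>
      rw [tword_cons]
      exact inGrp_tmul (hlJ x (h1 x (by simp))) (ih fun y hy => h1 y (by simp [hy]))
  have h1 := lb_spec hG L [] hc
  have h2 : KF J [] = J := by
    ext σ
    rw [mem_KF]
    simp
  rw [h2] at h1
  have h3 := A.card_le (ng := ng) (J := J) le_rfl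
  exact Subgroup.eq_top_of_le_card _ ((hcard.trans h1).trans h3)

end Cfsg.Agent.MulX
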