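import Cfsg.Agent.MulX.M22Data
import Cfsg.Agent.MulX.MM22Rel
import Cfsg.Agent.MulX.Multi
import Cfsg.Agent.CosetEnum.MM22.Certs
import Cfsg.Agent.CosetEnum.MA6.Certs
import Cfsg.Agent.CosetEnum.MA7.Certs
import Cfsg.Agent.Golay.M24Order
import Cfsg.Prelude.Def_Spor_Mathieu

/-!
The Schur multiplier of `M₂₂` (owner: helper58).
-/
set_option autoImplicit false
set_option maxRecDepth 1000000

namespace Cfsg.Agent.MulX.M22D

open Cfsg.Agent.CosetEnum Cfsg.Agent.PermTab Cfsg Cfsg.Agent.Golay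

/-- tables of the letters on the 24 points -/
def tg : ℕ → ℕ
  | 1 => 0xb956264a29b29c8334333d5f419200
  | 2 => 0xbbcc444a212b553aba0c3aec21d120
  | 3 => 0xbb0c824a36a38f0ab66f52c2919440
  | 4 => 0xbc16f4ca2c4395631c946d453184a0
  | 5 => 0xb99eb42a344ba53836ac39056184a0
  | 6 => 0xb91306362bab948a49f33d82619440
  | 7 => 0xbc1245ca2cab8762b5e13a262550c0
  | 8 => 0xbb1e22ca364b95098ea63857469100
  | 9 => 0xb904f2c94143a359b6143d9661b120
  | 10 => 0xb99885c9a9a39422c42f392761d600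
  | 11 => 0xbba6434a83b3ca86360b3d55148820
  | 12 => 0xbbcd1ac8897594b4146c3cdb480820
  | _ => 0xbdab49ca307b9ac5a928398a418820

theorem tg_ok : ∀ x ≤ 12, validM24 (tg x) = true ∧ papp (tg x) 23 = 23 ∧ papp (tg x) 0 = 0 ∧
    ∀ i : Fin 22, papp (tg x) (i.1 + 1) = tget 5 (tb x) i + 1 := by
  decide +kernel

theorem exists_elt (x : ℕ) : ∃ a : Spor.M22, IsTable (tg x) (a : Equiv.Perm GolayPt) := by
  have key : ∀ x ≤ 12, ∃ a : Spor.M22, IsTable (tg x) (a : Equiv.Perm GolayPt) := by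
    intro x hx
    obtain ⟨h1, h2, h3, -⟩ := tg_ok x hx
    obtain ⟨σ, hσ, ht⟩ := exists_mem_M24 h1
    refine ⟨⟨σ, ⟨hσ, ?_⟩, ?_⟩, ht⟩
    · exact idx_injective ((ht none).trans h2)
    · exact idx_injective ((ht (some 0)).trans h3)
  by_cases hx : x ≤ 12
  · exact key x hx
  · match x, hx with
    | m + 13, _ => exact key 0 (by omega)

/-- the letters -/
noncomputable def gM (x : ℕ) : Spor.M22 := (exists_elt x).choose

theorem gM_spec (x : ℕ) : IsTable (tg x) (gM x : Equiv.Perm GolayPt) := (exists_elt x).choose_spec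

/-- the points -/
def ptM (i : Fin 22) : GolayPt := pt (i.1 + 1)

theorem idx_ptM (i : Fin 22) : idx (ptM i) = i.1 + 1 := idx_pt (by omega)

theorem ptM_inj : Function.Injective ptM := by
  intro i j h
  have h1 := congrArg idx h
  rw [idx_ptM, idx_ptM] at h1
  exact Fin.ext (by omega)

theorem act (x : ℕ) (i : Fin 22) : gM x • ptM i = ptM (toPerm 5 22 (tb x) i) := by
  apply idx_injective
  have h1 : idx (gM x • ptM i) = papp (tg x) (i.1 + 1) := by
    have := gM_spec x (ptM i)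
    rw [idx_ptM] at this
    exact this
  rw [h1, idx_ptM, toPerm_apply (tb_valid x)]
  by_cases hx : x ≤ 12
  · exact (tg_ok x hx).2.2.2 i
  · match x, hx with
    | m + 13, _ => exact (tg_ok 0 (by omega)).2.2.2 i

theorem rep : RepT 5 22 tb gM (actD Spor.M22 ptM) := by
  refine RepT.of_act tb_valid act ptM_inj fun a ha => ?_
  have h0 : (a : Equiv.Perm GolayPt) none = none := a.2.1.2
  have h1 : (a : Equiv.Perm GolayPt) (some 0) = some 0 := a.2.2
  apply Subtype.ext
  apply Equiv.ext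
  intro p
  show (a : Equiv.Perm GolayPt) p = p
  have hp := pt_idx p
  have hlt := idx_lt p
  rcases Nat.lt_or_ge (idx p) 1 with h | h
  · have h2 : idx p = 0 := by omega
    rw [h2] at hp
    have h3 : pt 0 = some 0 := by decide
    rw [← hp, h3]; exact h1
  · rcases Nat.lt_or_ge (idx p) 23 with h4 | h4
    · have h5 := ha ⟨idx p - 1, by omega⟩
      have h6 : ptM ⟨idx p - 1, by omega⟩ = p := by
        apply idx_injective
        rw [idx_ptM]
        show idx p - 1 + 1 = idx p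
        omega
      rw [h6] at h5
      exact h5
    · have h2 : idx p = 23 := by omega
      rw [h2] at hp
      have h3 : pt 23 = none := by decide
      rw [← hp, h3]; exact h0

theorem card : Nat.card Spor.M22 = 443520 := by
  rw [← stabChain_two]
  rfl

theorem top : Cl gM 12 = ⊤ := by
  have hfin : Finite Spor.M22 := Nat.finite_of_card_ne_zero (by rw [card]; norm_num)
  exact rep.top (by norm_num) hid chk hws (by decide) (by rw [card]; exact hcard.ge)

theorem rel_ok : letB 12 MM22C.iv = true ∧ triB 12 MM22C.iv MM22R.R1 = true ∧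
    relB MM22C.iv 12 MM22R.R1 MM22R.R2 MM22C.RL = true ∧
    (List.range (12 + 1)).all (fun x => !isLet 12 x || (MM22R.R1.any fun q => q.1 == x || ivL MM22C.iv q.1 == x)) = true ∧
    exB MM22C.iv MM22R.R1 MM22C.RL = true ∧ ceB MM22C.iv 12 MM22R.R2 MM22C.RL = true := by
  decide +kernel

theorem cp : CP gM 12 MM22C.iv MM22R.R1 MM22R.R2 MM22C.RL := by
  obtain ⟨h1, h2, h3, h4, -, -⟩ := rel_ok
  exact rep.cp (by norm_num) hid h1 h2 h3 h4 (by decide +kernel) rfl (fun x hx => by
    match x, hx with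
    | m + 13, _ => rfl) (by decide +kernel) (by decide +kernel) top

theorem bd : Bd (⊤ : Subgroup (QG 12 MM22C.iv MM22C.RL)) (443520 * 12) := by
  have U := univ_qg 12 MM22C.iv MM22C.RL
  have g := U.good
  rw [← U.top]
  have h1 := (Bd.zero (qg 12 MM22C.iv MM22C.RL)).cl (M := 2160) MA6A.cert g (by decide +kernel) (by decide +kernel)
    (by norm_num) rfl
  have h2 := h1.cl (M := 15120) MA7B.cert g (by decide +kernel) (by decide +kernel) (by norm_num) rfl
  exact h2.cl (M := 443520 * 12) MM22C.cert g (by decide +kernel) (by decide +kernel) (by norm_num) rfl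

theorem ord : 12 ∣ orderOf ((([[2, 4, 12, 4, 11, 8, 10, 12], [1, 7, 1, 7], [1, 7, 1, 7]] :
    List (List ℕ)).flatten.map (qg 12 MM22C.iv MM22C.RL)).prod) := by
  have h4 : 4 ∣ orderOf ((([[2, 4, 12, 4, 11, 8, 10, 12], [1, 7, 1, 7], [1, 7, 1, 7]] :
      List (List ℕ)).flatten.map (qg 12 MM22C.iv MM22C.RL)).prod) :=
    dvd_orderOf MM22T4.tabOK (c := [2, 4, 12, 4, 11, 8, 10, 12, 1, 7, 1, 7, 1, 7, 1, 7]) (by decide) (by norm_num) (i := 0)
      (by decide +kernel) (by decide +kernel)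
  have h3 : 3 ∣ orderOf ((([[2, 4, 12, 4, 11, 8, 10, 12], [1, 7, 1, 7], [1, 7, 1, 7]] :
      List (List ℕ)).flatten.map (qg 12 MM22C.iv MM22C.RL)).prod) :=
    dvd_orderOf MM22T3.tabOK (c := [2, 4, 12, 4, 11, 8, 10, 12, 1, 7, 1, 7, 1, 7, 1, 7]) (by decide) (by norm_num) (i := 0)
      (by decide +kernel) (by decide +kernel)
  exact (by norm_num : Nat.Coprime 4 3).mul_dvd_of_dvd_of_dvd h4 h3

theorem mult : HasCyclicSchurMultiplier Spor.M22 12 := by
  obtain ⟨-, -, -, -, h5, h6⟩ := rel_ok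
  exact cp.cyclic h5 h6 card (by norm_num) (by norm_num) bd
    (ws := [[2, 4, 12, 4, 11, 8, 10, 12], [1, 7, 1, 7], [1, 7, 1, 7]]) (by decide) ord

end Cfsg.Agent.MulX.M22D
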