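import Cfsg.Agent.MulX.Tab

/-! Relators (generated data, owner: helper58). -/

set_option autoImplicit false

namespace Cfsg.Agent.MulX.MG23R

/-- exact relators -/
def R1 : List (ℕ × List ℕ) := [(1, [1, 1, 3, 2, 5, 3, 6, 4, 2, 3, 5, 4, 6, 1, 4]), (3, [3, 3, 1, 5, 3, 6, 1, 4, 2, 5, 4, 6, 2]), (5, [5, 5, 1, 4, 5, 3, 1, 6, 2, 4, 6, 3, 2]), (7, [7, 7, 1, 3, 7, 3, 8, 4, 8, 4, 2])]

/-- central relators -/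
def R2 : List (List ℕ) := [[2, 2, 2], [4, 4, 4], [6, 6, 6], [2, 8, 2, 8], [2, 2, 7, 1, 7], [2, 4, 2, 3, 1, 4], [2, 6, 2, 6, 1, 5], [2, 3, 2, 3, 2, 3], [2, 7, 4, 2, 7, 4], [6, 6, 6, 7, 7, 7], [6, 8, 5, 7, 6, 7], [2, 6, 1, 5, 2, 5, 5], [2, 5, 8, 5, 2, 7, 6], [4, 4, 6, 3, 6, 3, 6]]

end Cfsg.Agent.MulX.MG23R
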