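import Cfsg.Agent.MulX.Tab

/-! Relators (generated data, owner: helper58). -/

set_option autoImplicit false

namespace Cfsg.Agent.MulX.MU43R

/-- exact relators -/
def R1 : List (ℕ × List ℕ) := [(1, [1, 1, 3, 6, 3, 2, 4, 5, 4]), (3, [3, 3, 1, 6, 1, 4, 2, 5, 2]), (5, [5, 5, 1, 4, 1, 6, 2, 3, 2]), (7, [7, 7, 1, 4, 1, 8, 2, 3, 2]), (9, [9, 9, 1, 4, 1, 5, 8, 5, 10, 6, 7, 6, 2, 3, 2]), (11, [11, 11, 5, 8, 5, 12, 6, 7, 6])]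

/-- central relators -/
def R2 : List (List ℕ) := [[1, 1, 1], [3, 3, 3], [5, 5, 5], [7, 7, 7], [1, 3, 1, 3], [1, 5, 1, 5], [1, 7, 1, 7], [3, 5, 3, 5], [3, 7, 3, 7], [5, 7, 5, 7], [10, 10, 10], [4, 10, 4, 10], [2, 3, 10, 2, 3, 10], [8, 9, 8, 9, 8, 9], [2, 8, 9, 7, 2, 10, 8, 9], [2, 12, 2, 12], [2, 11, 9, 12, 4, 11], [8, 12, 8, 12, 7, 11]]

end Cfsg.Agent.MulX.MU43R
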