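import Cfsg.Agent.MulX.Part

/-!
Partial coset enumerations, more applications (owner: helper58).
-/
set_option autoImplicit false

namespace Cfsg.Agent.CosetEnum

theorem PCert.apply_cut {G : Type} [Group G] {g : ℕ → G} {ng k : ℕ} {l lk : List (ℕ × ℕ)} {RL RLk : List (List ℕ × ℕ)}
    {subs us : List (List ℕ)} (C : PCert k lk RLk subs us) (hg : Good g ng l RL) (hc : cutB k l lk RL RLk = true)
    {H : Subgroup G} (hs : ∀ r ∈ subs, wOK k r = true ∧ (r.map g).prod ∈ H) (hu : us.all (wOK k) = true) :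
    ∀ u ∈ us, (u.map g).prod ∈ H := by
  have key : ∀ r : List ℕ, wOK k r = true → r.map (cut g k) = r.map g := by
    intro r hr
    apply List.map_congr_left
    intro x hx
    simp only [wOK, List.all_eq_true] at hr
    rw [cut, if_pos (hr x hx)]
  intro u hu'
  simp only [List.all_eq_true] at hu
  rw [← key u (hu u hu')]
  refine C.apply (hg.cut hc) (fun r hr => ?_) u hu'
  rw [key r (hs r hr).1]
  exact (hs r hr).2

theorem Good.append {G : Type*} [Group G] {g : ℕ → G} {ng : ℕ} {l : List (ℕ × ℕ)} {RL : List (List ℕ × ℕ)}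
    (hg : Good g ng l RL) {us : List (List ℕ)} (h : ∀ u ∈ us, (u.map g).prod = 1) :
    Good g ng l (RL ++ us.map fun u => (u, 1)) := by
  refine ⟨hg.inv, hg.one, fun p hp => ?_⟩
  rcases List.mem_append.1 hp with hp | hp
  · exact hg.rel p hp
  · obtain ⟨u, hu, rfl⟩ := List.mem_map.1 hp
    rw [pow_one]
    exact h u hu

end Cfsg.Agent.CosetEnum
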