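import Cfsg.Agent.MulX.RuBD

/-!
Data for the prime 2 in the Rudvalis group (owner: helper58)
-/

set_option autoImplicit false
set_option maxRecDepth 1000000

namespace Cfsg.Agent.MulX.RuB

open Cfsg Cfsg.Agent.MulX.Stb Cfsg.Agent.MulX.StbP

theorem K_good : K.Good := ⟨bd_of_bdB 143 (by decide +kernel), bd_of_bdB 143 (by decide +kernel), bd_of_bdB 143 (by decide +kernel)⟩
theorem D_ok : dOK D CosetEnum.RuT.lets = true := by decide +kernel
theorem rules_ok : rules.all (ruleP CosetEnum.RuT.P D [0, 1, 2, 3]) = true := by decide +kernel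
theorem pc_ok : pcOK 2 14 105 rules = true := by decide +kernel
theorem chn_ok : chP CosetEnum.RuT.P D 14 chn = true := by decide +kernel
theorem chn_prod : (chn.map fun b => b.2.length).prod = 2 ^ 14 := by decide +kernel
theorem paths_ok0 : pathsB 2 K rules paths0 rows0 = true := by decide +kernel
theorem paths_ok1 : pathsB 2 K rules paths1 rows1 = true := by decide +kernel
theorem paths_ok2 : pathsB 2 K rules paths2 rows2 = true := by decide +kernel
theorem rows_eq : rows = rows0 ++ rows1 ++ rows2 := rfl
theorem rows_ok : ∀ row ∈ rows, ∃ d, pathOK 2 K rules d row = true := by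
  intro row h
  rw [rows_eq] at h
  simp only [List.mem_append] at h
  rcases h with (h | h) | h
  · exact pathsB_spec paths_ok0 row h
  · exact pathsB_spec paths_ok1 row h
  · exact pathsB_spec paths_ok2 row h
theorem gau_ok : gauge.all (fun L => Nat.beq (Nat.land L K.M7) L) = true := by decide +kernel
theorem tgts_ok0 : tgts1OK 2 K rules 107 rows gauge T 0 certs0 = true := by decide +kernel
theorem tgts_ok1 : tgts1OK 2 K rules 107 rows gauge T 40 certs1 = true := by decide +kernel
theorem tgts_ok2 : tgts1OK 2 K rules 107 rows gauge T 80 certs2 = true := by decide +kernel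
theorem tgts_ok : ∀ r < 105, ∃ c M, tgt1OK 2 K rules 107 rows gauge T r c M = true := by
  intro r hr
  by_cases h0 : r < 40
  · have h1 := tgts1OK_spec tgts_ok0 (r - 0) (by have : certs0.length = 40 := rfl; omega)
    rwa [show 0 + (r - 0) = r by omega] at h1
  by_cases h1 : r < 80
  · have h1 := tgts1OK_spec tgts_ok1 (r - 40) (by have : certs1.length = 40 := rfl; omega)
    rwa [show 40 + (r - 40) = r by omega] at h1
  have h1 := tgts1OK_spec tgts_ok2 (r - 80) (by have : certs2.length = 25 := rfl; omega)
  rwa [show 80 + (r - 80) = r by omega] at h1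
theorem rows_len : rows.length ≤ 107 := by decide +kernel
theorem T_ok : Nat.beq (Nat.land T K.M7) T = true := by decide +kernel
theorem qaths_ok : pathsB 4 K rules qaths qows = true := by decide +kernel
theorem qows_ok : ∀ row ∈ qows, ∃ d, pathOK 4 K rules d row = true := fun row h => pathsB_spec qaths_ok row h
theorem T2_ok : tOK 4 2 K qows T M2 = true := by decide +kernel

end Cfsg.Agent.MulX.RuB
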