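import Cfsg.Agent.MulX.RuCD

/-!
Data for the prime 3 in the Rudvalis group (owner: helper58)
-/

set_option autoImplicit false
set_option maxRecDepth 1000000

namespace Cfsg.Agent.MulX.RuC

open Cfsg Cfsg.Agent.MulX.Stb Cfsg.Agent.MulX.StbP

theorem K_good : K.Good := ⟨bd_of_bdB 12 (by decide +kernel), bd_of_bdB 12 (by decide +kernel), bd_of_bdB 12 (by decide +kernel)⟩
theorem D_ok : dOK D CosetEnum.RuT.lets = true := by decide +kernel
theorem rules_ok : rules.all (ruleP CosetEnum.RuT.P D [0, 1, 2, 3]) = true := by decide +kernel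
theorem pc_ok : pcOK 3 3 6 rules = true := by decide +kernel
theorem chn_ok : chP CosetEnum.RuT.P D 3 chn = true := by decide +kernel
theorem chn_prod : (chn.map fun b => b.2.length).prod = 3 ^ 3 := by decide +kernel
theorem paths_ok0 : pathsB 3 K rules paths0 rows0 = true := by decide +kernel
theorem rows_eq : rows = rows0 := rfl
theorem rows_ok : ∀ row ∈ rows, ∃ d, pathOK 3 K rules d row = true := by
  intro row h
  rw [rows_eq] at h
  exact pathsB_spec paths_ok0 row h
theorem gau_ok : gauge.all (fun L => Nat.beq (Nat.land L K.M7) L) = true := by decide +kernel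
theorem tgts_ok0 : tgtsOK 3 K rules 5 rows gauge 0 certs0 = true := by decide +kernel
theorem tgts_ok : ∀ r < 6, ∃ M, tgtOK 3 K rules 5 rows gauge r M = true := by
  intro r hr
  have h1 := tgtsOK_spec tgts_ok0 (r - 0) (by have : certs0.length = 6 := rfl; omega)
  rwa [show 0 + (r - 0) = r by omega] at h1
theorem rows_len : rows.length ≤ 5 := by decide +kernel

end Cfsg.Agent.MulX.RuC
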