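import Cfsg.Agent.MulX.StbPerm
import Cfsg.Agent.CosetEnum.Ru.TData

/-!
Data for the prime 3 in the Rudvalis group (owner: helper58)
-/

set_option autoImplicit false
set_option maxRecDepth 1000000

namespace Cfsg.Agent.MulX.RuC

open Cfsg Cfsg.Agent.MulX.Stb Cfsg.Agent.MulX.StbP

/-- words for the letters -/
def D : List (List ℕ) := [[2, 2, 4, 4, 2, 2, 3, 2, 8, 10, 3, 10, 6, 9, 11, 9, 6, 8, 10, 11, 6, 9, 10, 9, 6], [1, 1, 8, 1, 9, 10, 4, 10, 2, 10, 4, 4, 10, 6, 1, 6, 3, 2, 10, 5, 6, 8, 7], [4, 2, 9, 1, 1, 4, 2, 9, 2, 9, 1, 9, 2, 7, 5, 11, 7, 10, 7, 9, 7, 2], [2, 2, 4, 4, 2, 2, 4, 5, 7, 5, 11, 8, 11, 2, 9, 6, 10, 7, 5, 11, 10, 11, 10, 5, 10], [3, 9, 1, 1, 3, 2, 2, 3, 2, 4, 11, 7, 11, 10, 5, 7, 11, 10, 11, 2, 9, 11]]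
/-- rules -/
def rules : List (List ℕ × List ℕ) := [([0, 0, 0], []), ([1, 1, 1], []), ([2, 2, 2], []), ([1, 0], [0, 1, 2]), ([2, 0], [0, 2]), ([2, 1], [1, 2]), ([3, 0], [0, 2, 2, 3]), ([3, 1], [0, 0, 1, 1, 3]), ([3, 2], [2, 2, 3]), ([4, 0], [1, 1, 2, 4]), ([4, 1], [0, 4]), ([4, 2], [2, 4])]
/-- masks -/
def K : Mk := ⟨0x700070007000700070007000700070007000700070007, 0xfff0fff0fff0fff0fff0fff0fff0fff0fff0fff0fff0fff, 0x3ff03ff03ff03ff03ff03ff03ff03ff03ff03ff03ff03ff⟩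
def paths0 : List (List ℕ × ℕ × ℕ) := [([4, 1, 1, 1], 5, 0x203000000001404001402001400), ([1, 1, 1, 0], 9, 0x605000603000601000a05000a09000a07000203000403000200), ([3, 2, 0], 9, 0x803000c01001007000403000402000800000802000c04001000), ([4, 0, 0, 0], 13, 0x3000400000200000a04000a06000a02000a04000a00000200000a0400120c001206001200), ([3, 1, 1, 1], 25, 0x203000200000402000000000604000806000808000602000804000a02000202000a06000406000a04000600000602000804000806000a02000000000604000606000e10000e08000e00)]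
def rows0 : List ℕ := [0x20001, 0x200000000, 0x10000000000000000, 0x100020002, 0x100020000000200010002]
/-- rows -/
def rows : List ℕ := [0x20001, 0x200000000, 0x10000000000000000, 0x100020002, 0x100020000000200010002]
/-- gauge -/
def gauge : List ℕ := [0x0, 0x0, 0x1000000000000]
def certs0 : List ℕ := [0x20a, 0x209, 0x10, 0x0, 0x40, 0x1051]
/-- chain of blocks -/
def chn : List (ℕ × List (List ℕ)) := [(20, [[], [1], [2, 2], [1, 2], [0], [0, 1], [0, 1, 2], [0, 0], [2]]),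
  (2947, [[0, 0, 1, 2, 2], [], [0, 1, 1]])]

end Cfsg.Agent.MulX.RuC
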