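import Cfsg.Agent.MulX.RuFin
import Cfsg.Agent.SchurMult.Basic
import Cfsg.Prelude.Def_Spor_Ru

/-!
# The Schur multiplier of the Rudvalis group (owner: helper58)
-/

set_option autoImplicit false

namespace Cfsg.Agent.MulX.RuExt

open Cfsg Cfsg.Spor
open scoped commutatorElement

/-! ### A central extension of a perfect group -/

section

variable {F : Type} [Group F]

theorem comm_eq (hperf : commutator (F ⧸ Subgroup.center F) = ⊤) :
    ⁅commutator F, commutator F⁆ = commutator F := by
  have hsup : ∀ a : F, ∃ x ∈ commutator F, ∃ z ∈ Subgroup.center F, a = x * z := by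
    intro a
    have h1 : (QuotientGroup.mk' (Subgroup.center F) a) ∈ (commutator F).map (QuotientGroup.mk' (Subgroup.center F)) := by
      rw [commutator_def, Subgroup.map_commutator, Subgroup.map_top_of_surjective _ (QuotientGroup.mk'_surjective _),
        ← commutator_def, hperf]
      exact Subgroup.mem_top _
    obtain ⟨x, hx, hxa⟩ := h1
    refine ⟨x, hx, x⁻¹ * a, ?_, by group⟩
    have h2 : QuotientGroup.mk' (Subgroup.center F) (x⁻¹ * a) = 1 := by
      rw [map_mul, map_inv, hxa, inv_mul_cancel]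
    rwa [← MonoidHom.mem_ker, QuotientGroup.ker_mk'] at h2
  apply le_antisymm
  · rw [commutator_def]
    exact Subgroup.commutator_mono le_top le_top
  · conv_lhs => rw [commutator_def]
    rw [Subgroup.commutator_le]
    intro a _ b _
    obtain ⟨x, hx, z, hz, rfl⟩ := hsup a
    obtain ⟨y, hy, w, hw, rfl⟩ := hsup b
    have hz' := Subgroup.mem_center_iff.1 hz
    have hw' := Subgroup.mem_center_iff.1 hw
    have h1 : ⁅x * z, y * w⁆ = ⁅x, y⁆ := by
      rw [commutatorElement_def, commutatorElement_def]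
      have h2 : x * z * (y * w) = x * y * (z * w) := by
        calc x * z * (y * w) = x * (z * y) * w := by group
          _ = x * (y * z) * w := by rw [hz' y]
          _ = _ := by group
      have h3 : (x * z)⁻¹ * (y * w)⁻¹ = x⁻¹ * y⁻¹ * (z * w)⁻¹ := by
        have h4 : (x * z)⁻¹ * (y * w)⁻¹ = (y * w * (x * z))⁻¹ := by group
        have h5 : y * w * (x * z) = z * w * (y * x) := by
          calc y * w * (x * z) = y * (w * x) * z := by group
            _ = y * (x * w) * z := by rw [hw' x]
            _ = (y * x * w) * z := by group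
            _ = (w * (y * x)) * z := by rw [hw' (y * x)]
            _ = z * (w * (y * x)) := by rw [hz' (w * (y * x))]
            _ = _ := by group
        rw [h4, h5]; group
      have h6 : ∀ t : F, (z * w) * t = t * (z * w) := by
        intro t
        rw [mul_assoc, ← hw' t, ← mul_assoc, ← hz' t, mul_assoc]
      rw [h2, mul_assoc, h3]
      calc x * y * (z * w) * (x⁻¹ * y⁻¹ * (z * w)⁻¹) = x * y * ((z * w) * (x⁻¹ * y⁻¹)) * (z * w)⁻¹ := by group
        _ = x * y * ((x⁻¹ * y⁻¹) * (z * w)) * (z * w)⁻¹ := by rw [h6]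
        _ = _ := by group
    rw [h1]
    exact Subgroup.commutator_mem_commutator hx hy

theorem mult_two [Finite F] (hperf : commutator (F ⧸ Subgroup.center F) = ⊤)
    (hle : ∀ (Γ : Type) [Group Γ] [Finite Γ] (σ : Γ →* F ⧸ Subgroup.center F), IsStemExtension σ → Nat.card σ.ker ≤ 2)
    {a b : F} (hab : ⁅a, b⁆ ∈ Subgroup.center F) (hne : ⁅a, b⁆ ≠ 1) :
    HasCyclicSchurMultiplier (F ⧸ Subgroup.center F) 2 := by
  set X := commutator F with hX
  set φ : X →* F ⧸ Subgroup.center F := (QuotientGroup.mk' (Subgroup.center F)).comp X.subtype with hφ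
  have hker : ∀ x : X, x ∈ φ.ker ↔ (x : F) ∈ Subgroup.center F := by
    intro x
    rw [MonoidHom.mem_ker]
    show QuotientGroup.mk' (Subgroup.center F) (x : F) = 1 ↔ _
    rw [← MonoidHom.mem_ker, QuotientGroup.ker_mk']
  have hXX : commutator X = ⊤ := by
    rw [eq_top_iff]
    intro x _
    have h1 : (commutator X).map X.subtype = X := by
      rw [commutator_def, Subgroup.map_commutator, ← MonoidHom.range_eq_map, Subgroup.range_subtype, hX]
      exact comm_eq hperf
    have h2 : (x : F) ∈ (commutator X).map X.subtype := by rw [h1]; exact x.2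
    obtain ⟨y, hy, hyx⟩ := h2
    have : y = x := Subtype.ext hyx
    rwa [← this]
  have hst : IsStemExtension φ := by
    refine ⟨?_, ?_, ?_⟩
    · rw [← MonoidHom.range_eq_top, hφ, MonoidHom.range_comp, Subgroup.range_subtype, hX, commutator_def,
        Subgroup.map_commutator, Subgroup.map_top_of_surjective _ (QuotientGroup.mk'_surjective _), ← commutator_def,
        hperf]
    · intro x hx
      rw [Subgroup.mem_center_iff]
      intro y
      apply Subtype.ext
      exact Subgroup.mem_center_iff.1 ((hker x).1 hx) y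
    · rw [hXX]; exact le_top
  have hc2 := hle X φ hst
  have hz : ⁅a, b⁆ ∈ X := by
    rw [hX, commutator_def]
    exact Subgroup.commutator_mem_commutator (Subgroup.mem_top a) (Subgroup.mem_top b)
  have hnt : Nontrivial φ.ker := by
    refine ⟨⟨⟨⟨⁅a, b⁆, hz⟩, (hker _).2 hab⟩, 1, ?_⟩⟩
    intro h
    apply hne
    have h1 := congrArg (fun y : φ.ker => ((y : X) : F)) h
    exact h1
  have hc : Nat.card φ.ker = 2 := le_antisymm hc2 Finite.one_lt_card
  have : Fact (Nat.Prime 2) := ⟨Nat.prime_two⟩
  refine Cfsg.Agent.SchurMult.hasSchurMultiplier_of_card_le ⟨X, inferInstance, inferInstance, φ, hst, ⟨?_⟩⟩ ?_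
  · exact mulEquivOfPrimeCardEq (p := 2) hc (by rw [Nat.card_congr Multiplicative.toAdd, Nat.card_zmod])
  · intro Γ _ _ σ hσ
    rw [Nat.card_congr Multiplicative.toAdd, Nat.card_zmod]
    exact hle Γ σ hσ

end

/-! ### Two automorphisms of the lattice with commutator `-1` -/

theorem rj_mem {v : RuVec} (hv : v ∈ ruLattice) : ruRj v ∈ ruLattice := by
  rw [ruLattice, AddSubgroup.mem_sInf] at hv ⊢
  intro L hL
  exact (hL.2 v (hv L hL)).2.1

theorem rk_mem {v : RuVec} (hv : v ∈ ruLattice) : ruRk v ∈ ruLattice := by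
  rw [ruLattice, AddSubgroup.mem_sInf] at hv ⊢
  intro L hL
  exact (hL.2 v (hv L hL)).2.2.1

theorem gg (z : GaussianInt) : gI * (gI * z) = -z := by
  rw [← mul_assoc]
  have : gI * gI = -1 := by decide
  rw [this, neg_one_mul]

theorem rj_rj (v : RuVec) : ruRj (ruRj v) = -v := by
  funext p
  obtain ⟨n, t⟩ := p
  fin_cases t
  · exact gg _
  · exact gg _
  · rfl
  · rfl

theorem rk_rk (v : RuVec) : ruRk (ruRk v) = -v := by
  funext p
  obtain ⟨n, t⟩ := p
  fin_cases t
  · exact gg _
  · rfl
  · exact gg _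
  · rfl

theorem rj_rk (v : RuVec) : ruRj (ruRk v) = -ruRk (ruRj v) := by
  funext p
  obtain ⟨n, t⟩ := p
  fin_cases t
  · show gI * -v (n, 3) = -(gI * v (n, 3))
    ring
  · show gI * (gI * v (n, 2)) = -(-(-v (n, 2)))
    rw [gg, neg_neg]
  · show v (n, 1) = -(gI * (gI * v (n, 1)))
    rw [gg, neg_neg]
  · rfl

theorem rj_add (v w : RuVec) : ruRj (v + w) = ruRj v + ruRj w := by
  funext p
  obtain ⟨n, t⟩ := p
  fin_cases t
  · show gI * (v (n, 1) + w (n, 1)) = gI * v (n, 1) + gI * w (n, 1)
    ring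
  · show gI * (v (n, 0) + w (n, 0)) = gI * v (n, 0) + gI * w (n, 0)
    ring
  · rfl
  · show -(v (n, 2) + w (n, 2)) = -v (n, 2) + -w (n, 2)
    ring

theorem rk_add (v w : RuVec) : ruRk (v + w) = ruRk v + ruRk w := by
  funext p
  obtain ⟨n, t⟩ := p
  fin_cases t
  · show gI * (v (n, 2) + w (n, 2)) = gI * v (n, 2) + gI * w (n, 2)
    ring
  · show -(v (n, 3) + w (n, 3)) = -v (n, 3) + -w (n, 3)
    ring
  · show gI * (v (n, 0) + w (n, 0)) = gI * v (n, 0) + gI * w (n, 0)
    ring
  · rfl

theorem rj_I (v : RuVec) : ruRj (gI • v) = gI • ruRj v := by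
  funext p
  obtain ⟨n, t⟩ := p
  fin_cases t
  · rfl
  · rfl
  · rfl
  · show -(gI * v (n, 2)) = gI * -v (n, 2)
    ring

theorem rk_I (v : RuVec) : ruRk (gI • v) = gI • ruRk v := by
  funext p
  obtain ⟨n, t⟩ := p
  fin_cases t
  · rfl
  · show -(gI * v (n, 3)) = gI * -v (n, 3)
    ring
  · rfl
  · rfl

theorem norm_I (z : GaussianInt) : (gI * z).norm = z.norm := by
  rw [Zsqrtd.norm_mul]
  have : gI.norm = 1 := by decide
  rw [this, one_mul]

theorem rj_norm (v : RuVec) : ruNorm (ruRj v) = ruNorm v := by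
  unfold ruNorm
  rw [Fintype.sum_prod_type, Fintype.sum_prod_type]
  apply Finset.sum_congr rfl
  intro n _
  rw [Fin.sum_univ_four, Fin.sum_univ_four]
  have h0 : (ruRj v (n, 0)).norm = (v (n, 1)).norm := norm_I _
  have h1 : (ruRj v (n, 1)).norm = (v (n, 0)).norm := norm_I _
  have h2 : (ruRj v (n, 2)).norm = (v (n, 3)).norm := rfl
  have h3 : (ruRj v (n, 3)).norm = (v (n, 2)).norm := Zsqrtd.norm_neg _
  rw [h0, h1, h2, h3]
  ring

theorem rk_norm (v : RuVec) : ruNorm (ruRk v) = ruNorm v := by
  unfold ruNorm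
  rw [Fintype.sum_prod_type, Fintype.sum_prod_type]
  apply Finset.sum_congr rfl
  intro n _
  rw [Fin.sum_univ_four, Fin.sum_univ_four]
  have h0 : (ruRk v (n, 0)).norm = (v (n, 2)).norm := norm_I _
  have h1 : (ruRk v (n, 1)).norm = (v (n, 3)).norm := Zsqrtd.norm_neg _
  have h2 : (ruRk v (n, 2)).norm = (v (n, 0)).norm := norm_I _
  have h3 : (ruRk v (n, 3)).norm = (v (n, 1)).norm := rfl
  rw [h0, h1, h2, h3]
  ring

/-- right multiplication by `j` on the lattice -/
def rj : Equiv.Perm ruLattice where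
  toFun v := ⟨ruRj v, rj_mem v.2⟩
  invFun v := ⟨-ruRj v, neg_mem (rj_mem v.2)⟩
  left_inv v := by
    apply Subtype.ext
    show -ruRj (ruRj v) = v
    rw [rj_rj, neg_neg]
  right_inv v := by
    apply Subtype.ext
    show ruRj (-ruRj v) = v
    have h : ruRj (-ruRj v) = -ruRj (ruRj v) := by
      have h1 := rj_add (-ruRj v) (ruRj v)
      have h0 : ruRj (0 : RuVec) = 0 := by
        have := rj_add (0 : RuVec) 0
        rw [add_zero] at this
        exact left_eq_add.1 this
      rw [neg_add_cancel, h0] at h1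
      exact eq_neg_of_add_eq_zero_left h1.symm
    rw [h, rj_rj, neg_neg]

/-- right multiplication by `k` on the lattice -/
def rk : Equiv.Perm ruLattice where
  toFun v := ⟨ruRk v, rk_mem v.2⟩
  invFun v := ⟨-ruRk v, neg_mem (rk_mem v.2)⟩
  left_inv v := by
    apply Subtype.ext
    show -ruRk (ruRk v) = v
    rw [rk_rk, neg_neg]
  right_inv v := by
    apply Subtype.ext
    show ruRk (-ruRk v) = v
    have h : ruRk (-ruRk v) = -ruRk (ruRk v) := by
      have h1 := rk_add (-ruRk v) (ruRk v)
      have h0 : ruRk (0 : RuVec) = 0 := by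
        have := rk_add (0 : RuVec) 0
        rw [add_zero] at this
        exact left_eq_add.1 this
      rw [neg_add_cancel, h0] at h1
      exact eq_neg_of_add_eq_zero_left h1.symm
    rw [h, rk_rk, neg_neg]

theorem rj_in : rj ∈ fourRu :=
  ⟨fun _ _ => Subtype.ext (rj_add _ _), fun _ => Subtype.ext (rj_I _), fun _ => rj_norm _⟩

theorem rk_in : rk ∈ fourRu :=
  ⟨fun _ _ => Subtype.ext (rk_add _ _), fun _ => Subtype.ext (rk_I _), fun _ => rk_norm _⟩

/-- the elements of the group -/
def a : fourRu := ⟨rj, rj_in⟩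
def b : fourRu := ⟨rk, rk_in⟩

theorem comm_apply (v : ruLattice) : ((⁅a, b⁆ : fourRu) : Equiv.Perm ruLattice) v = -v := by
  have h1 : ((⁅a, b⁆ : fourRu) : Equiv.Perm ruLattice) = rj * rk * (rk * rj)⁻¹ := by
    rw [commutatorElement_def]
    show rj * rk * rj⁻¹ * rk⁻¹ = _
    group
  have h2 : ∀ w : ruLattice, (rj * rk) w = -(rk * rj) w := fun w => Subtype.ext (rj_rk _)
  rw [h1, Equiv.Perm.mul_apply, h2, ← Equiv.Perm.mul_apply, mul_inv_cancel, Equiv.Perm.one_apply]

theorem comm_central : ⁅a, b⁆ ∈ Subgroup.center fourRu := by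
  rw [Subgroup.mem_center_iff]
  intro f
  apply Subtype.ext
  apply Equiv.ext
  intro v
  show (f : Equiv.Perm ruLattice) (((⁅a, b⁆ : fourRu) : Equiv.Perm ruLattice) v) =
    ((⁅a, b⁆ : fourRu) : Equiv.Perm ruLattice) ((f : Equiv.Perm ruLattice) v)
  rw [comm_apply, comm_apply]
  have hadd := f.2.1
  have h0 : (f : Equiv.Perm ruLattice) 0 = 0 := by
    have := hadd 0 0
    rw [add_zero] at this
    exact left_eq_add.1 this
  have h1 := hadd (-v) v
  rw [neg_add_cancel, h0] at h1
  exact eq_neg_of_add_eq_zero_left h1.symm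

theorem mem_table {v : RuVec} (hv : v ∈ ruTable) : v ∈ ruLattice := by
  rw [ruLattice, AddSubgroup.mem_sInf]
  intro L hL
  exact hL.1 v hv

theorem comm_ne : ⁅a, b⁆ ≠ (1 : fourRu) := by
  intro h
  have hv : ruTable.head (by simp [ruTable]) ∈ ruLattice := mem_table (List.head_mem _)
  have h1 := comm_apply ⟨_, hv⟩
  rw [h] at h1
  have h2 : (⟨_, hv⟩ : ruLattice) = -⟨_, hv⟩ := h1
  have h3 := congrArg (fun w : ruLattice => ((w : RuVec) (0, 0)).re) h2
  have h4 : ((ruTable.head (by simp [ruTable])) (0, 0)).re = 4 := rfl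
  have h5 : ((-(ruTable.head (by simp [ruTable])) : RuVec) (0, 0)).re = -4 := rfl
  have h6 : ((ruTable.head (by simp [ruTable])) (0, 0)).re = ((-(ruTable.head (by simp [ruTable])) : RuVec) (0, 0)).re := h3
  rw [h4, h5] at h6
  norm_num at h6

/-! ### The multiplier -/

/-- The Schur multiplier of the Rudvalis group, from the isomorphism with the presented group. -/
theorem main (e : CosetEnum.Ru.GR ≃* Ru) (hfin : Finite fourRu) : HasCyclicSchurMultiplier Ru 2 := by
  have hs : IsSimpleGroup Ru := Cfsg.Agent.CosetEnum.simple_equiv e CosetEnum.Ru.simple_GR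
  have hcard : Nat.card Ru = 145926144000 := by rw [← Nat.card_congr e.toEquiv, CosetEnum.Ru.card_GR]
  have hperf : commutator Ru = ⊤ := by
    rcases (inferInstance : (commutator Ru).Normal).eq_bot_or_eq_top with h | h
    · exfalso
      have hcomm : ∀ x y : Ru, x * y = y * x := by
        intro x y
        have h1 : ⁅x, y⁆ ∈ commutator Ru := by
          rw [commutator_def]
          exact Subgroup.commutator_mem_commutator (Subgroup.mem_top x) (Subgroup.mem_top y)
        rw [h, Subgroup.mem_bot, commutatorElement_eq_one_iff_mul_comm] at h1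
        exact h1
      let _ : CommGroup Ru := { (inferInstance : Group Ru) with mul_comm := hcomm }
      have hp : (Nat.card Ru).Prime := IsSimpleGroup.prime_card
      rw [hcard] at hp
      norm_num at hp
    · exact h
  exact mult_two hperf (fun Γ _ _ σ hσ => RuFin.ker_le' e hσ) comm_central comm_ne

end Cfsg.Agent.MulX.RuExt
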