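import Cfsg.Agent.MulX.RuB
import Cfsg.Agent.MulX.RuC
import Cfsg.Agent.MulX.RuE
import Cfsg.Agent.CosetEnum.Ru.Main

/-!
# Stem extensions of the presented Rudvalis group have kernels of order at most 2 (owner: helper58)
-/

set_option autoImplicit false

namespace Cfsg.Agent.MulX.RuFin

open Cfsg Cfsg.Agent.MulX.Coh Cfsg.Agent.MulX.Stb Cfsg.Agent.MulX.StbP Cfsg.Agent.CosetEnum Cfsg.Agent.CosetEnum.Ru

theorem base : Base GR RuT.P gR RuT.lets [0, 1, 2, 3] := by
  refine ⟨finite_GR, ?_⟩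
  obtain ⟨A, hA, _⟩ := RuT.tabOK.exists_action UR
  refine ⟨A, hA, (subB_ClL RuT.tabOK.subB).trans UR.top, RuT.ls, RuT.chain, ?_, ?_⟩
  · rw [card_GR]; decide +kernel
  · decide +kernel

variable {Γ : Type} [Group Γ] [Finite Γ] {σ : Γ →* GR}

theorem two (hσ : IsStemExtension σ) : ¬ 2 ^ 2 ∣ Nat.card σ.ker := by
  have : Fact (Nat.Prime 2) := ⟨Nat.prime_two⟩
  exact perm_rank_one hσ base RuB.D_ok RuB.rules_ok RuB.K_good RuB.pc_ok RuB.chn_ok RuB.chn_prod (m := 8906625)
    (by rw [card_GR]; norm_num) (by norm_num) RuB.rows_ok RuB.rows_len RuB.gau_ok RuB.T_ok RuB.tgts_ok (q := 4)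
    (by norm_num) RuB.qows_ok RuB.T2_ok

theorem three (hσ : IsStemExtension σ) : ¬ 3 ∣ Nat.card σ.ker := by
  have : Fact (Nat.Prime 3) := ⟨Nat.prime_three⟩
  exact perm_main hσ base RuC.D_ok RuC.rules_ok RuC.K_good RuC.pc_ok RuC.chn_ok RuC.chn_prod (m := 5404672000)
    (by rw [card_GR]; norm_num) (by norm_num) RuC.rows_ok RuC.rows_len RuC.gau_ok RuC.tgts_ok

theorem five (hσ : IsStemExtension σ) : ¬ 5 ∣ Nat.card σ.ker := by
  have : Fact (Nat.Prime 5) := ⟨Nat.prime_five⟩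
  exact perm_main hσ base RuE.D_ok RuE.rules_ok RuE.K_good RuE.pc_ok RuE.chn_ok RuE.chn_prod (m := 1167409152)
    (by rw [card_GR]; norm_num) (by norm_num) RuE.rows_ok RuE.rows_len RuE.gau_ok RuE.tgts_ok

theorem sq_cases {q : ℕ} (hq : q.Prime) (h : q ^ 2 ∣ 145926144000) : q = 2 ∨ q = 3 ∨ q = 5 := by
  have h1 : q ∣ 2 ^ 14 * 3 ^ 3 * 5 ^ 3 * 7 * 13 * 29 := (dvd_pow_self q two_ne_zero).trans (by norm_num at h ⊢; exact h)
  rw [hq.dvd_mul, hq.dvd_mul, hq.dvd_mul, hq.dvd_mul, hq.dvd_mul] at h1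
  rcases h1 with ((((h1 | h1) | h1) | h1) | h1) | h1
  · left; exact (Nat.prime_dvd_prime_iff_eq hq Nat.prime_two).1 (hq.dvd_of_dvd_pow h1)
  · right; left; exact (Nat.prime_dvd_prime_iff_eq hq Nat.prime_three).1 (hq.dvd_of_dvd_pow h1)
  · right; right; exact (Nat.prime_dvd_prime_iff_eq hq Nat.prime_five).1 (hq.dvd_of_dvd_pow h1)
  · have h2 := (Nat.prime_dvd_prime_iff_eq hq (by norm_num)).1 h1
    subst h2; norm_num at h
  · have h2 := (Nat.prime_dvd_prime_iff_eq hq (by norm_num)).1 h1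
    subst h2; norm_num at h
  · have h2 := (Nat.prime_dvd_prime_iff_eq hq (by norm_num)).1 h1
    subst h2; norm_num at h

/-- The kernel of a stem extension of the Rudvalis group has order at most 2. -/
theorem ker_le (hσ : IsStemExtension σ) : Nat.card σ.ker ≤ 2 := by
  have hfin := finite_GR
  have hodd : ∀ q : ℕ, q.Prime → q ∣ Nat.card σ.ker → ¬ Odd q := by
    intro q hq hqd ho
    have : Fact q.Prime := ⟨hq⟩
    by_cases h2 : q ^ 2 ∣ Nat.card GR
    · rw [card_GR] at h2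
      rcases sq_cases hq h2 with rfl | rfl | rfl
      · exact absurd ho (by decide)
      · exact three hσ hqd
      · exact five hσ hqd
    · exact Cfsg.Agent.H90.Stem.not_dvd_of_sq hσ h2 hqd
  rcases Nat.eq_two_pow_or_exists_odd_prime_and_dvd (Nat.card σ.ker) with ⟨k, hk⟩ | ⟨q, hq, hqd, ho⟩
  · have h2 := two hσ
    rw [hk] at h2 ⊢
    have hk1 : k ≤ 1 := by
      by_contra h
      exact h2 (pow_dvd_pow 2 (by omega))
    calc 2 ^ k ≤ 2 ^ 1 := Nat.pow_le_pow_right (by norm_num) hk1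
      _ = 2 := by norm_num
  · exact absurd ho (hodd q hq hqd)

/-- the bound for any group isomorphic to the presented Rudvalis group -/
theorem ker_le' {R : Type} [Group R] (e : GR ≃* R) {τ : Γ →* R} (hτ : IsStemExtension τ) : Nat.card τ.ker ≤ 2 := by
  have hst : IsStemExtension (e.symm.toMonoidHom.comp τ) := by
    have hk : (e.symm.toMonoidHom.comp τ).ker = τ.ker := by
      ext y
      rw [MonoidHom.mem_ker, MonoidHom.mem_ker]
      constructor
      · intro h
        have h1 : e.symm (τ y) = 1 := h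
        rwa [map_eq_one_iff _ e.symm.injective] at h1
      · intro h
        show e.symm (τ y) = 1
        rw [h, map_one]
    exact ⟨e.symm.surjective.comp hτ.1, by rw [hk]; exact hτ.2.1, by rw [hk]; exact hτ.2.2⟩
  have hk : (e.symm.toMonoidHom.comp τ).ker = τ.ker := by
    ext y
    rw [MonoidHom.mem_ker, MonoidHom.mem_ker]
    constructor
    · intro h
      have h1 : e.symm (τ y) = 1 := h
      rwa [map_eq_one_iff _ e.symm.injective] at h1
    · intro h
      show e.symm (τ y) = 1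
      rw [h, map_one]
  rw [← hk]
  exact ker_le hst

end Cfsg.Agent.MulX.RuFin
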