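import Cfsg.Agent.MulX.SL29Data
import Cfsg.Agent.MulX.MS29Rel
import Cfsg.Agent.CosetEnum.MS29.Certs
import Cfsg.Agent.ClassBase.PSL29
import Cfsg.Agent.Fus.QDWPSL

/-!
The Schur multiplier of `SL₂(9)` (owner: helper58).
-/
set_option autoImplicit false
set_option maxRecDepth 1000000

namespace Cfsg.Agent.MulX.SL29

open Cfsg.Agent.ClassBase.PSL29 Matrix Cfsg.Agent.CosetEnum Cfsg.Agent.PermTab Cfsg

/-- letters -/
def gS : ℕ → SpecialLinearGroup (Fin 2) K9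
  | 1 => ⟨!![⟨1, 0⟩, ⟨1, 0⟩; ⟨0, 0⟩, ⟨1, 0⟩], by decide +kernel⟩
  | 2 => ⟨!![⟨1, 0⟩, ⟨2, 0⟩; ⟨0, 0⟩, ⟨1, 0⟩], by decide +kernel⟩
  | 3 => ⟨!![⟨0, 0⟩, ⟨2, 0⟩; ⟨1, 0⟩, ⟨2, 0⟩], by decide +kernel⟩
  | 4 => ⟨!![⟨2, 0⟩, ⟨1, 0⟩; ⟨2, 0⟩, ⟨0, 0⟩], by decide +kernel⟩
  | 5 => ⟨!![⟨0, 1⟩, ⟨0, 2⟩; ⟨1, 0⟩, ⟨2, 2⟩], by decide +kernel⟩
  | 6 => ⟨!![⟨2, 2⟩, ⟨0, 1⟩; ⟨2, 0⟩, ⟨0, 1⟩], by decide +kernel⟩
  | 7 => ⟨!![⟨0, 2⟩, ⟨0, 1⟩; ⟨1, 0⟩, ⟨2, 1⟩], by decide +kernel⟩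
  | 8 => ⟨!![⟨2, 1⟩, ⟨0, 2⟩; ⟨2, 0⟩, ⟨0, 2⟩], by decide +kernel⟩
  | _ => 1

/-- the action on vectors -/
instance actV : MulAction (SpecialLinearGroup (Fin 2) K9) (Fin 2 → K9) where
  smul A v := A.1 *ᵥ v
  one_smul v := Matrix.one_mulVec v
  mul_smul A B v := (Matrix.mulVec_mulVec v A.1 B.1).symm

theorem smul_def (A : SpecialLinearGroup (Fin 2) K9) (v : Fin 2 → K9) : A • v = A.1 *ᵥ v := rfl

/-- element with number `k` -/
def num (k : ℕ) : K9 := ⟨((k / 3 : ℕ) : ZMod 3), ((k % 3 : ℕ) : ZMod 3)⟩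

/-- the nonzero vectors -/
def pt (i : Fin 80) : Fin 2 → K9 := ![num ((i.1 + 1) / 9), num ((i.1 + 1) % 9)]

theorem pt_inj : Function.Injective pt := by
  have h : ∀ i j : Fin 80, pt i 0 = pt j 0 → pt i 1 = pt j 1 → i = j := by decide +kernel
  intro i j hij
  exact h i j (by rw [hij]) (by rw [hij])

theorem act_le : ∀ x ≤ 8, ∀ i : Fin 80, ∀ k : Fin 2,
    ((gS x).1 *ᵥ pt i) k = pt ⟨tget 7 (tb x) i % 80, Nat.mod_lt _ (by norm_num)⟩ k := by
  decide +kernel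

theorem actT : ActT 7 80 tb gS pt := by
  refine ⟨tb_valid, ?_, ?_, pt_inj⟩
  · have key : ∀ x ≤ 8, ∀ i, gS x • pt i = pt (toPerm 7 80 (tb x) i) := by
      intro x hx i
      rw [smul_def]
      funext k
      rw [act_le x hx i k]
      have e : (⟨tget 7 (tb x) i % 80, Nat.mod_lt _ (by norm_num)⟩ : Fin 80) = toPerm 7 80 (tb x) i := by
        apply Fin.ext
        rw [toPerm_apply (tb_valid x)]
        exact Nat.mod_eq_of_lt (tget_lt_of_valid (tb_valid x) i.2)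
      rw [e]
    intro x i
    by_cases hx : x ≤ 8
    · exact key x hx i
    · match x, hx with
      | m + 9, _ =>
        have e1 : gS (m + 9) = 1 := rfl
        have e2 : tb (m + 9) = idt := rfl
        rw [e1, e2, one_smul, hid, (toPerm_tid (by norm_num)).2]
        rfl
  · intro a ha
    have h1 := ha ⟨26, by norm_num⟩
    have h2 := ha ⟨2, by norm_num⟩
    rw [smul_def] at h1 h2
    have e1 : pt ⟨26, by norm_num⟩ = ![1, 0] := by decide +kernel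
    have e2 : pt ⟨2, by norm_num⟩ = ![0, 1] := by decide +kernel
    rw [e1] at h1
    rw [e2] at h2
    have h1' := fun i => congrFun h1 i
    have h2' := fun i => congrFun h2 i
    simp only [Matrix.mulVec, dotProduct, Fin.sum_univ_two, Matrix.cons_val_zero, Matrix.cons_val_one,
      mul_one, mul_zero, add_zero, zero_add] at h1' h2'
    apply Subtype.ext
    apply Matrix.ext
    intro i j
    fin_cases j
    · have h3 : a.1 i 0 = (1 : Matrix (Fin 2) (Fin 2) K9) i 0 := by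
        rw [h1' i]
        fin_cases i <;> rfl
      exact h3
    · have h3 : a.1 i 1 = (1 : Matrix (Fin 2) (Fin 2) K9) i 1 := by
        rw [h2' i]
        fin_cases i <;> rfl
      exact h3

theorem card : Nat.card (SpecialLinearGroup (Fin 2) K9) = 720 := by
  have h := H4.card_SL_mul (F := K9) 2 (by norm_num)
  rw [Matrix.card_GL_field, Fin.prod_univ_two, card_k9] at h
  norm_num at h
  rw [Nat.card_eq_fintype_card]
  omega

theorem top : Cl gS 8 = ⊤ :=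
  actT.top (by norm_num) hid chk hws (by decide) (by rw [card]; exact hcard.ge)

theorem rel_ok : letB 8 MS29A.iv = true ∧ triB 8 MS29A.iv MS29R.R1 = true ∧ relB MS29A.iv 8 MS29R.R1 MS29R.R2 MS29A.RL = true ∧
    (List.range (8 + 1)).all (fun x => !isLet 8 x || (MS29R.R1.any fun q => q.1 == x || ivL MS29A.iv q.1 == x)) = true ∧
    exB MS29A.iv MS29R.R1 MS29A.RL = true ∧ ceB MS29A.iv 8 MS29R.R2 MS29A.RL = true := by
  decide +kernel

theorem cp : CP gS 8 MS29A.iv MS29R.R1 MS29R.R2 MS29A.RL := by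
  obtain ⟨h1, h2, h3, h4, -, -⟩ := rel_ok
  exact actT.cp (by norm_num) hid h1 h2 h3 h4 (by decide +kernel) rfl (fun x hx => by
    match x, hx with
    | m + 9, _ => rfl) (by decide +kernel) (by decide +kernel) top

theorem ord : 3 ∣ orderOf ((([[1, 7, 1, 7, 4, 2, 4, 2]] : List (List ℕ)).flatten.map (qg 8 MS29A.iv MS29A.RL)).prod) :=
  dvd_orderOf MS29T.tabOK (c := [1, 7, 1, 7, 4, 2, 4, 2]) (by decide) (by norm_num) (i := 0) (by decide +kernel) (by decide +kernel)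

theorem bd : Bd (⊤ : Subgroup (QG 8 MS29A.iv MS29A.RL)) (720 * 3) := by
  have U := univ_qg 8 MS29A.iv MS29A.RL
  have g := U.good
  rw [← U.top]
  exact (Bd.zero (qg 8 MS29A.iv MS29A.RL)).cl (M := 720 * 3) MS29A.cert g (by decide +kernel) (by decide +kernel)
    (by norm_num) rfl

theorem mult : HasCyclicSchurMultiplier (SpecialLinearGroup (Fin 2) K9) 3 := by
  obtain ⟨-, -, -, -, h5, h6⟩ := rel_ok
  exact cp.cyclic h5 h6 card (by norm_num) (by norm_num) bd (ws := [[1, 7, 1, 7, 4, 2, 4, 2]]) (by decide) ord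

end Cfsg.Agent.MulX.SL29
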