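import Cfsg.Agent.MulX.StbForm
import Cfsg.Agent.MulX.Coh
import Cfsg.Agent.H90.StemTools

/-!
# Stable classes: the `p`-part of the Schur multiplier by rewriting in a Sylow subgroup (owner: helper58)

`Stb.main`: letters `g i` of a group, rules `lhs = rhs` that hold for them; the first `ns` rules are polycyclic rules
for the letters below `n`, which generate a group of order `p ^ n` and of index prime to `p`.  Closed rewriting paths
give linear equations for the tails of the rules in a central extension with kernel of order `p`; if they force the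
tails to be those of a change of the letters, then `p` does not divide the order of the kernel of a stem extension.
-/

set_option autoImplicit false

namespace Cfsg.Agent.MulX.Stb

open Cfsg Cfsg.Agent.Golay Cfsg.Agent.MulX.Coh

variable {p : ℕ}

/-! ### Paths -/

/-- packed row of a path -/
def rowP (p : ℕ) : List Step → ℕ
  | [] => 0
  | s :: l => Nat.add (un (match s.2.2 with
    | true => p - 1
    | false => 1) s.2.1) (rowP p l)

section Ext

variable {E : Type*} [Group E] {f : ZMod p → E} {e : ℕ → E} {rules : List (List ℕ × List ℕ)} {x : ℕ → ZMod p}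

/-- central elements parametrised by `ZMod p` -/
structure Cen (f : ZMod p → E) : Prop where
  add : ∀ a b, f (a + b) = f a * f b
  com : ∀ a y, f a * y = y * f a
  inj : ∀ a, f a = 1 → a = 0

theorem Cen.zero (hf : Cen f) : f 0 = 1 := by
  have h := hf.add 0 0
  rw [add_zero] at h
  exact mul_eq_left.1 h.symm

theorem Cen.neg (hf : Cen f) (a : ZMod p) : f (-a) = (f a)⁻¹ := by
  have h := hf.add (-a) a
  rw [neg_add_cancel, hf.zero] at h
  exact eq_inv_of_mul_eq_one_left h.symm

/-- the tails -/
def Tail (f : ZMod p → E) (e : ℕ → E) (rules : List (List ℕ × List ℕ)) (x : ℕ → ZMod p) : Prop :=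
  ∀ r, val e (rules.getD r ([], [])).1 = val e (rules.getD r ([], [])).2 * f (x r)

theorem step_spec (hf : Cen f) (hx : Tail f e rules x) (hp : 0 < p) {s : Step} {w w' : List ℕ} (h : app rules s w = some w') :
    val e w = val e w' * f ((((match s.2.2 with
      | true => p - 1
      | false => 1) : ℕ) : ZMod p) * x s.2.1) := by
  obtain ⟨q, r, b⟩ := s
  have hr := hx r
  set a1 := (rules.getD r ([], [])).1 with ha1
  set a2 := (rules.getD r ([], [])).2 with ha2
  have hw := (List.take_append_drop q w).symm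
  unfold app at h
  cases b with
  | false =>
    have h1 : (match strip a1 (w.drop q) with
      | some v => some (w.take q ++ (a2 ++ v))
      | none => none) = some w' := h
    show _ = _ * f (((1 : ℕ) : ZMod p) * x r)
    rw [Nat.cast_one, one_mul]
    cases hs : strip a1 (w.drop q) with
    | none => rw [hs] at h1; cases h1
    | some v =>
      rw [hs] at h1
      have h2 : w.take q ++ (a2 ++ v) = w' := Option.some.inj h1
      rw [← h2]
      conv_lhs => rw [hw, strip_spec hs]
      simp only [val_append, hr]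
      rw [mul_assoc (val e a2), hf.com, ← mul_assoc, ← mul_assoc, ← mul_assoc]
  | true =>
    have h1 : (match strip a2 (w.drop q) with
      | some v => some (w.take q ++ (a1 ++ v))
      | none => none) = some w' := h
    show _ = _ * f (((p - 1 : ℕ) : ZMod p) * x r)
    have h3 : ((p - 1 : ℕ) : ZMod p) * x r = - x r := by
      rw [Nat.cast_sub hp, ZMod.natCast_self]; ring
    rw [h3, hf.neg]
    cases hs : strip a2 (w.drop q) with
    | none => rw [hs] at h1; cases h1
    | some v =>
      rw [hs] at h1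
      have h2 : w.take q ++ (a1 ++ v) = w' := Option.some.inj h1
      rw [← h2]
      conv_lhs => rw [hw, strip_spec hs]
      have h4 : val e a2 = val e a1 * (f (x r))⁻¹ := by rw [hr]; group
      have h5 : ∀ y, (f (x r))⁻¹ * y = y * (f (x r))⁻¹ := by
        intro y; rw [← hf.neg]; exact hf.com _ _
      simp only [val_append, h4]
      rw [mul_assoc (val e a1), h5, ← mul_assoc, ← mul_assoc, ← mul_assoc]

theorem run_spec (hf : Cen f) (hx : Tail f e rules x) (hp : 0 < p) (l : List Step) :
    ∀ {w w' : List ℕ}, run rules l w = some w' → (p - 1 + 1) * l.length < bb →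
      val e w = val e w' * f (ev x (rowP p l)) ∧ Bd ((p - 1 + 1) * l.length) (rowP p l) := by
  induction l with
  | nil =>
    intro w w' h _
    have h1 : some w = some w' := h
    refine ⟨?_, bd_nil _⟩
    show _ = _ * f (ev x 0)
    rw [ev_zero, hf.zero, mul_one, Option.some.inj h1]
  | cons s l ih =>
    intro w w' h hb
    have h1 : (match app rules s w with
      | some w' => run rules l w'
      | none => none) = some w' := h
    cases hs : app rules s w with
    | none => rw [hs] at h1; cases h1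
    | some w1 =>
      rw [hs] at h1
      rw [List.length_cons, mul_add, mul_one] at hb
      obtain ⟨e2, b2⟩ := ih h1 (by omega)
      have e1 := step_spec hf hx hp hs
      set c : ℕ := (match s.2.2 with
        | true => p - 1
        | false => 1) with hc
      have hc1 : c ≤ p - 1 + 1 := by
        rw [hc]; split <;> omega
      have hc2 : c < bb := by omega
      have b1 : Bd (p - 1 + 1) (un c s.2.1) := (bd_un c s.2.1 hc2).mono hc1
      have h3 : rowP p (s :: l) = un c s.2.1 + rowP p l := rfl
      refine ⟨?_, ?_⟩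
      · rw [h3, ev_add (by omega) x b1 b2, e1, e2, ev_un c _ hc2, mul_assoc, ← hf.add, add_comm (ev x (rowP p l))]
      · rw [h3, List.length_cons, mul_add, mul_one, add_comm ((p - 1 + 1) * l.length)]
        exact Bd.add (by omega) b1 b2

/-- equality of words -/
def eqL : List ℕ → List ℕ → Bool
  | [], [] => true
  | a :: u, b :: v => match Nat.beq a b with
    | true => eqL u v
    | false => false
  | _, _ => false

theorem eq_of_eqL : ∀ {u v : List ℕ}, eqL u v = true → u = v
  | [], [], _ => rfl
  | [], _ :: _, h => by cases h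
  | _ :: _, [], h => by cases h
  | a :: u, b :: v, h => by
    have h1 : (match Nat.beq a b with
      | true => eqL u v
      | false => false) = true := h
    cases hb : Nat.beq a b with
    | true =>
      rw [hb] at h1
      rw [Nat.eq_of_beq_eq_true hb, eq_of_eqL h1]
    | false => rw [hb] at h1; cases h1

/-- masks: digits `7`, `4095` and `1023` -/
structure Mk where
  M7 : ℕ
  M12 : ℕ
  O : ℕ

/-- the masks are correct -/
structure Mk.Good (K : Mk) : Prop where
  h7 : Bd 7 K.M7
  h12 : Bd 4095 K.M12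
  hO : Bd 1023 K.O

/-- one closed path, with its row reduced modulo `p` -/
def pathOK (p : ℕ) (K : Mk) (rules : List (List ℕ × List ℕ)) (d : List ℕ × List Step) (row : ℕ) : Bool :=
  (match run rules d.2 d.1 with
    | some w => eqL d.1 w
    | none => false) && Nat.blt (Nat.add (Nat.mul (p - 1 + 1) d.2.length) (Nat.mul p 1023)) bb &&
    Nat.blt (Nat.add 7 (Nat.mul p 4095)) bb &&
    eqP p K.M12 K.O (rowP p d.2) row && Nat.beq (Nat.land row K.M7) row

/-- decode a packed path: fields of 24 bits, direction, position (8 bits), number of the rule -/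
def decP : ℕ → ℕ → List Step
  | 0, _ => []
  | k + 1, c => (Nat.land (Nat.shiftRight c 1) 255, Nat.land (Nat.shiftRight c 9) 32767, Nat.beq (Nat.land c 1) 1) ::
    fz (Nat.shiftRight c 24) fun c' => decP k c'

/-- a list of packed closed paths (word, length, code) with their rows -/
def pathsB (p : ℕ) (K : Mk) (rules : List (List ℕ × List ℕ)) : List (List ℕ × ℕ × ℕ) → List ℕ → Bool
  | [], [] => true
  | d :: ds, r :: rs => pathOK p K rules (d.1, decP d.2.1 d.2.2) r && pathsB p K rules ds rs
  | _, _ => false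

omit [Group E] in
theorem pathsB_spec {K : Mk} : ∀ {ds : List (List ℕ × ℕ × ℕ)} {rows : List ℕ}, pathsB p K rules ds rows = true →
      ∀ row ∈ rows, ∃ d, pathOK p K rules d row = true
  | [], [], _ => by intro r hr; cases hr
  | [], _ :: _, h => by cases h
  | _ :: _, [], h => by cases h
  | d :: ds, r :: rs, h => by
    have h1 : (pathOK p K rules (d.1, decP d.2.1 d.2.2) r && pathsB p K rules ds rs) = true := h
    rw [Bool.and_eq_true] at h1
    intro row hrow
    rcases List.mem_cons.1 hrow with rfl | hrow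
    · exact ⟨_, h1.1⟩
    · exact pathsB_spec h1.2 row hrow

theorem pathOK_spec (hf : Cen f) (hx : Tail f e rules x) (hp : 0 < p) {K : Mk} (hK : K.Good) {d : List ℕ × List Step}
    {row : ℕ} (h : pathOK p K rules d row = true) : ev x row = 0 ∧ Bd 7 row := by
  unfold pathOK at h
  simp only [Bool.and_eq_true] at h
  obtain ⟨⟨⟨⟨h1, h2⟩, h2'⟩, h3⟩, h4⟩ := h
  have h2 : (p - 1 + 1) * d.2.length + p * 1023 < bb := by simpa [Nat.blt_eq] using h2
  have h2' : 7 + p * 4095 < bb := by simpa [Nat.blt_eq] using h2'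
  have h7 := bd_of_land hK.h7 h4
  refine ⟨?_, h7⟩
  cases hr : run rules d.2 d.1 with
  | none => rw [hr] at h1; cases h1
  | some w =>
    rw [hr] at h1
    have h5 : d.1 = w := eq_of_eqL h1
    rw [← h5] at hr
    obtain ⟨h6, h8⟩ := run_spec hf hx hp d.2 hr (by omega)
    rw [← ev_of_eqP hK.h12 hK.hO h8 h7 h2 h2' h3 x]
    exact hf.inj _ (mul_eq_left.1 h6.symm)

/-! ### Combinations of rows -/

/-- combination of the rows with coefficients the digits in base `8` -/
def comb : List ℕ → ℕ → ℕ
  | [], _ => 0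
  | r :: rs, M => fz (Nat.shiftRight M 3) fun M' => Nat.add (Nat.mul (Nat.land M 7) r) (comb rs M')

theorem comb_cons (r : ℕ) (rs : List ℕ) (M : ℕ) : comb (r :: rs) M = (M % 8) * r + comb rs (M / 8) := by
  have h : comb (r :: rs) M = fz (Nat.shiftRight M 3) fun M' => Nat.add (Nat.mul (Nat.land M 7) r) (comb rs M') := rfl
  have h1 : Nat.shiftRight M 3 = M / 8 := by
    have : M >>> 3 = M / 2 ^ 3 := Nat.shiftRight_eq_div_pow M 3
    exact this
  have h2 : Nat.land M 7 = M % 8 := Nat.and_two_pow_sub_one_eq_mod M 3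
  rw [h, fz_eq, h1, h2]
  rfl

theorem comb_spec (rows : List ℕ) : ∀ (M : ℕ), (∀ row ∈ rows, ev x row = 0 ∧ Bd 7 row) →
    7 * 7 * rows.length < bb → ev x (comb rows M) = 0 ∧ Bd (7 * 7 * rows.length) (comb rows M) := by
  induction rows with
  | nil => intro M _ _; exact ⟨ev_zero x, bd_nil _⟩
  | cons r rs ih =>
    intro M h hb
    rw [List.length_cons, mul_add, mul_one] at hb
    obtain ⟨h1, h2⟩ := ih (M / 8) (fun s hs => h s (List.mem_cons_of_mem _ hs)) (by omega)
    obtain ⟨h3, h4⟩ := h r List.mem_cons_self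
    have hm : M % 8 * 7 ≤ 7 * 7 := Nat.mul_le_mul_right _ (by omega)
    have h5 : Bd (7 * 7) (M % 8 * r) := (Bd.mul _ (by omega) h4).mono hm
    rw [comb_cons, List.length_cons, mul_add, mul_one]
    refine ⟨?_, ?_⟩
    · rw [ev_add (by omega) x h5 h2, h1, ev_mul _ (by omega) h4, h3]; simp
    · rw [add_comm (7 * 7 * rs.length)]
      exact Bd.add (by omega) h5 h2

/-! ### Change of the letters -/

/-- sum of the gauges of the letters of a word -/
def gsum (gauge : List ℕ) : List ℕ → ℕ
  | [] => 0
  | i :: w => Nat.add (gauge.getD i 0) (gsum gauge w)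

theorem gsum_spec {gauge : List ℕ} (hg : ∀ i, Bd 7 (gauge.getD i 0)) (w : List ℕ) :
    7 * w.length < bb → Bd (7 * w.length) (gsum gauge w) ∧
      ev x (gsum gauge w) = (w.map fun i => ev x (gauge.getD i 0)).sum := by
  induction w with
  | nil => intro _; exact ⟨bd_nil _, by rw [List.map_nil, List.sum_nil]; exact ev_zero x⟩
  | cons i w ih =>
    intro h
    rw [List.length_cons, mul_add, mul_one] at h
    obtain ⟨h1, h2⟩ := ih (by omega)
    have h3 : gsum gauge (i :: w) = gauge.getD i 0 + gsum gauge w := rfl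
    rw [h3, List.map_cons, List.sum_cons, List.length_cons, mul_add, mul_one]
    refine ⟨?_, ?_⟩
    · rw [add_comm (7 * w.length)]
      exact Bd.add (by omega) (hg i) h1
    · rw [ev_add (by omega) x (hg i) h1, h2]

theorem val_change (hf : Cen f) (b : ℕ → ZMod p) (w : List ℕ) :
    val (fun i => e i * f (b i)) w = val e w * f ((w.map b).sum) := by
  induction w with
  | nil => rw [val_nil, val_nil, List.map_nil, List.sum_nil, hf.zero, mul_one]
  | cons i w ih =>
    rw [val_cons, val_cons, ih, List.map_cons, List.sum_cons, hf.add]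
    calc e i * f (b i) * (val e w * f ((w.map b).sum)) = e i * (f (b i) * val e w) * f ((w.map b).sum) := by group
      _ = e i * (val e w * f (b i)) * f ((w.map b).sum) := by rw [hf.com]
      _ = _ := by group

/-- one target: rule `r` has tail zero after the change of letters; `nr` is a bound for the number of rows -/
def tgtOK (p : ℕ) (K : Mk) (rules : List (List ℕ × List ℕ)) (nr : ℕ) (rows gauge : List ℕ) (r M : ℕ) : Bool :=
  match rules.getD r ([], []) with
  | (a, b) => Nat.blt (Nat.add (Nat.add (Nat.add 1 (Nat.mul 7 a.length)) (Nat.mul (p - 1) (Nat.mul 7 b.length))) (Nat.mul p 1023)) bb &&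
    Nat.blt (Nat.add (Nat.mul 49 nr) (Nat.mul p 4095)) bb &&
    eqP p K.M12 K.O (Nat.add (Nat.add (un 1 r) (gsum gauge a)) (Nat.mul (p - 1) (gsum gauge b))) (comb rows M)

/-- the targets `r, r + 1, ...` -/
def tgtsOK (p : ℕ) (K : Mk) (rules : List (List ℕ × List ℕ)) (nr : ℕ) (rows gauge : List ℕ) : ℕ → List ℕ → Bool
  | _, [] => true
  | r, M :: Ms => tgtOK p K rules nr rows gauge r M && fz (Nat.succ r) fun r' => tgtsOK p K rules nr rows gauge r' Ms

theorem tgtsOK_spec {K : Mk} {nr : ℕ} {rows gauge : List ℕ} : ∀ {Ms : List ℕ} {r : ℕ}, tgtsOK p K rules nr rows gauge r Ms = true →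
    ∀ j < Ms.length, ∃ M, tgtOK p K rules nr rows gauge (r + j) M = true
  | [], _, _ => by intro j hj; exact absurd hj (Nat.not_lt_zero _)
  | M :: Ms, r, h => by
    have h1 : (tgtOK p K rules nr rows gauge r M && fz (Nat.succ r) fun r' => tgtsOK p K rules nr rows gauge r' Ms) = true := h
    rw [Bool.and_eq_true, fz_eq] at h1
    intro j hj
    cases j with
    | zero => exact ⟨M, h1.1⟩
    | succ j =>
      obtain ⟨M', h2⟩ := tgtsOK_spec h1.2 j (by rw [List.length_cons] at hj; omega)
      exact ⟨M', by rw [← h2]; congr 1; rw [Nat.succ_eq_add_one]; omega⟩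

theorem tgtOK_spec (hf : Cen f) (hx : Tail f e rules x) (hp : 0 < p) {K : Mk} (hK : K.Good) {nr : ℕ} {rows gauge : List ℕ}
    (hrows : ∀ row ∈ rows, ev x row = 0 ∧ Bd 7 row) (hnr : rows.length ≤ nr)
    (hg : ∀ i, Bd 7 (gauge.getD i 0)) {r M : ℕ} (h : tgtOK p K rules nr rows gauge r M = true) :
    val (fun i => e i * f (ev x (gauge.getD i 0))) (rules.getD r ([], [])).1 =
      val (fun i => e i * f (ev x (gauge.getD i 0))) (rules.getD r ([], [])).2 := by
  unfold tgtOK at h
  rcases hr : rules.getD r ([], []) with ⟨a, b⟩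
  rw [hr] at h
  simp only [Bool.and_eq_true] at h
  obtain ⟨⟨h1, h1'⟩, h2⟩ := h
  have h1 : 1 + 7 * a.length + (p - 1) * (7 * b.length) + p * 1023 < bb := by simpa [Nat.blt_eq] using h1
  have h1' : 49 * nr + p * 4095 < bb := by simpa [Nat.blt_eq] using h1'
  have hx' := hx r
  rw [hr] at hx'
  have hx' : val e a = val e b * f (x r) := hx'
  show val _ a = val _ b
  by_cases hp1 : p - 1 = 0
  · -- `p = 1`
    have : p = 1 := by omega
    subst this
    have hz : ∀ y : ZMod 1, f y = 1 := fun y => by rw [Subsingleton.elim y 0]; exact hf.zero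
    rw [val_change hf, val_change hf, hz, hz, hx', hz]; simp
  have hlb : 7 * b.length ≤ (p - 1) * (7 * b.length) := by
    calc 7 * b.length = 1 * (7 * b.length) := (one_mul _).symm
      _ ≤ (p - 1) * (7 * b.length) := Nat.mul_le_mul_right _ (by omega)
  obtain ⟨ba, ea⟩ := gsum_spec (x := x) hg a (by omega)
  obtain ⟨bb', eb⟩ := gsum_spec (x := x) hg b (by omega)
  have hu : Bd 1 (un 1 r) := bd_un 1 r (by norm_num [bb])
  have hbu : Bd (1 + 7 * a.length) (un 1 r + gsum gauge a) := Bd.add (by omega) hu ba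
  have hbm : Bd ((p - 1) * (7 * b.length)) ((p - 1) * gsum gauge b) := Bd.mul (p - 1) (by omega) bb'
  have hbt : Bd (1 + 7 * a.length + (p - 1) * (7 * b.length)) (un 1 r + gsum gauge a + (p - 1) * gsum gauge b) :=
    Bd.add (by omega) hbu hbm
  have h49 : 7 * 7 * rows.length ≤ 49 * nr := by omega
  have hc := comb_spec rows M hrows (by omega)
  have h3 : ev x (un 1 r + gsum gauge a + (p - 1) * gsum gauge b) = ev x (comb rows M) :=
    ev_of_eqP hK.h12 hK.hO hbt (hc.2.mono h49) (by omega) (by omega) h2 x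
  have h4 : ev x (un 1 r + gsum gauge a + (p - 1) * gsum gauge b) =
      x r + (a.map fun i => ev x (gauge.getD i 0)).sum - (b.map fun i => ev x (gauge.getD i 0)).sum := by
    rw [ev_add (by omega) x hbu hbm, ev_add (by omega) x hu ba,
      ev_un 1 r (by norm_num [bb]), ev_mul (p - 1) (by omega) bb', ea, eb, Nat.cast_sub hp, ZMod.natCast_self]
    push_cast
    ring
  rw [h4, hc.1] at h3
  rw [val_change hf, val_change hf, hx', mul_assoc, ← hf.add]
  congr 2
  rw [sub_eq_zero] at h3
  exact h3

end Ext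

/-! ### Polycyclic rules -/

section PC

variable {E : Type*} [Group E]

theorem closure_insert_form (K : Subgroup E) (x : E) (hp : 0 < p) (h2 : x ^ p ∈ K) (hc : ∀ k ∈ K, x⁻¹ * k * x ∈ K) :
    ∀ y ∈ Subgroup.closure (insert x (K : Set E)), ∃ a < p, ∃ k ∈ K, y = x ^ a * k := by
  have hc' : ∀ (a : ℕ), ∀ k ∈ K, (x ^ a)⁻¹ * k * x ^ a ∈ K := by
    intro a
    induction a with
    | zero => intro k hk; simpa using hk
    | succ a ih =>
      intro k hk
      have h : (x ^ (a + 1))⁻¹ * k * x ^ (a + 1) = x⁻¹ * ((x ^ a)⁻¹ * k * x ^ a) * x := by rw [pow_succ]; group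
      rw [h]; exact hc _ (ih k hk)
  have red : ∀ y, (∃ a : ℕ, ∃ k ∈ K, y = x ^ a * k) → ∃ a < p, ∃ k ∈ K, y = x ^ a * k := by
    rintro y ⟨a, k, hk, rfl⟩
    refine ⟨a % p, Nat.mod_lt _ hp, (x ^ p) ^ (a / p) * k, K.mul_mem (K.pow_mem h2 _) hk, ?_⟩
    rw [← mul_assoc, ← pow_mul, ← pow_add, Nat.mod_add_div]
  intro y hy
  induction hy using Subgroup.closure_induction with
  | mem y hy =>
    rcases hy with rfl | hy
    · exact red _ ⟨1, 1, K.one_mem, by rw [pow_one, mul_one]⟩
    · exact red _ ⟨0, y, hy, by rw [pow_zero, one_mul]⟩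
  | one => exact red _ ⟨0, 1, K.one_mem, by rw [pow_zero, one_mul]⟩
  | mul y z _ _ hy hz =>
    obtain ⟨a, -, k, hk, rfl⟩ := hy
    obtain ⟨b, -, l, hl, rfl⟩ := hz
    refine red _ ⟨a + b, (x ^ b)⁻¹ * k * x ^ b * l, K.mul_mem (hc' b k hk) hl, ?_⟩
    rw [pow_add]; group
  | inv y _ hy =>
    obtain ⟨a, ha, k, hk, rfl⟩ := hy
    refine red _ ⟨p - a, (x ^ (p - a))⁻¹ * k⁻¹ * x ^ (p - a) * (x ^ p)⁻¹,
      K.mul_mem (hc' _ _ (K.inv_mem hk)) (K.inv_mem h2), ?_⟩
    have h3 : x ^ p = x ^ a * x ^ (p - a) := by rw [← pow_add]; congr 1; omega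
    rw [h3]; group

theorem card_insert_le [Finite E] (K : Subgroup E) (x : E) (hp : 0 < p) (h2 : x ^ p ∈ K) (hc : ∀ k ∈ K, x⁻¹ * k * x ∈ K) :
    Nat.card ↥(Subgroup.closure (insert x (K : Set E))) ≤ p * Nat.card ↥K := by
  have key := closure_insert_form K x hp h2 hc
  have hmem : ∀ (a : ℕ), ∀ k ∈ K, x ^ a * k ∈ Subgroup.closure (insert x (K : Set E)) := by
    intro a k hk
    exact Subgroup.mul_mem _ (Subgroup.pow_mem _ (Subgroup.subset_closure (Set.mem_insert _ _)) _)
      (Subgroup.subset_closure (Set.mem_insert_of_mem _ hk))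
  have h := Nat.card_le_card_of_surjective
    (fun q : Fin p × K => (⟨x ^ (q.1 : ℕ) * q.2, hmem _ _ q.2.2⟩ : Subgroup.closure (insert x (K : Set E)))) (by
    rintro ⟨y, hy⟩
    obtain ⟨a, ha, k, hk, rfl⟩ := key y hy
    exact ⟨(⟨a, ha⟩, ⟨k, hk⟩), rfl⟩)
  rw [Nat.card_prod, Nat.card_fin] at h
  exact h

/-- the word is `j` repeated `p` times -/
def isRep (j : ℕ) : ℕ → List ℕ → Bool
  | 0, [] => true
  | k + 1, a :: w => Nat.beq a j && isRep j k w
  | _, _ => false

theorem isRep_spec {j : ℕ} (f : ℕ → E) : ∀ {k : ℕ} {w : List ℕ}, isRep j k w = true → val f w = f j ^ k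
  | 0, [], _ => by rw [val_nil, pow_zero]
  | 0, _ :: _, h => by cases h
  | _ + 1, [], h => by cases h
  | k + 1, a :: w, h => by
    have h1 : (Nat.beq a j && isRep j k w) = true := h
    rw [Bool.and_eq_true] at h1
    rw [val_cons, isRep_spec f h1.2, Nat.eq_of_beq_eq_true h1.1, pow_succ']

/-- number of the rule for the letters `i > j` -/
def cand (n ns i j : ℕ) : List ℕ := [n + j * (2 * n - 1 - j) / 2 + (i - j - 1)].filter fun r => Nat.blt r ns

/-- the rules are polycyclic rules for the letters below `n` -/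
def pcOK (p n ns : ℕ) (rules : List (List ℕ × List ℕ)) : Bool :=
  (List.range n).all fun j =>
    (([j].filter fun r => Nat.blt r ns).any fun r => match rules.getD r ([], []) with
      | (u, w) => isRep j p u && inB j n w) &&
    (List.range n).all fun i => Nat.ble i j ||
      ((cand n ns i j).any fun r => match rules.getD r ([], []) with
        | ([a, b], c :: w) => Nat.beq a i && Nat.beq b j && Nat.beq c j && inB j n w
        | _ => false)

theorem card_pc [Finite E] (f : ℕ → E) {n ns : ℕ} {rules : List (List ℕ × List ℕ)} (hp : 0 < p)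
    (hok : pcOK p n ns rules = true)
    (hf : ∀ r < ns, val f (rules.getD r ([], [])).1 = val f (rules.getD r ([], [])).2) :
    Nat.card ↥(Subgroup.closure (f '' {i | i < n})) ≤ p ^ n := by
  have sq : ∀ j < n, ∃ w, (∀ a ∈ w, j < a ∧ a < n) ∧ f j ^ p = val f w := by
    intro j hj
    unfold pcOK at hok
    have h := (List.all_eq_true.1 hok) j (List.mem_range.2 hj)
    rw [Bool.and_eq_true] at h
    obtain ⟨r, hr, h1⟩ := List.any_eq_true.1 h.1
    have hr : r < ns := by simpa [Nat.blt_eq] using (List.mem_filter.1 hr).2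
    have h2 := hf r hr
    rcases hrr : rules.getD r ([], []) with ⟨l, w⟩
    rw [hrr] at h1 h2
    have h3 : (isRep j p l && inB j n w) = true := h1
    rw [Bool.and_eq_true] at h3
    exact ⟨w, inB_spec h3.2, by rw [← h2]; exact (isRep_spec f h3.1).symm⟩
  have cj : ∀ j < n, ∀ i < n, j < i → ∃ w, (∀ a ∈ w, j < a ∧ a < n) ∧ f i * f j = f j * val f w := by
    intro j hj i hi hji
    unfold pcOK at hok
    have h := (List.all_eq_true.1 hok) j (List.mem_range.2 hj)
    rw [Bool.and_eq_true] at h
    have h0 := (List.all_eq_true.1 h.2) i (List.mem_range.2 hi)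
    rw [Bool.or_eq_true] at h0
    rcases h0 with h0 | h0
    · rw [Nat.ble_eq] at h0; omega
    obtain ⟨r, hr, h1⟩ := List.any_eq_true.1 h0
    have hr : r < ns := by simpa [Nat.blt_eq] using (List.mem_filter.1 hr).2
    have h2 := hf r hr
    rcases hrr : rules.getD r ([], []) with ⟨l, w⟩
    rw [hrr] at h1 h2
    match l, w, h1, h2 with
    | [a, b], c :: w, h1, h2 =>
      have h3 : (Nat.beq a i && Nat.beq b j && Nat.beq c j && inB j n w) = true := h1
      simp only [Bool.and_eq_true] at h3
      refine ⟨w, inB_spec h3.2, ?_⟩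
      have h4 : val f [a, b] = val f (c :: w) := h2
      rw [Nat.eq_of_beq_eq_true h3.1.1.1, Nat.eq_of_beq_eq_true h3.1.1.2, Nat.eq_of_beq_eq_true h3.1.2] at h4
      rw [val_cons, val_cons, val_nil, mul_one, val_cons] at h4
      exact h4
  have main : ∀ k ≤ n, Nat.card ↥(Subgroup.closure (f '' {i | n - k ≤ i ∧ i < n})) ≤ p ^ k := by
    intro k
    induction k with
    | zero =>
      intro _
      have : {i | n - 0 ≤ i ∧ i < n} = (∅ : Set ℕ) := by
        ext i; simp only [Set.mem_ofPred_eq, Set.mem_empty_iff_false, iff_false]; omega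
      rw [this, Set.image_empty, Subgroup.closure_empty]
      simp
    | succ k ih =>
      intro hk
      have ih := ih (by omega)
      set K := Subgroup.closure (f '' {i | n - k ≤ i ∧ i < n}) with hK
      set j := n - (k + 1) with hj
      have hjn : j < n := by omega
      have hle : Subgroup.closure (f '' {i | j ≤ i ∧ i < n}) ≤ Subgroup.closure (insert (f j) (K : Set E)) := by
        rw [Subgroup.closure_le]
        rintro _ ⟨i, ⟨hi1, hi2⟩, rfl⟩
        by_cases hij : i = j
        · rw [hij]; exact Subgroup.subset_closure (Set.mem_insert _ _)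
        · exact Subgroup.subset_closure (Set.mem_insert_of_mem _
            (Subgroup.subset_closure ⟨i, ⟨by omega, hi2⟩, rfl⟩))
      have hsub : ∀ w : List ℕ, (∀ a ∈ w, j < a ∧ a < n) → val f w ∈ K := fun w hw =>
        val_mem_closure f _ w fun a ha => ⟨by have := hw a ha; omega, (hw a ha).2⟩
      have h2 : f j ^ p ∈ K := by
        obtain ⟨w, hw, h⟩ := sq j hjn
        rw [h]; exact hsub w hw
      have hc : ∀ k ∈ K, (f j)⁻¹ * k * f j ∈ K := by
        intro y hy
        rw [hK] at hy
        induction hy using Subgroup.closure_induction with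
        | mem y hy =>
          obtain ⟨i, ⟨hi1, hi2⟩, rfl⟩ := hy
          obtain ⟨w, hw, h⟩ := cj j hjn i hi2 (by omega)
          rw [mul_assoc, h, ← mul_assoc, inv_mul_cancel, one_mul]
          exact hsub w hw
        | one => rw [mul_one, inv_mul_cancel]; exact K.one_mem
        | mul y z _ _ hy hz =>
          have h : (f j)⁻¹ * (y * z) * f j = ((f j)⁻¹ * y * f j) * ((f j)⁻¹ * z * f j) := by group
          rw [h]; exact K.mul_mem hy hz
        | inv y _ hy =>
          have h : (f j)⁻¹ * y⁻¹ * f j = ((f j)⁻¹ * y * f j)⁻¹ := by group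
          rw [h]; exact K.inv_mem hy
      have h5 := card_insert_le K (f j) hp h2 hc
      have h6 := Subgroup.card_le_of_le hle
      rw [pow_succ, mul_comm]
      exact h6.trans (h5.trans (Nat.mul_le_mul_left _ ih))
  have h := main n le_rfl
  have e0 : {i | n - n ≤ i ∧ i < n} = {i | i < n} := by
    ext i; simp
  rw [e0] at h
  exact h

end PC

/-! ### The main theorem -/

universe u v

theorem exists_cen {Γ : Type u} {G : Type v} [Group Γ] [Group G] [Finite Γ] [Fact p.Prime] {σ : Γ →* G}
    (hσ : IsStemExtension σ) (hc : Nat.card σ.ker = p) : ∃ f : ZMod p → Γ, Cen f ∧ ∀ z, σ z = 1 ↔ ∃ a, z = f a := by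
  have e : Multiplicative (ZMod p) ≃* σ.ker :=
    (mulEquivOfPrimeCardEq (p := p) (by rw [Nat.card_congr Multiplicative.toAdd, Nat.card_zmod]) hc)
  refine ⟨fun a => (e (Multiplicative.ofAdd a) : Γ), ⟨fun a b => ?_, fun a y => ?_, fun a h => ?_⟩, fun z => ⟨fun h => ?_, ?_⟩⟩
  · show (e (Multiplicative.ofAdd (a + b)) : Γ) = _
    rw [ofAdd_add, map_mul]; rfl
  · exact (Subgroup.mem_center_iff.1 (hσ.2.1 (e (Multiplicative.ofAdd a)).2) y).symm
  · have h1 : e (Multiplicative.ofAdd a) = 1 := Subtype.ext h
    have h2 : Multiplicative.ofAdd a = 1 := by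
      rw [← map_one e] at h1; exact e.injective h1
    exact Multiplicative.ofAdd.injective (h2.trans ofAdd_zero.symm)
  · refine ⟨Multiplicative.toAdd (e.symm ⟨z, h⟩), ?_⟩
    show z = (e (Multiplicative.ofAdd (Multiplicative.toAdd (e.symm ⟨z, h⟩))) : Γ)
    rw [ofAdd_toAdd, MulEquiv.apply_symm_apply]
  · rintro ⟨a, rfl⟩
    exact (e (Multiplicative.ofAdd a)).2

/-- The `p`-part of the Schur multiplier vanishes. -/
theorem main {Γ : Type u} {G : Type v} [Group Γ] [Group G] [Finite Γ] [hp : Fact p.Prime] {σ : Γ →* G}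
    (hσ : IsStemExtension σ) {g : ℕ → G} {rules : List (List ℕ × List ℕ)}
    (hg : ∀ r, val g (rules.getD r ([], [])).1 = val g (rules.getD r ([], [])).2)
    {n ns : ℕ} {K : Mk} (hK : K.Good) (hok : pcOK p n ns rules = true)
    (hcard : p ^ n ≤ Nat.card ↥(Subgroup.closure (g '' {i | i < n})))
    (hidx : ¬ p ∣ (Subgroup.closure (g '' {i | i < n})).index)
    {rows gauge : List ℕ}
    (hrows : ∀ row ∈ rows, ∃ d, pathOK p K rules d row = true)
    {nr : ℕ} (hlen : rows.length ≤ nr)
    (hgau : gauge.all (fun L => Nat.beq (Nat.land L K.M7) L) = true)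
    (htgt : ∀ r < ns, ∃ M, tgtOK p K rules nr rows gauge r M = true) : ¬ p ∣ Nat.card σ.ker := by
  intro hdvd
  obtain ⟨Γ', i1, i2, σ', hσ', hc⟩ := Cfsg.Agent.H90.Stem.exists_prime_ker hσ hdvd
  obtain ⟨f, hf, hk⟩ := exists_cen hσ' hc
  have hp0 : 0 < p := hp.out.pos
  choose e he using fun i => hσ'.1 (g i)
  have hval : ∀ w, σ' (val e w) = val g w := by
    intro w
    induction w with
    | nil => rw [val_nil, val_nil, map_one]
    | cons i w ih => rw [val_cons, val_cons, map_mul, ih, he]
  have hx0 : ∀ r, ∃ a, val e (rules.getD r ([], [])).1 = val e (rules.getD r ([], [])).2 * f a := by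
    intro r
    have h1 : σ' ((val e (rules.getD r ([], [])).2)⁻¹ * val e (rules.getD r ([], [])).1) = 1 := by
      rw [map_mul, map_inv, hval, hval, hg, inv_mul_cancel]
    obtain ⟨a, ha⟩ := (hk _).1 h1
    exact ⟨a, by rw [← ha]; group⟩
  choose x hx using hx0
  have hx : Tail f e rules x := hx
  have hrows' : ∀ row ∈ rows, ev x row = 0 ∧ Bd 7 row := by
    intro row hrow
    obtain ⟨d, hd⟩ := hrows row hrow
    exact pathOK_spec hf hx hp0 hK hd
  have hgau' : ∀ i, Bd 7 (gauge.getD i 0) := by
    intro i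
    by_cases hi : i < gauge.length
    · have h1 := List.all_eq_true.1 hgau (gauge.getD i 0) (by
        rw [List.getD_eq_getElem _ _ hi]; exact List.getElem_mem hi)
      exact bd_of_land hK.h7 h1
    · rw [List.getD_eq_default _ _ (by omega)]; exact bd_nil _
  set e' : ℕ → Γ' := fun i => e i * f (ev x (gauge.getD i 0)) with he'
  have hr : ∀ r < ns, val e' (rules.getD r ([], [])).1 = val e' (rules.getD r ([], [])).2 := by
    intro r hr
    obtain ⟨M, hM⟩ := htgt r hr
    exact tgtOK_spec hf hx hp0 hK hrows' hlen hgau' hM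
  have hc1 := card_pc e' hp0 hok hr
  set C := Subgroup.closure (e' '' {i | i < n}) with hC
  set S := Subgroup.closure (g '' {i | i < n}) with hS
  have hse : ∀ i, σ' (e' i) = g i := by
    intro i
    rw [he']
    show σ' (e i * f (ev x (gauge.getD i 0))) = g i
    rw [map_mul, he, (hk _).2 ⟨_, rfl⟩, mul_one]
  have hmap : C.map σ' = S := by
    rw [hC, hS, MonoidHom.map_closure, ← Set.image_comp]
    congr 1
    apply Set.image_congr
    intro i _
    exact hse i
  have hsur : Function.Surjective (fun h : C => (⟨σ' h, by rw [← hmap]; exact Subgroup.mem_map_of_mem σ' h.2⟩ : S)) := by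
    rintro ⟨s, hs⟩
    rw [← hmap] at hs
    obtain ⟨h, hh, rfl⟩ := hs
    exact ⟨⟨h, hh⟩, rfl⟩
  have hbij := hsur.bijective_of_nat_card_le (hc1.trans hcard)
  refine Cfsg.Agent.H90.Stem.false_of_complement hσ' (p := p) (by rw [hc]) C ?_ (by rw [hmap]; exact hidx)
  intro y hy h1
  have h2 : (⟨y, hy⟩ : C) = 1 := by
    apply hbij.1
    apply Subtype.ext
    show σ' y = σ' ((1 : C) : Γ')
    rw [h1, Subgroup.coe_one, map_one]
  exact congrArg Subtype.val h2

end Cfsg.Agent.MulX.Stb
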