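import Cfsg.Agent.MulX.Stb
import Cfsg.Agent.H90.CoWord

/-!
# Stable classes for subgroups of `Co0` (owner: helper58)
-/

set_option autoImplicit false

namespace Cfsg.Agent.MulX.Stb

open Cfsg Cfsg.Agent.Golay Cfsg.Agent.MulX.Coh Cfsg.Agent.Leech Cfsg.Agent.H90.Co
open MulAction

/-! ### Lower bound for the order of a group -/

section Chain

variable {G : Type*} [Group G] {α : Type*} [MulAction G α]

/-- the group generated by the elements of the blocks -/
def clo (L : List (α × List G)) : Subgroup G := Subgroup.closure {g | ∃ b ∈ L, g ∈ b.2}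

/-- each block has distinct images of its point, which is fixed by the later blocks -/
def ChainOK : List (α × List G) → Prop
  | [] => True
  | b :: L => (b.2.map (· • b.1)).Nodup ∧ (∀ b' ∈ L, ∀ g ∈ b'.2, g • b.1 = b.1) ∧ ChainOK L

theorem card_clo [Finite G] : ∀ {L : List (α × List G)}, ChainOK L → (L.map fun b => b.2.length).prod ≤ Nat.card (clo L)
  | [], _ => by
    rw [List.map_nil, List.prod_nil]
    exact Nat.card_pos
  | b :: L, h => by
    obtain ⟨h1, h2, h3⟩ := h
    have ih := card_clo h3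
    set H := clo (b :: L) with hH
    have hle : clo L ≤ H := by
      unfold clo at hH ⊢
      rw [hH]
      apply Subgroup.closure_mono
      rintro g ⟨b', hb', hg⟩
      exact ⟨b', List.mem_cons_of_mem _ hb', hg⟩
    have hst : ∀ g ∈ clo L, g • b.1 = b.1 := by
      intro g hg
      have : clo L ≤ stabilizer G b.1 := by
        unfold clo
        rw [Subgroup.closure_le]
        rintro g ⟨b', hb', hg⟩
        exact h2 b' hb' g hg
      exact this hg
    have hc := (stabilizer H b.1).card_mul_index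
    rw [index_stabilizer] at hc
    have h4 : Nat.card (clo L) ≤ Nat.card (stabilizer H b.1) := by
      apply Nat.card_le_card_of_injective (fun g : clo L => (⟨⟨g, hle g.2⟩, hst g g.2⟩ : stabilizer H b.1))
      intro x y hxy
      exact Subtype.ext (congrArg (fun z : stabilizer H b.1 => ((z : H) : G)) hxy)
    have h5 : b.2.length ≤ (orbit H b.1).ncard := by
      classical
      have h6 : (b.2.map (· • b.1)).toFinset.card = b.2.length := by
        rw [List.toFinset_card_of_nodup h1, List.length_map]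
      rw [← h6, ← Set.ncard_coe_finset]
      apply Set.ncard_le_ncard
      · intro y hy
        rw [Finset.mem_coe, List.mem_toFinset, List.mem_map] at hy
        obtain ⟨g, hg, rfl⟩ := hy
        exact ⟨⟨g, Subgroup.subset_closure ⟨b, List.mem_cons_self, hg⟩⟩, rfl⟩
      · have : Finite (orbit H b.1) := by
          have : Finite H := inferInstance
          exact Finite.of_surjective (fun h : H => (⟨h • b.1, mem_orbit _ _⟩ : orbit H b.1)) (by
            rintro ⟨_, ⟨h, rfl⟩⟩; exact ⟨h, rfl⟩)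
        exact Set.toFinite _
    rw [List.map_cons, List.prod_cons, ← hc, mul_comm]
    exact Nat.mul_le_mul (ih.trans h4) h5

end Chain

/-! ### Words -/

theorem val_eq_wd {G : Type*} [Group G] (g : ℕ → G) (w : List ℕ) : val g w = wd g w.reverse := by
  induction w with
  | nil => rfl
  | cons i w ih => rw [val_cons, List.reverse_cons, wd_append, ← ih, wd_cons, wd_nil, one_mul]

theorem map_val {G H : Type*} [Group G] [Group H] (f : G →* H) (g : ℕ → G) (w : List ℕ) :
    f (val g w) = val (fun i => f (g i)) w := by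
  rw [val_eq_wd, val_eq_wd, map_wd]

/-- codes of a letter: rows, columns, packed rows, constant -/
abbrev LDat := List ℕ × List ℕ × List ℕ × ℕ

/-- the letter `i` -/
noncomputable def gl (ds : List LDat) (i : ℕ) : Co0 :=
  if h : matOK (ds.getD i ([], [], [], 0)).1 (ds.getD i ([], [], [], 0)).2.1 = true then matElt _ _ h else 1

/-- check of a letter -/
def letOK (d : LDat) : Bool := matOK d.1 d.2.1 && packOK d.1 d.2.2.1 d.2.2.2

/-- packed letters -/
def qs (ds : List LDat) : List (List ℕ × ℕ) := ds.map fun d => d.2.2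

theorem gl_act {ds : List LDat} (h : ∀ d ∈ ds, letOK d = true) {i : ℕ} (hi : i < ds.length) :
    Act (gl ds i) ((qs ds).getD i ([], 0)) := by
  have h2 : ds.getD i ([], [], [], 0) = ds[i] := List.getD_eq_getElem _ _ hi
  have h1 : letOK (ds.getD i ([], [], [], 0)) = true := by rw [h2]; exact h _ (List.getElem_mem hi)
  have h3 : (qs ds).getD i ([], 0) = (ds.getD i ([], [], [], 0)).2.2 := by
    unfold qs
    rw [List.getD_eq_getElem _ _ (by rw [List.length_map]; exact hi), List.getElem_map, h2]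
  unfold letOK at h1
  rw [Bool.and_eq_true] at h1
  have hgl : gl ds i = matElt _ _ h1.1 := dif_pos h1.1
  rw [h3, hgl]
  exact act_mat h1.1 h1.2

/-- the letters of the word are below `N` -/
def inN (N : ℕ) (w : List ℕ) : Bool := w.all fun i => Nat.blt i N

theorem inN_spec {N : ℕ} {w : List ℕ} (h : inN N w = true) : ∀ i ∈ w, i < N := by
  unfold inN at h
  rw [List.all_eq_true] at h
  intro i hi
  simpa [Nat.blt_eq] using h i hi

/-- check of a rule -/
def ruleOK (q : List (List ℕ × ℕ)) (N : ℕ) (r : List ℕ × List ℕ) : Bool :=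
  inN N r.1 && inN N r.2 && eqW q r.1.reverse r.2.reverse

theorem ruleOK_spec {ds : List LDat} (h : ∀ d ∈ ds, letOK d = true) {N : ℕ} (hN : N ≤ ds.length)
    {r : List ℕ × List ℕ} (hr : ruleOK (qs ds) N r = true) : val (gl ds) r.1 = val (gl ds) r.2 := by
  unfold ruleOK at hr
  simp only [Bool.and_eq_true] at hr
  rw [val_eq_wd, val_eq_wd]
  apply eq_of_eqW _ _ hr.2
  · intro i hi
    exact gl_act h ((inN_spec hr.1.1 i (List.mem_reverse.1 hi)).trans_le hN)
  · intro i hi
    exact gl_act h ((inN_spec hr.1.2 i (List.mem_reverse.1 hi)).trans_le hN)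

/-- a word fixes the vector with code `c` -/
def fixW (q : List (List ℕ × ℕ)) (N : ℕ) (c : ℕ) (w : List ℕ) : Bool :=
  inN N w && run q w.reverse c fun d => Nat.beq d c

theorem fixW_spec {ds : List LDat} (h : ∀ d ∈ ds, letOK d = true) {N : ℕ} (hN : N ≤ ds.length)
    {c : ℕ} {w : List ℕ} (hw : fixW (qs ds) N c w = true) (hc : c < 32 ^ 24) {x : leechLattice}
    (hx : (x : GolayPt → ℤ) = vecOf c) (hn : sqNorm (x : GolayPt → ℤ) ≤ 48) : val (gl ds) w • x = x := by
  unfold fixW at hw
  rw [Bool.and_eq_true] at hw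
  obtain ⟨d, hd, h1, h2⟩ := H90.Co.run_spec (gs := gl ds) (w := w.reverse)
    (fun i hi => gl_act h ((inN_spec hw.1 i (List.mem_reverse.1 hi)).trans_le hN)) hc hw.2
  rw [val_eq_wd]
  apply Subtype.ext
  rw [h2 x hx hn, hx, Nat.eq_of_beq_eq_true h1]

/-- the images of the vector with code `c` under the words increase strictly, and are at least `prev` -/
def incW (q : List (List ℕ × ℕ)) (N n : ℕ) (c : ℕ) : List (List ℕ) → ℕ → Bool
  | [], _ => true
  | w :: ws, prev => inN n w && Nat.ble n N && run q w.reverse c fun d => Nat.ble prev d && incW q N n c ws (Nat.succ d)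

theorem incW_spec {ds : List LDat} (h : ∀ d ∈ ds, letOK d = true) {N n : ℕ} (hN : N ≤ ds.length)
    {c : ℕ} (hc : c < 32 ^ 24) {x : leechLattice}
    (hx : (x : GolayPt → ℤ) = vecOf c) (hn : sqNorm (x : GolayPt → ℤ) ≤ 48) : ∀ {ws : List (List ℕ)} {prev : ℕ},
    incW (qs ds) N n c ws prev = true → (∀ w ∈ ws, ∀ i ∈ w, i < n) ∧ ∃ ds' : List ℕ, ds'.Pairwise (· < ·) ∧
      (∀ d ∈ ds', prev ≤ d ∧ d < 32 ^ 24) ∧
      ws.map (fun w => ((val (gl ds) w • x : leechLattice) : GolayPt → ℤ)) = ds'.map vecOf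
  | [], _, _ => ⟨fun w hw => (by cases hw), [], List.Pairwise.nil, fun d hd => (by cases hd), rfl⟩
  | w :: ws, prev, hw => by
    have h1 : (inN n w && Nat.ble n N && run (qs ds) w.reverse c fun d => Nat.ble prev d && incW (qs ds) N n c ws (d + 1)) = true := hw
    simp only [Bool.and_eq_true] at h1
    have hnN : n ≤ N := Nat.le_of_ble_eq_true h1.1.2
    obtain ⟨d, hd, h2, h3⟩ := H90.Co.run_spec (gs := gl ds) (w := w.reverse)
      (fun i hi => gl_act h (((inN_spec h1.1.1 i (List.mem_reverse.1 hi)).trans_le hnN).trans_le hN)) hc h1.2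
    rw [Bool.and_eq_true] at h2
    obtain ⟨h4, ds', h5, h6, h7⟩ := incW_spec h hN hc hx hn h2.2
    refine ⟨?_, d :: ds', ?_, ?_, ?_⟩
    · intro w' hw'
      rcases List.mem_cons.1 hw' with rfl | hw'
      · exact inN_spec h1.1.1
      · exact h4 w' hw'
    · rw [List.pairwise_cons]
      exact ⟨fun e he => (h6 e he).1, h5⟩
    · intro e he
      rcases List.mem_cons.1 he with rfl | he
      · exact ⟨Nat.le_of_ble_eq_true h2.1, hd⟩
      · have := h6 e he
        have h8 := Nat.le_of_ble_eq_true h2.1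
        exact ⟨by omega, this.2⟩
    · rw [List.map_cons, List.map_cons, h7, val_eq_wd, h3 x hx hn]

/-- check of the chain of blocks -/
def chainB (q : List (List ℕ × ℕ)) (N n : ℕ) : List (ℕ × List (List ℕ)) → Bool
  | [] => true
  | b :: L => Nat.blt b.1 B24 && leechTest (vecOf b.1) && decide (sqNorm (vecOf b.1) ≤ 48) && incW q N n b.1 b.2 0 &&
    (L.all fun b' => b'.2.all fun w => fixW q N b.1 w) && chainB q N n L

theorem chainB_spec {ds : List LDat} (h : ∀ d ∈ ds, letOK d = true) {N n : ℕ} (hN : N ≤ ds.length) :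
    ∀ {L : List (ℕ × List (List ℕ))}, chainB (qs ds) N n L = true →
      ∃ L' : List (leechLattice × List Co0), ChainOK L' ∧ L'.map (fun b => b.2.length) = L.map (fun b => b.2.length) ∧
        (∀ b' ∈ L', ∀ g ∈ b'.2, ∃ b ∈ L, ∃ w ∈ b.2, g = val (gl ds) w) ∧ clo L' ≤ Subgroup.closure ((gl ds) '' {i | i < n})
  | [], _ => ⟨[], trivial, rfl, fun b hb => (by cases hb), by
    unfold clo
    rw [Subgroup.closure_le]
    rintro g ⟨b, hb, _⟩
    cases hb⟩
  | b :: L, hb => by
    have h1 : (Nat.blt b.1 B24 && leechTest (vecOf b.1) && decide (sqNorm (vecOf b.1) ≤ 48) && incW (qs ds) N n b.1 b.2 0 &&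
      (L.all fun b' => b'.2.all fun w => fixW (qs ds) N b.1 w) && chainB (qs ds) N n L) = true := hb
    simp only [Bool.and_eq_true] at h1
    obtain ⟨⟨⟨⟨⟨h2, h3⟩, h4⟩, h5⟩, h6⟩, h7⟩ := h1
    have hc : b.1 < 32 ^ 24 := by
      rw [← B24_eq]; simpa [Nat.blt_eq] using h2
    have hn : sqNorm (vecOf b.1) ≤ 48 := of_decide_eq_true h4
    obtain ⟨L', e1, e2, e3, e4⟩ := chainB_spec h hN h7
    set x : leechLattice := ⟨vecOf b.1, mem_of_test h3⟩ with hx
    obtain ⟨f1, ds', f2, f3, f4⟩ := incW_spec h hN hc (x := x) rfl hn h5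
    have hmem : ∀ b' ∈ (x, b.2.map (val (gl ds))) :: L', ∀ g ∈ b'.2, ∃ c ∈ b :: L, ∃ w ∈ c.2, g = val (gl ds) w := by
      intro b' hb' g hg
      rcases List.mem_cons.1 hb' with rfl | hb'
      · obtain ⟨w, hw, rfl⟩ := List.mem_map.1 hg
        exact ⟨b, List.mem_cons_self, w, hw, rfl⟩
      · obtain ⟨c, hc, w, hw, h8⟩ := e3 b' hb' g hg
        exact ⟨c, List.mem_cons_of_mem _ hc, w, hw, h8⟩
    refine ⟨(x, b.2.map (val (gl ds))) :: L', ⟨?_, ?_, e1⟩, ?_, hmem, ?_⟩
    · rw [List.map_map]
      apply List.Nodup.of_map (fun y : leechLattice => (y : GolayPt → ℤ))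
      rw [List.map_map]
      have h8 : b.2.map ((fun y : leechLattice => (y : GolayPt → ℤ)) ∘ ((fun g : Co0 => g • x) ∘ val (gl ds))) = ds'.map vecOf := f4
      rw [h8]
      have h9 : ds'.Nodup := f2.imp (fun h => ne_of_lt h)
      rw [List.nodup_map_iff_inj_on h9]
      intro c hc d hd hcd
      exact vecOf_inj (f3 c hc).2 (f3 d hd).2 hcd
    · intro b' hb' g hg
      obtain ⟨c, hcL, w, hw, rfl⟩ := e3 b' hb' g hg
      have h8 := List.all_eq_true.1 (List.all_eq_true.1 h6 c hcL) w hw
      exact fixW_spec h hN h8 hc rfl hn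
    · rw [List.map_cons, List.map_cons, e2, List.length_map]
    · unfold clo at e4 ⊢
      rw [Subgroup.closure_le]
      rintro g ⟨b', hb', hg⟩
      rcases List.mem_cons.1 hb' with rfl | hb'
      · obtain ⟨w, hw, rfl⟩ := List.mem_map.1 hg
        exact val_mem_closure _ _ _ fun i hi => f1 w hw i hi
      · exact e4 (Subgroup.subset_closure ⟨b', hb', hg⟩)

/-! ### Letters fixing a vector -/

theorem gl_of_ge {ds : List LDat} {i : ℕ} (h : ds.length ≤ i) : gl ds i = 1 := by
  have h1 : ds.getD i ([], [], [], 0) = ([], [], [], 0) := List.getD_eq_default _ _ h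
  have h2 : ¬ matOK ([] : List ℕ) [] = true := by decide +kernel
  unfold gl
  rw [h1]
  exact dif_neg h2

theorem gl_fix {ds : List LDat} (h : ∀ d ∈ ds, letOK d = true) {q : List (List ℕ × ℕ)} (hq : qs ds = q) {N : ℕ}
    (hN : ds.length = N) {c : ℕ} (hf : ((List.range N).all fun i => fixW q N c [i]) = true) (hc : c < 32 ^ 24)
    {x : leechLattice} (hx : (x : GolayPt → ℤ) = vecOf c) (hn : sqNorm (x : GolayPt → ℤ) ≤ 48) (i : ℕ) :
    gl ds i • x = x := by
  by_cases hi : i < N
  · have h1 := List.all_eq_true.1 hf i (List.mem_range.2 hi)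
    rw [← hq] at h1
    have h2 := fixW_spec h hN.ge h1 hc hx hn
    rwa [val_cons, val_nil, mul_one] at h2
  · rw [gl_of_ge (by omega), one_smul]

/-! ### The main theorem for subgroups of `Co0` -/

universe u

theorem co_main {Γ : Type u} [Group Γ] [Finite Γ] {p : ℕ} [hp : Fact p.Prime] {S0 : Subgroup Co0} [Finite Co0] {σ : Γ →* S0}
    (hσ : IsStemExtension σ) {ds : List LDat} (hds : ∀ d ∈ ds, letOK d = true) (hmem : ∀ i, gl ds i ∈ S0)
    {rules : List (List ℕ × List ℕ)} {N : ℕ} (hN : N ≤ ds.length) (hrules : ∀ r ∈ rules, ruleOK (qs ds) N r = true)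
    {n ns m : ℕ} {K : Mk} (hK : K.Good) (hok : pcOK p n ns rules = true)
    {L : List (ℕ × List (List ℕ))} (hL : chainB (qs ds) N n L = true) (hLn : (L.map fun b => b.2.length).prod = p ^ n)
    (hcard : Nat.card S0 = p ^ n * m) (hm : ¬ p ∣ m)
    {rows gauge : List ℕ}
    (hrows : ∀ row ∈ rows, ∃ d, pathOK p K rules d row = true)
    {nr : ℕ} (hlen : rows.length ≤ nr)
    (hgau : gauge.all (fun L => Nat.beq (Nat.land L K.M7) L) = true)
    (htgt : ∀ r < ns, ∃ M, tgtOK p K rules nr rows gauge r M = true) : ¬ p ∣ Nat.card σ.ker := by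
  set g : ℕ → S0 := fun i => ⟨gl ds i, hmem i⟩ with hg
  have hmap : (Subgroup.closure (g '' {i | i < n})).map S0.subtype = Subgroup.closure ((gl ds) '' {i | i < n}) := by
    rw [MonoidHom.map_closure, ← Set.image_comp]
    rfl
  have hc1 : p ^ n ≤ Nat.card ↥(Subgroup.closure (g '' {i | i < n})) := by
    obtain ⟨L', h1, h2, -, h3⟩ := chainB_spec hds hN hL
    have h4 := card_clo h1
    rw [h2, hLn] at h4
    have h5 := Subgroup.card_le_of_le h3
    have h6 : Nat.card ↥(Subgroup.closure ((gl ds) '' {i | i < n})) = Nat.card ↥(Subgroup.closure (g '' {i | i < n})) := by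
      rw [← hmap]
      exact (Nat.card_congr ((Subgroup.closure (g '' {i | i < n})).equivMapOfInjective S0.subtype S0.subtype_injective).toEquiv).symm
    rw [← h6]
    exact h4.trans h5
  have hrule : ∀ r, val g (rules.getD r ([], [])).1 = val g (rules.getD r ([], [])).2 := by
    intro r
    apply S0.subtype_injective
    rw [map_val, map_val]
    by_cases hr : r < rules.length
    · rw [List.getD_eq_getElem _ _ hr]
      exact ruleOK_spec hds hN (hrules _ (List.getElem_mem hr))
    · rw [List.getD_eq_default _ _ (by omega)]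
  have hc2 : Nat.card ↥(Subgroup.closure (g '' {i | i < n})) = p ^ n :=
    le_antisymm (card_pc g hp.out.pos hok fun r _ => hrule r) hc1
  refine main hσ hrule hK hok hc1 ?_ hrows hlen hgau htgt
  exact Cfsg.Agent.H90.Stem.not_dvd_index hp.out hcard hm (by rw [hc2])

end Cfsg.Agent.MulX.Stb
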