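import Cfsg.Agent.Golay.Table
import Mathlib.Data.ZMod.Basic
import Mathlib.Tactic

/-!
# Packed linear forms modulo `p` (owner: helper58)

A linear form in the unknowns `x 0, x 1, ...` over `ZMod p` is packed in a natural number with digits in base `2 ^ 16`.
-/

set_option autoImplicit false

namespace Cfsg.Agent.MulX.Stb

open Cfsg.Agent.Golay

/-- the base -/
def bb : ℕ := 65536

theorem bb_eq : bb = 2 ^ 16 := rfl
theorem bb_pos : 0 < bb := by norm_num [bb]

variable {p : ℕ}

/-- value of a packed form -/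
def ev (x : ℕ → ZMod p) (L : ℕ) : ZMod p :=
  if _h : L = 0 then 0 else ((L % bb : ℕ) : ZMod p) * x 0 + ev (fun k => x (k + 1)) (L / bb)
termination_by L
decreasing_by
  apply Nat.div_lt_self (Nat.pos_of_ne_zero _h)
  norm_num [bb]

theorem ev_zero (x : ℕ → ZMod p) : ev x 0 = 0 := by rw [ev]; simp

theorem ev_eq (x : ℕ → ZMod p) (L : ℕ) :
    ev x L = ((L % bb : ℕ) : ZMod p) * x 0 + ev (fun k => x (k + 1)) (L / bb) := by
  by_cases h : L = 0
  · subst h; simp [ev_zero]
  · rw [ev, dif_neg h]

/-- all digits are at most `n` -/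
def Bd (n L : ℕ) : Prop := ∀ k, L / bb ^ k % bb ≤ n

theorem Bd.zero (L : ℕ) {n : ℕ} (h : Bd n L) : L % bb ≤ n := by simpa using h 0

theorem Bd.div {n L : ℕ} (h : Bd n L) : Bd n (L / bb) := by
  intro k
  have := h (k + 1)
  rw [pow_succ', ← Nat.div_div_eq_div_mul] at this
  exact this

theorem Bd.mono {n m L : ℕ} (h : Bd n L) (hnm : n ≤ m) : Bd m L := fun k => (h k).trans hnm

theorem bd_nil (n : ℕ) : Bd n 0 := fun k => by simp

theorem div_add {n m L M : ℕ} (hL : Bd n L) (hM : Bd m M) (h : n + m < bb) : (L + M) / bb = L / bb + M / bb := by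
  have h1 := hL.zero
  have h2 := hM.zero
  rw [Nat.add_div bb_pos, if_neg (by omega), add_zero]

theorem mod_add {n m L M : ℕ} (hL : Bd n L) (hM : Bd m M) (h : n + m < bb) : (L + M) % bb = L % bb + M % bb := by
  have h1 := hL.zero
  have h2 := hM.zero
  rw [Nat.add_mod, Nat.mod_eq_of_lt (by omega)]

theorem Bd.add {n m : ℕ} (h : n + m < bb) : ∀ {L M : ℕ}, Bd n L → Bd m M → Bd (n + m) (L + M) := by
  intro L M hL hM k
  induction k generalizing L M with
  | zero =>
    rw [pow_zero, Nat.div_one, mod_add hL hM h]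
    have h1 := hL.zero
    have h2 := hM.zero
    omega
  | succ k ih =>
    rw [pow_succ', ← Nat.div_div_eq_div_mul, div_add hL hM h]
    exact ih hL.div hM.div

theorem ev_add {n m : ℕ} (h : n + m < bb) : ∀ {L M : ℕ} (x : ℕ → ZMod p), Bd n L → Bd m M →
    ev x (L + M) = ev x L + ev x M := by
  intro L
  induction L using Nat.strong_induction_on with
  | _ L ih =>
    intro M x hL hM
    by_cases hL0 : L = 0
    · subst hL0; rw [ev_zero, zero_add, zero_add]
    · rw [ev_eq x (L + M), ev_eq x L, ev_eq x M, div_add hL hM h, mod_add hL hM h,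
        ih (L / bb) (Nat.div_lt_self (Nat.pos_of_ne_zero hL0) (by norm_num [bb])) _ hL.div hM.div]
      push_cast
      ring

theorem Bd.mul {n : ℕ} {L : ℕ} (m : ℕ) (h : m * n < bb) (hL : Bd n L) : Bd (m * n) (m * L) := by
  induction m with
  | zero => rw [zero_mul, zero_mul]; exact bd_nil _
  | succ m ih =>
    rw [add_mul, one_mul] at h
    rw [add_mul, add_mul, one_mul, one_mul]
    exact Bd.add h (ih (by omega)) hL

theorem ev_mul {n : ℕ} {L : ℕ} (m : ℕ) (h : m * n < bb) (hL : Bd n L) (x : ℕ → ZMod p) : ev x (m * L) = m * ev x L := by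
  induction m with
  | zero => rw [zero_mul, ev_zero]; simp
  | succ m ih =>
    rw [add_mul, one_mul] at h
    rw [add_mul, one_mul, ev_add h x (Bd.mul m (by omega) hL) hL, ih (by omega)]
    push_cast
    ring

theorem bb_pow_succ_div (k : ℕ) : bb ^ (k + 1) / bb = bb ^ k := by
  rw [pow_succ, Nat.mul_div_cancel _ bb_pos]

theorem bb_pow_succ_mod (k : ℕ) : bb ^ (k + 1) % bb = 0 := by
  rw [pow_succ, Nat.mul_mod_left]

theorem bd_unit (k : ℕ) : Bd 1 (bb ^ k) := by
  induction k with
  | zero =>
    intro j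
    rw [pow_zero]
    cases j with
    | zero => rw [pow_zero]; norm_num [bb]
    | succ j =>
      have h1 : 1 / bb ^ (j + 1) = 0 := Nat.div_eq_of_lt (Nat.one_lt_pow (by omega) (by norm_num [bb]))
      rw [h1]; simp
  | succ k ih =>
    intro j
    cases j with
    | zero => rw [pow_zero, Nat.div_one, bb_pow_succ_mod]; omega
    | succ j =>
      rw [pow_succ' bb j, ← Nat.div_div_eq_div_mul, bb_pow_succ_div]
      exact ih j

theorem ev_unit (k : ℕ) : ∀ (x : ℕ → ZMod p), ev x (bb ^ k) = x k := by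
  induction k with
  | zero =>
    intro x
    rw [pow_zero, ev_eq, Nat.mod_eq_of_lt (by norm_num [bb]), Nat.div_eq_of_lt (by norm_num [bb]), ev_zero]
    simp
  | succ k ih =>
    intro x
    rw [ev_eq, bb_pow_succ_mod, bb_pow_succ_div, ih]
    simp

/-- `c` times the `k`-th unknown -/
def un (c k : ℕ) : ℕ := Nat.shiftLeft c (Nat.mul 16 k)

theorem un_eq (c k : ℕ) : un c k = c * bb ^ k := by
  have h : un c k = c <<< (16 * k) := rfl
  rw [h, Nat.shiftLeft_eq, bb_eq, ← pow_mul]

theorem bd_un (c k : ℕ) (h : c < bb) : Bd c (un c k) := by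
  rw [un_eq]
  have := Bd.mul c (n := 1) (by rwa [mul_one]) (bd_unit k)
  rwa [mul_one] at this

theorem ev_un (c k : ℕ) (h : c < bb) (x : ℕ → ZMod p) : ev x (un c k) = c * x k := by
  rw [un_eq, ev_mul c (n := 1) (by rwa [mul_one]) (bd_unit k), ev_unit]

/-! ### Comparison -/

/-- forms equal modulo `p`, with at most `K` digits -/
def eqM (p : ℕ) (K : ℕ) : ℕ → ℕ → Bool :=
  Nat.rec (motive := fun _ => ℕ → ℕ → Bool) (fun L M => Nat.beq L 0 && Nat.beq M 0)
    (fun _ ih L M => match Nat.beq (Nat.mod (Nat.land L 65535) p) (Nat.mod (Nat.land M 65535) p) with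
      | true => fz (Nat.shiftRight L 16) fun L' => fz (Nat.shiftRight M 16) fun M' => ih L' M'
      | false => false) K

theorem land_bb (L : ℕ) : Nat.land L 65535 = L % bb := Nat.and_two_pow_sub_one_eq_mod L 16
theorem shr_bb (L : ℕ) : Nat.shiftRight L 16 = L / bb := by
  have : L >>> 16 = L / 2 ^ 16 := Nat.shiftRight_eq_div_pow L 16
  exact this

theorem ev_of_eqM (K : ℕ) : ∀ {L M : ℕ} (x : ℕ → ZMod p), eqM p K L M = true → ev x L = ev x M := by
  induction K with
  | zero =>
    intro L M x h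
    have h1 : (Nat.beq L 0 && Nat.beq M 0) = true := h
    rw [Bool.and_eq_true] at h1
    rw [Nat.eq_of_beq_eq_true h1.1, Nat.eq_of_beq_eq_true h1.2]
  | succ K ih =>
    intro L M x h
    have h1 : (match Nat.beq (Nat.mod (Nat.land L 65535) p) (Nat.mod (Nat.land M 65535) p) with
      | true => fz (Nat.shiftRight L 16) fun L' => fz (Nat.shiftRight M 16) fun M' => eqM p K L' M'
      | false => false) = true := h
    cases hb : Nat.beq (Nat.mod (Nat.land L 65535) p) (Nat.mod (Nat.land M 65535) p) with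
    | false => rw [hb] at h1; cases h1
    | true =>
      rw [hb] at h1
      have h2 : eqM p K (Nat.shiftRight L 16) (Nat.shiftRight M 16) = true := by simpa only [fz_eq] using h1
      rw [shr_bb, shr_bb] at h2
      have h3 := Nat.eq_of_beq_eq_true hb
      rw [land_bb, land_bb] at h3
      have h4 : ((L % bb : ℕ) : ZMod p) = ((M % bb : ℕ) : ZMod p) := (ZMod.natCast_eq_natCast_iff _ _ _).2 h3
      rw [ev_eq x L, ev_eq x M, ih _ h2, h4]

/-- all the digits are at most `n`, at most `K` digits -/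
def bdB (n : ℕ) (K : ℕ) : ℕ → Bool :=
  Nat.rec (motive := fun _ => ℕ → Bool) (fun L => Nat.beq L 0)
    (fun _ ih L => match Nat.ble (Nat.land L 65535) n with
      | true => fz (Nat.shiftRight L 16) fun L' => ih L'
      | false => false) K

theorem bd_of_bdB {n : ℕ} (K : ℕ) : ∀ {L : ℕ}, bdB n K L = true → Bd n L := by
  induction K with
  | zero =>
    intro L h
    have h1 : Nat.beq L 0 = true := h
    rw [Nat.eq_of_beq_eq_true h1]
    exact bd_nil n
  | succ K ih =>
    intro L h
    have h1 : (match Nat.ble (Nat.land L 65535) n with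
      | true => fz (Nat.shiftRight L 16) fun L' => bdB n K L'
      | false => false) = true := h
    cases hb : Nat.ble (Nat.land L 65535) n with
    | false => rw [hb] at h1; cases h1
    | true =>
      rw [hb] at h1
      have h2 : bdB n K (Nat.shiftRight L 16) = true := by simpa only [fz_eq] using h1
      rw [shr_bb] at h2
      have h3 : L % bb ≤ n := by rw [← land_bb]; exact Nat.le_of_ble_eq_true hb
      intro k
      cases k with
      | zero => simpa using h3
      | succ k =>
        rw [pow_succ', ← Nat.div_div_eq_div_mul]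
        exact ih h2 k

/-! ### Comparison without loops -/

theorem bd_of_land {m M L : ℕ} (hM : Bd m M) (h : Nat.beq (Nat.land L M) L = true) : Bd m L := by
  have h1 : L &&& M = L := Nat.eq_of_beq_eq_true h
  intro k
  have h2 : L / bb ^ k % bb = (L / bb ^ k % bb) &&& (M / bb ^ k % bb) := by
    have e1 : bb ^ k = 2 ^ (16 * k) := by rw [bb_eq, ← pow_mul]
    have e2 : (L &&& M) / 2 ^ (16 * k) % 2 ^ 16 = (L / 2 ^ (16 * k) % 2 ^ 16) &&& (M / 2 ^ (16 * k) % 2 ^ 16) := by
      rw [← Nat.and_mod_two_pow]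
      congr 1
      rw [← Nat.shiftRight_eq_div_pow, ← Nat.shiftRight_eq_div_pow, ← Nat.shiftRight_eq_div_pow, Nat.shiftRight_and_distrib]
    rw [h1] at e2
    rw [e1, bb_eq]
    exact e2
  rw [h2]
  exact Nat.and_le_right.trans (hM k)

/-- `L` and `M` are equal modulo `p`; `M12` is the mask with digits `4095` and `O` has digits `1023` -/
def eqP (p M12 O L M : ℕ) : Bool :=
  fz L fun L => fz M fun M => fz (Nat.add L (Nat.mul p O)) fun L' => fz (Nat.div (Nat.sub L' M) p) fun Q =>
    Nat.beq L' (Nat.add M (Nat.mul p Q)) && Nat.beq (Nat.land Q M12) Q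

theorem ev_of_eqP {M12 O L M n m : ℕ} (h12 : Bd 4095 M12) (hO : Bd 1023 O) (hL : Bd n L) (hM : Bd m M)
    (hn : n + p * 1023 < bb) (hm : m + p * 4095 < bb) (h : eqP p M12 O L M = true) (x : ℕ → ZMod p) : ev x L = ev x M := by
  unfold eqP at h
  simp only [fz_eq, Bool.and_eq_true] at h
  set Q := Nat.div (Nat.sub (Nat.add L (Nat.mul p O)) M) p with hQ
  obtain ⟨h1, h2⟩ := h
  have h3 : L + p * O = M + p * Q := Nat.eq_of_beq_eq_true h1
  have h4 := bd_of_land h12 h2
  have h5 := congrArg (ev x) h3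
  rw [ev_add hn x hL (Bd.mul p (by omega) hO), ev_add hm x hM (Bd.mul p (by omega) h4), ev_mul p (by omega) hO,
    ev_mul p (by omega) h4, ZMod.natCast_self] at h5
  simpa using h5

end Cfsg.Agent.MulX.Stb
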