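import Cfsg.Agent.MulX.StbTwo
import Cfsg.Agent.MulX.StbCo
import Cfsg.Agent.CosetEnum.BaseFix

/-!
# Stable classes for permutation groups given by a table (owner: helper58)
-/

set_option autoImplicit false

namespace Cfsg.Agent.MulX.StbP

open Cfsg Cfsg.Agent.MulX.Coh Cfsg.Agent.MulX.Stb Cfsg.Agent.CosetEnum
open MulAction

section

variable {G : Type*} [Group G] {P : Par} [MulAction G (Fin P.m)] {g : ℕ → G} {lets : List ℕ}

/-- the elements given by words in the letters of the table -/
def el (g : ℕ → G) (D : List (List ℕ)) (i : ℕ) : G := CosetEnum.val (fun x => (g x)⁻¹) (D.getD i [])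

/-- image under a word, the last letter acts first -/
noncomputable def actR (P : Par) (D : List (List ℕ)) : List ℕ → ℕ → ℕ
  | [], b => b
  | i :: w, b => forceN (actR P D w b) (actW P (D.getD i []))

theorem actR_spec (h : Acts G P g lets) {D : List (List ℕ)} (hD : ∀ i, ∀ x ∈ D.getD i [], x ∈ lets) (w : List ℕ)
    (b : Fin P.m) : ((Coh.val (el g D) w • b : Fin P.m) : ℕ) = actR P D w b := by
  induction w with
  | nil => rw [Coh.val_nil, one_smul]; rfl
  | cons i w ih =>
    have h1 : actR P D (i :: w) b = forceN (actR P D w b) (actW P (D.getD i [])) := rfl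
    rw [h1, forceN_eq, ← ih, Coh.val_cons, mul_smul]
    exact h.word (hD i) _

/-- the words of the table are words in the letters -/
def dOK (D : List (List ℕ)) (lets : List ℕ) : Bool := D.all fun w => w.all fun x => lets.contains x

theorem dOK_spec {D : List (List ℕ)} (h : dOK D lets = true) : ∀ i, ∀ x ∈ D.getD i [], x ∈ lets := by
  intro i x hx
  by_cases hi : i < D.length
  · rw [List.getD_eq_getElem _ _ hi] at hx
    have h1 := List.all_eq_true.1 (List.all_eq_true.1 h _ (List.getElem_mem hi)) x hx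
    simpa using h1
  · rw [List.getD_eq_default _ _ (by omega)] at hx
    cases hx

/-- check of a rule on the points `B` -/
noncomputable def ruleP (P : Par) (D : List (List ℕ)) (B : List ℕ) (r : List ℕ × List ℕ) : Bool :=
  B.all fun b => Nat.beq (actR P D r.1 b) (actR P D r.2 b)

theorem ruleP_spec [Finite G] (h : Acts G P g lets) (htop : Subgroup.closure (g '' {x | x ∈ lets}) = ⊤)
    {ls : List (ℕ × List ℕ)} (hc : CosetEnum.chainB P lets ls [] = true) (hN : Nat.card G = (ls.map fun p => p.2.length).prod)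
    {D : List (List ℕ)} (hD : ∀ i, ∀ x ∈ D.getD i [], x ∈ lets) {B : List ℕ} (hB : ∀ p ∈ ls, p.1 ∈ B)
    {r : List ℕ × List ℕ} (hr : ruleP P D B r = true) : Coh.val (el g D) r.1 = Coh.val (el g D) r.2 := by
  have h1 : (Coh.val (el g D) r.2)⁻¹ * Coh.val (el g D) r.1 = 1 := by
    refine eq_one_of_base h htop hc hN ?_
    intro p hp c hcp
    rw [mul_smul, inv_smul_eq_iff]
    apply Fin.ext
    rw [actR_spec h hD, actR_spec h hD]
    have h2 := List.all_eq_true.1 hr p.1 (hB p hp)
    rw [hcp]
    exact Nat.eq_of_beq_eq_true h2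
  exact (inv_mul_eq_one.1 h1).symm

/-- the images of `b` increase strictly -/
noncomputable def incP (P : Par) (D : List (List ℕ)) (b : ℕ) : List (List ℕ) → ℕ → Bool
  | [], _ => true
  | w :: ws, last => force (actR P D w b) fun j => Nat.ble last j && incP P D b ws (Nat.succ j)

theorem incP_spec (h : Acts G P g lets) {D : List (List ℕ)} (hD : ∀ i, ∀ x ∈ D.getD i [], x ∈ lets) (b : Fin P.m) :
    ∀ {ws : List (List ℕ)} {last : ℕ}, incP P D b ws last = true →
      ((ws.map fun w => ((Coh.val (el g D) w • b : Fin P.m) : ℕ))).Pairwise (· < ·) ∧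
        ∀ w ∈ ws, last ≤ ((Coh.val (el g D) w • b : Fin P.m) : ℕ)
  | [], _, _ => ⟨List.Pairwise.nil, fun w hw => by cases hw⟩
  | w :: ws, last, hw => by
    have h1 : (force (actR P D w b) fun j => Nat.ble last j && incP P D b ws (Nat.succ j)) = true := hw
    rw [force_eq, Bool.and_eq_true, ← actR_spec h hD] at h1
    obtain ⟨h2, h3⟩ := incP_spec h hD b h1.2
    have h4 := Nat.le_of_ble_eq_true h1.1
    refine ⟨?_, ?_⟩
    · rw [List.map_cons, List.pairwise_cons]
      refine ⟨?_, h2⟩
      intro j hj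
      obtain ⟨w', hw', rfl⟩ := List.mem_map.1 hj
      exact h3 w' hw'
    · intro w' hw'
      rcases List.mem_cons.1 hw' with rfl | hw'
      · exact h4
      · have := h3 w' hw'
        omega

/-- check of a chain of blocks -/
noncomputable def chP (P : Par) (D : List (List ℕ)) (n : ℕ) : List (ℕ × List (List ℕ)) → Bool
  | [] => true
  | c :: L => Nat.blt c.1 P.m && c.2.all (inN n) && incP P D c.1 c.2 0 &&
    (L.all fun c' => c'.2.all fun w => Nat.beq (actR P D w c.1) c.1) && chP P D n L

theorem chP_spec (h : Acts G P g lets) {D : List (List ℕ)} (hD : ∀ i, ∀ x ∈ D.getD i [], x ∈ lets) {n : ℕ} :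
    ∀ {L : List (ℕ × List (List ℕ))}, chP P D n L = true →
      ∃ L' : List (Fin P.m × List G), ChainOK L' ∧ L'.map (fun b => b.2.length) = L.map (fun b => b.2.length) ∧
        (∀ b' ∈ L', ∀ y ∈ b'.2, ∃ b ∈ L, ∃ w ∈ b.2, y = Coh.val (el g D) w) ∧
        clo L' ≤ Subgroup.closure ((el g D) '' {i | i < n})
  | [], _ => ⟨[], trivial, rfl, fun b hb => (by cases hb), by
    unfold clo
    rw [Subgroup.closure_le]
    rintro y ⟨b, hb, _⟩
    cases hb⟩
  | c :: L, hc => by
    have h1 : (Nat.blt c.1 P.m && c.2.all (inN n) && incP P D c.1 c.2 0 &&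
      (L.all fun c' => c'.2.all fun w => Nat.beq (actR P D w c.1) c.1) && chP P D n L) = true := hc
    simp only [Bool.and_eq_true] at h1
    obtain ⟨⟨⟨⟨h2, h3⟩, h4⟩, h5⟩, h6⟩ := h1
    have hlt : c.1 < P.m := by simpa [Nat.blt_eq] using h2
    obtain ⟨L', e1, e2, e3, e4⟩ := chP_spec h hD h6
    set b : Fin P.m := ⟨c.1, hlt⟩ with hb
    obtain ⟨f1, -⟩ := incP_spec h hD b h4
    have hmem : ∀ b' ∈ (b, c.2.map (Coh.val (el g D))) :: L', ∀ y ∈ b'.2, ∃ c' ∈ c :: L, ∃ w ∈ c'.2,
        y = Coh.val (el g D) w := by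
      intro b' hb' y hy
      rcases List.mem_cons.1 hb' with rfl | hb'
      · obtain ⟨w, hw, rfl⟩ := List.mem_map.1 hy
        exact ⟨c, List.mem_cons_self, w, hw, rfl⟩
      · obtain ⟨c', hc', w, hw, h8⟩ := e3 b' hb' y hy
        exact ⟨c', List.mem_cons_of_mem _ hc', w, hw, h8⟩
    refine ⟨(b, c.2.map (Coh.val (el g D))) :: L', ⟨?_, ?_, e1⟩, ?_, hmem, ?_⟩
    · apply List.Nodup.of_map (fun i : Fin P.m => (i : ℕ))
      rw [List.map_map, List.map_map]
      exact f1.imp (fun h => ne_of_lt h)
    · intro b' hb' y hy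
      obtain ⟨c', hcL, w, hw, rfl⟩ := e3 b' hb' y hy
      have h8 := List.all_eq_true.1 (List.all_eq_true.1 h5 c' hcL) w hw
      apply Fin.ext
      rw [actR_spec h hD]
      exact Nat.eq_of_beq_eq_true h8
    · rw [List.map_cons, List.map_cons, e2, List.length_map]
    · unfold clo at e4 ⊢
      rw [Subgroup.closure_le]
      rintro y ⟨b', hb', hy⟩
      rcases List.mem_cons.1 hb' with rfl | hb'
      · obtain ⟨w, hw, rfl⟩ := List.mem_map.1 hy
        exact val_mem_closure _ _ _ fun i hi => inN_spec (List.all_eq_true.1 h3 w hw) i hi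
      · exact e4 (Subgroup.subset_closure ⟨b', hb', hy⟩)

theorem card_ge [Finite G] (h : Acts G P g lets) {D : List (List ℕ)} (hD : ∀ i, ∀ x ∈ D.getD i [], x ∈ lets) {n : ℕ}
    {L : List (ℕ × List (List ℕ))} (hL : chP P D n L = true) :
    (L.map fun b => b.2.length).prod ≤ Nat.card ↥(Subgroup.closure ((el g D) '' {i | i < n})) := by
  obtain ⟨L', h1, h2, -, h3⟩ := chP_spec h hD hL
  have h4 := card_clo h1
  rw [h2] at h4
  exact h4.trans (Subgroup.card_le_of_le h3)

end

/-- the conditions on a permutation group with a base -/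
structure Base (G : Type*) [Group G] (P : Par) (g : ℕ → G) (lets B : List ℕ) : Prop where
  fin : Finite G
  ex : ∃ A : MulAction G (Fin P.m), @Acts G _ P A g lets ∧ Subgroup.closure (g '' {x | x ∈ lets}) = ⊤ ∧
    ∃ ls : List (ℕ × List ℕ), CosetEnum.chainB P lets ls [] = true ∧ Nat.card G = (ls.map fun p => p.2.length).prod ∧
      ∀ p ∈ ls, p.1 ∈ B

section

variable {G : Type*} [Group G] {P : Par} {g : ℕ → G} {lets B : List ℕ}

theorem Base.rule (b : Base G P g lets B) {D : List (List ℕ)} (hD : dOK D lets = true) {rules : List (List ℕ × List ℕ)}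
    (hr : rules.all (ruleP P D B) = true) (r : ℕ) :
    Coh.val (el g D) (rules.getD r ([], [])).1 = Coh.val (el g D) (rules.getD r ([], [])).2 := by
  have := b.fin
  obtain ⟨A, h1, h2, ls, h3, h4, h5⟩ := b.ex
  by_cases hi : r < rules.length
  · rw [List.getD_eq_getElem _ _ hi]
    exact ruleP_spec h1 h2 h3 h4 (dOK_spec hD) h5 (List.all_eq_true.1 hr _ (List.getElem_mem hi))
  · rw [List.getD_eq_default _ _ (by omega)]

theorem Base.ge (b : Base G P g lets B) {D : List (List ℕ)} (hD : dOK D lets = true) {n : ℕ}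
    {L : List (ℕ × List (List ℕ))} (hL : chP P D n L = true) :
    (L.map fun b => b.2.length).prod ≤ Nat.card ↥(Subgroup.closure ((el g D) '' {i | i < n})) := by
  have := b.fin
  obtain ⟨A, h1, -⟩ := b.ex
  exact card_ge h1 (dOK_spec hD) hL

end

universe u v

variable {Γ : Type u} {G : Type v} [Group Γ] [Group G] [Finite Γ] {p : ℕ} [hp : Fact p.Prime] {σ : Γ →* G}
  {P : Par} {g : ℕ → G} {lets B : List ℕ}

/-- The `p`-part of the Schur multiplier of a permutation group vanishes. -/
theorem perm_main (hσ : IsStemExtension σ) (b : Base G P g lets B) {D : List (List ℕ)} (hD : dOK D lets = true)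
    {rules : List (List ℕ × List ℕ)} (hrules : rules.all (ruleP P D B) = true)
    {n ns m : ℕ} {K : Mk} (hK : K.Good) (hok : pcOK p n ns rules = true)
    {L : List (ℕ × List (List ℕ))} (hL : chP P D n L = true) (hLn : (L.map fun b => b.2.length).prod = p ^ n)
    (hcard : Nat.card G = p ^ n * m) (hm : ¬ p ∣ m)
    {rows gauge : List ℕ}
    (hrows : ∀ row ∈ rows, ∃ d, pathOK p K rules d row = true)
    {nr : ℕ} (hlen : rows.length ≤ nr)
    (hgau : gauge.all (fun L => Nat.beq (Nat.land L K.M7) L) = true)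
    (htgt : ∀ r < ns, ∃ M, tgtOK p K rules nr rows gauge r M = true) : ¬ p ∣ Nat.card σ.ker := by
  have hfin := b.fin
  have hrule := b.rule hD hrules
  have hc1 := b.ge hD hL
  rw [hLn] at hc1
  have hc2 : Nat.card ↥(Subgroup.closure ((el g D) '' {i | i < n})) = p ^ n :=
    le_antisymm (card_pc (el g D) hp.out.pos hok fun r _ => hrule r) hc1
  refine Stb.main hσ hrule hK hok hc1 ?_ hrows hlen hgau htgt
  exact Cfsg.Agent.H90.Stem.not_dvd_index hp.out hcard hm (by rw [hc2])

/-- The `p`-part of the Schur multiplier of a permutation group has order at most `p`. -/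
theorem perm_rank_one (hσ : IsStemExtension σ) (b : Base G P g lets B) {D : List (List ℕ)} (hD : dOK D lets = true)
    {rules : List (List ℕ × List ℕ)} (hrules : rules.all (ruleP P D B) = true)
    {n ns m : ℕ} {K : Mk} (hK : K.Good) (hok : pcOK p n ns rules = true)
    {L : List (ℕ × List (List ℕ))} (hL : chP P D n L = true) (hLn : (L.map fun b => b.2.length).prod = p ^ n)
    (hcard : Nat.card G = p ^ n * m) (hm : ¬ p ∣ m)
    {rows gauge : List ℕ}
    (hrows : ∀ row ∈ rows, ∃ d, pathOK p K rules d row = true)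
    {nr : ℕ} (hlen : rows.length ≤ nr)
    (hgau : gauge.all (fun L => Nat.beq (Nat.land L K.M7) L) = true)
    {T : ℕ} (hT : Nat.beq (Nat.land T K.M7) T = true)
    (htgt : ∀ r < ns, ∃ c M, tgt1OK p K rules nr rows gauge T r c M = true)
    {q : ℕ} (hq : q = p ^ 2) {rows2 : List ℕ} {M2 : ℕ} (hrows2 : ∀ row ∈ rows2, ∃ d, pathOK q K rules d row = true)
    (hT2 : tOK q p K rows2 T M2 = true) : ¬ p ^ 2 ∣ Nat.card σ.ker := by
  have hfin := b.fin
  have hrule := b.rule hD hrules
  have hc1 := b.ge hD hL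
  rw [hLn] at hc1
  have hc2 : Nat.card ↥(Subgroup.closure ((el g D) '' {i | i < n})) = p ^ n :=
    le_antisymm (card_pc (el g D) hp.out.pos hok fun r _ => hrule r) hc1
  refine rank_one hσ hrule hK hok hc1 ?_ hrows hlen hgau hT htgt hq hrows2 hT2
  exact Cfsg.Agent.H90.Stem.not_dvd_index hp.out hcard hm (by rw [hc2])

end Cfsg.Agent.MulX.StbP
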