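import Cfsg.Agent.MulX.Stb
import Cfsg.Agent.H90.StemMore

/-!
# Stable classes for a group with a multiplier whose `p`-part has order at most `p` (owner: helper58)

`Stb.rank_one`: the closed paths modulo `p` force the tails (after a change of the letters) to be multiples of the value
of one linear form `T`, and the closed paths modulo `p ^ 2` give `p T = 0`.  Then `p ^ 2` does not divide the order of
the kernel of a stem extension.
-/

set_option autoImplicit false

namespace Cfsg.Agent.MulX.Stb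

open Cfsg Cfsg.Agent.Golay Cfsg.Agent.MulX.Coh

universe u v

variable {p : ℕ}

/-- the end of the proof: lifts of the letters that satisfy the polycyclic rules give a complement -/
theorem no_split {Γ : Type u} {G : Type v} [Group Γ] [Group G] [Finite Γ] [hp : Fact p.Prime] {σ : Γ →* G}
    (hσ : IsStemExtension σ) (hc : Nat.card σ.ker = p) {g : ℕ → G} {e : ℕ → Γ} (he : ∀ i, σ (e i) = g i)
    {rules : List (List ℕ × List ℕ)} {n ns : ℕ} (hok : pcOK p n ns rules = true)
    (hr : ∀ r < ns, val e (rules.getD r ([], [])).1 = val e (rules.getD r ([], [])).2)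
    (hcard : p ^ n ≤ Nat.card ↥(Subgroup.closure (g '' {i | i < n})))
    (hidx : ¬ p ∣ (Subgroup.closure (g '' {i | i < n})).index) : False := by
  have hc1 := card_pc e hp.out.pos hok hr
  set C := Subgroup.closure (e '' {i | i < n}) with hC
  set S := Subgroup.closure (g '' {i | i < n}) with hS
  have hmap : C.map σ = S := by
    rw [hC, hS, MonoidHom.map_closure, ← Set.image_comp]
    congr 1
    apply Set.image_congr
    intro i _
    exact he i
  have hsur : Function.Surjective (fun h : C => (⟨σ h, by rw [← hmap]; exact Subgroup.mem_map_of_mem σ h.2⟩ : S)) := by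
    rintro ⟨s, hs⟩
    rw [← hmap] at hs
    obtain ⟨h, hh, rfl⟩ := hs
    exact ⟨⟨h, hh⟩, rfl⟩
  have hbij := hsur.bijective_of_nat_card_le (hc1.trans hcard)
  refine Cfsg.Agent.H90.Stem.false_of_complement hσ (p := p) (by rw [hc]) C ?_ (by rw [hmap]; exact hidx)
  intro y hy h1
  have h2 : (⟨y, hy⟩ : C) = 1 := by
    apply hbij.1
    apply Subtype.ext
    show σ y = σ ((1 : C) : Γ)
    rw [h1, Subgroup.coe_one, map_one]
  exact congrArg Subtype.val h2

/-- value of a packed form in a group -/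
def evG {C : Type*} [Group C] (d : ℕ → C) (L : ℕ) : C :=
  if _h : L = 0 then 1 else d 0 ^ (L % bb) * evG (fun k => d (k + 1)) (L / bb)
termination_by L
decreasing_by
  apply Nat.div_lt_self (Nat.pos_of_ne_zero _h)
  norm_num [bb]

theorem f_mul {E : Type*} [Group E] {f : ZMod p → E} (hf0 : f 0 = 1) (hfa : ∀ a b, f (a + b) = f a * f b) (m : ℕ)
    (a : ZMod p) : f ((m : ZMod p) * a) = f a ^ m := by
  induction m with
  | zero => rw [Nat.cast_zero, zero_mul, hf0, pow_zero]
  | succ m ih => rw [Nat.cast_succ, add_mul, one_mul, hfa, ih, pow_succ]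

theorem evG_map {C E : Type*} [Group C] [Group E] (ψ : C →* E) {f : ZMod p → E} (hf0 : f 0 = 1)
    (hfa : ∀ a b, f (a + b) = f a * f b) (L : ℕ) : ∀ (d : ℕ → C) (x : ℕ → ZMod p), (∀ k, ψ (d k) = f (x k)) →
      ψ (evG d L) = f (ev x L) := by
  induction L using Nat.strong_induction_on with
  | _ L ih =>
    intro d x h
    by_cases hL : L = 0
    · subst hL
      rw [evG, dif_pos rfl, map_one, ev_zero, hf0]
    · rw [evG, dif_neg hL, map_mul, map_pow, h 0, ev_eq, hfa, f_mul hf0 hfa,
        ih (L / bb) (Nat.div_lt_self (Nat.pos_of_ne_zero hL) (by norm_num [bb])) _ _ (fun k => h (k + 1))]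

theorem exists_cen_cyclic {Γ : Type u} {G : Type v} [Group Γ] [Group G] [Finite Γ] {σ : Γ →* G}
    (hσ : IsStemExtension σ) {q : ℕ} (hc : Nat.card σ.ker = q) (hcyc : IsCyclic σ.ker) :
    ∃ f : ZMod q → Γ, Cen f ∧ ∀ z, σ z = 1 ↔ ∃ a, z = f a := by
  have e : Multiplicative (ZMod q) ≃* σ.ker :=
    mulEquivOfCyclicCardEq (by rw [Nat.card_congr Multiplicative.toAdd, Nat.card_zmod, hc])
  refine ⟨fun a => (e (Multiplicative.ofAdd a) : Γ), ⟨fun a b => ?_, fun a y => ?_, fun a h => ?_⟩, fun z => ⟨fun h => ?_, ?_⟩⟩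
  · show (e (Multiplicative.ofAdd (a + b)) : Γ) = _
    rw [ofAdd_add, map_mul]; rfl
  · exact (Subgroup.mem_center_iff.1 (hσ.2.1 (e (Multiplicative.ofAdd a)).2) y).symm
  · have h1 : e (Multiplicative.ofAdd a) = 1 := Subtype.ext h
    have h2 : Multiplicative.ofAdd a = 1 := by
      rw [← map_one e] at h1; exact e.injective h1
    exact Multiplicative.ofAdd.injective (h2.trans ofAdd_zero.symm)
  · refine ⟨Multiplicative.toAdd (e.symm ⟨z, h⟩), ?_⟩
    show z = (e (Multiplicative.ofAdd (Multiplicative.toAdd (e.symm ⟨z, h⟩))) : Γ)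
    rw [ofAdd_toAdd, MulEquiv.apply_symm_apply]
  · rintro ⟨a, rfl⟩
    exact (e (Multiplicative.ofAdd a)).2

/-- one target: rule `r` has tail `- c T` after the change of letters; `nr` is a bound for the number of rows -/
def tgt1OK (p : ℕ) (K : Mk) (rules : List (List ℕ × List ℕ)) (nr : ℕ) (rows gauge : List ℕ) (T r c M : ℕ) : Bool :=
  match rules.getD r ([], []) with
  | (a, b) => Nat.blt (Nat.add (Nat.add (Nat.add (Nat.add 1 (Nat.mul 7 a.length)) (Nat.mul (p - 1) (Nat.mul 7 b.length)))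
      (Nat.mul c 7)) (Nat.mul p 1023)) bb &&
    Nat.blt (Nat.add (Nat.mul 49 nr) (Nat.mul p 4095)) bb &&
    eqP p K.M12 K.O (Nat.add (Nat.add (Nat.add (un 1 r) (gsum gauge a)) (Nat.mul (p - 1) (gsum gauge b))) (Nat.mul c T))
      (comb rows M)

/-- the targets `r, r + 1, ...` -/
def tgts1OK (p : ℕ) (K : Mk) (rules : List (List ℕ × List ℕ)) (nr : ℕ) (rows gauge : List ℕ) (T : ℕ) :
    ℕ → List (ℕ × ℕ) → Bool
  | _, [] => true
  | r, M :: Ms => tgt1OK p K rules nr rows gauge T r M.1 M.2 &&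
    fz (Nat.succ r) fun r' => tgts1OK p K rules nr rows gauge T r' Ms

theorem tgts1OK_spec {rules : List (List ℕ × List ℕ)} {K : Mk} {nr : ℕ} {rows gauge : List ℕ} {T : ℕ} :
    ∀ {Ms : List (ℕ × ℕ)} {r : ℕ}, tgts1OK p K rules nr rows gauge T r Ms = true →
    ∀ j < Ms.length, ∃ c M, tgt1OK p K rules nr rows gauge T (r + j) c M = true
  | [], _, _ => by intro j hj; exact absurd hj (Nat.not_lt_zero _)
  | M :: Ms, r, h => by
    have h1 : (tgt1OK p K rules nr rows gauge T r M.1 M.2 &&
      fz (Nat.succ r) fun r' => tgts1OK p K rules nr rows gauge T r' Ms) = true := h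
    rw [Bool.and_eq_true, fz_eq] at h1
    intro j hj
    cases j with
    | zero => exact ⟨M.1, M.2, h1.1⟩
    | succ j =>
      obtain ⟨c, M', h2⟩ := tgts1OK_spec h1.2 j (by rw [List.length_cons] at hj; omega)
      exact ⟨c, M', by rw [← h2]; congr 1; rw [Nat.succ_eq_add_one]; omega⟩

section Ext

variable {E : Type*} [Group E] {f : ZMod p → E} {e : ℕ → E} {rules : List (List ℕ × List ℕ)} {x : ℕ → ZMod p}

theorem tgt1OK_spec (hf : Cen f) (hx : Tail f e rules x) (hp : 1 < p) {K : Mk} (hK : K.Good) {nr : ℕ} {rows gauge : List ℕ}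
    (hrows : ∀ row ∈ rows, ev x row = 0 ∧ Bd 7 row) (hnr : rows.length ≤ nr)
    (hg : ∀ i, Bd 7 (gauge.getD i 0)) {T : ℕ} (hT : Bd 7 T) (hT0 : ev x T = 0) {r c M : ℕ}
    (h : tgt1OK p K rules nr rows gauge T r c M = true) :
    val (fun i => e i * f (ev x (gauge.getD i 0))) (rules.getD r ([], [])).1 =
      val (fun i => e i * f (ev x (gauge.getD i 0))) (rules.getD r ([], [])).2 := by
  unfold tgt1OK at h
  rcases hr : rules.getD r ([], []) with ⟨a, b⟩
  rw [hr] at h
  simp only [Bool.and_eq_true] at h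
  obtain ⟨⟨h1, h1'⟩, h2⟩ := h
  have h1 : 1 + 7 * a.length + (p - 1) * (7 * b.length) + c * 7 + p * 1023 < bb := by simpa [Nat.blt_eq] using h1
  have h1' : 49 * nr + p * 4095 < bb := by simpa [Nat.blt_eq] using h1'
  have hx' := hx r
  rw [hr] at hx'
  have hx' : val e a = val e b * f (x r) := hx'
  show val _ a = val _ b
  have hlb : 7 * b.length ≤ (p - 1) * (7 * b.length) := by
    calc 7 * b.length = 1 * (7 * b.length) := (one_mul _).symm
      _ ≤ (p - 1) * (7 * b.length) := Nat.mul_le_mul_right _ (by omega)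
  obtain ⟨ba, ea⟩ := gsum_spec (x := x) hg a (by omega)
  obtain ⟨bb', eb⟩ := gsum_spec (x := x) hg b (by omega)
  have hu : Bd 1 (un 1 r) := bd_un 1 r (by norm_num [bb])
  have hbu : Bd (1 + 7 * a.length) (un 1 r + gsum gauge a) := Bd.add (by omega) hu ba
  have hbm : Bd ((p - 1) * (7 * b.length)) ((p - 1) * gsum gauge b) := Bd.mul (p - 1) (by omega) bb'
  have hbt : Bd (1 + 7 * a.length + (p - 1) * (7 * b.length)) (un 1 r + gsum gauge a + (p - 1) * gsum gauge b) :=
    Bd.add (by omega) hbu hbm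
  have hbc : Bd (c * 7) (c * T) := Bd.mul c (by omega) hT
  have hbs : Bd (1 + 7 * a.length + (p - 1) * (7 * b.length) + c * 7)
      (un 1 r + gsum gauge a + (p - 1) * gsum gauge b + c * T) := Bd.add (by omega) hbt hbc
  have h49 : 7 * 7 * rows.length ≤ 49 * nr := by omega
  have hc := comb_spec rows M hrows (by omega)
  have h3 : ev x (un 1 r + gsum gauge a + (p - 1) * gsum gauge b + c * T) = ev x (comb rows M) :=
    ev_of_eqP hK.h12 hK.hO hbs (hc.2.mono h49) (by omega) (by omega) h2 x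
  have h4 : ev x (un 1 r + gsum gauge a + (p - 1) * gsum gauge b + c * T) =
      x r + (a.map fun i => ev x (gauge.getD i 0)).sum - (b.map fun i => ev x (gauge.getD i 0)).sum := by
    rw [ev_add (by omega) x hbt hbc, ev_mul c (by omega) hT, hT0, mul_zero, add_zero,
      ev_add (by omega) x hbu hbm, ev_add (by omega) x hu ba,
      ev_un 1 r (by norm_num [bb]), ev_mul (p - 1) (by omega) bb', ea, eb, Nat.cast_sub (by omega), ZMod.natCast_self]
    push_cast
    ring
  rw [h4, hc.1] at h3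
  rw [val_change hf, val_change hf, hx', mul_assoc, ← hf.add]
  congr 2
  rw [sub_eq_zero] at h3
  exact h3

/-- `m T` is a combination of rows modulo `p` -/
def tOK (p m : ℕ) (K : Mk) (rows : List ℕ) (T M : ℕ) : Bool :=
  Nat.blt (Nat.add (Nat.mul m 7) (Nat.mul p 1023)) bb &&
    Nat.blt (Nat.add (Nat.mul 49 rows.length) (Nat.mul p 4095)) bb && eqP p K.M12 K.O (Nat.mul m T) (comb rows M)

omit [Group E] in
theorem tOK_spec {m : ℕ} {K : Mk} (hK : K.Good) {rows : List ℕ} (hrows : ∀ row ∈ rows, ev x row = 0 ∧ Bd 7 row)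
    {T M : ℕ} (hT : Bd 7 T) (h : tOK p m K rows T M = true) : (m : ZMod p) * ev x T = 0 := by
  unfold tOK at h
  simp only [Bool.and_eq_true] at h
  obtain ⟨⟨h1, h1'⟩, h2⟩ := h
  have h1 : m * 7 + p * 1023 < bb := by simpa [Nat.blt_eq] using h1
  have h1' : 49 * rows.length + p * 4095 < bb := by simpa [Nat.blt_eq] using h1'
  have hc := comb_spec rows M hrows (by omega)
  have hbc : Bd (m * 7) (m * T) := Bd.mul m (by omega) hT
  have h3 : ev x (m * T) = ev x (comb rows M) :=
    ev_of_eqP hK.h12 hK.hO hbc (hc.2.mono (by omega : 7 * 7 * rows.length ≤ 49 * rows.length)) (by omega) (by omega) h2 x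
  rw [ev_mul m (by omega) hT, hc.1] at h3
  exact h3

end Ext

/-- The `p`-part of the Schur multiplier has order at most `p`. -/
theorem rank_one {Γ : Type u} {G : Type v} [Group Γ] [Group G] [Finite Γ] [hp : Fact p.Prime] {σ : Γ →* G}
    (hσ : IsStemExtension σ) {g : ℕ → G} {rules : List (List ℕ × List ℕ)}
    (hg : ∀ r, val g (rules.getD r ([], [])).1 = val g (rules.getD r ([], [])).2)
    {n ns : ℕ} {K : Mk} (hK : K.Good) (hok : pcOK p n ns rules = true)
    (hcard : p ^ n ≤ Nat.card ↥(Subgroup.closure (g '' {i | i < n})))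
    (hidx : ¬ p ∣ (Subgroup.closure (g '' {i | i < n})).index)
    {rows gauge : List ℕ}
    (hrows : ∀ row ∈ rows, ∃ d, pathOK p K rules d row = true)
    {nr : ℕ} (hlen : rows.length ≤ nr)
    (hgau : gauge.all (fun L => Nat.beq (Nat.land L K.M7) L) = true)
    {T : ℕ} (hT : Nat.beq (Nat.land T K.M7) T = true)
    (htgt : ∀ r < ns, ∃ c M, tgt1OK p K rules nr rows gauge T r c M = true)
    {q : ℕ} (hq : q = p ^ 2) {rows2 : List ℕ} {M2 : ℕ} (hrows2 : ∀ row ∈ rows2, ∃ d, pathOK q K rules d row = true)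
    (hT2 : tOK q p K rows2 T M2 = true) : ¬ p ^ 2 ∣ Nat.card σ.ker := by
  intro hdvd
  obtain ⟨Γ1, i1, i2, σ1, hσ1, hc⟩ := Cfsg.Agent.H90.Stem.exists_ker_dvd hσ hdvd
  have hT7 : Bd 7 T := bd_of_land hK.h7 hT
  choose e he using fun i => hσ1.1 (g i)
  have hval : ∀ w, σ1 (val e w) = val g w := by
    intro w
    induction w with
    | nil => rw [val_nil, val_nil, map_one]
    | cons i w ih => rw [val_cons, val_cons, map_mul, ih, he]
  have hk1 : ∀ r, σ1 ((val e (rules.getD r ([], [])).2)⁻¹ * val e (rules.getD r ([], [])).1) = 1 := by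
    intro r
    rw [map_mul, map_inv, hval, hval, hg, inv_mul_cancel]
  let d : ℕ → Γ1 := fun r => (val e (rules.getD r ([], [])).2)⁻¹ * val e (rules.getD r ([], [])).1
  have hd : ∀ r, val e (rules.getD r ([], [])).1 = val e (rules.getD r ([], [])).2 * (d r) := by
    intro r
    show _ = _ * ((val e (rules.getD r ([], [])).2)⁻¹ * val e (rules.getD r ([], [])).1)
    group
  have hd1 : ∀ r, σ1 (d r) = 1 := hk1
  set D := evG d T with hD
  have hDk : σ1 D = 1 := by
    have h := evG_map (p := 1) σ1 (f := fun _ => 1) rfl (fun _ _ => (one_mul _).symm) T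
      d (fun _ => 0) (fun k => hd1 k)
    exact h
  have hDp : D ^ p = 1 := by
    by_contra hne
    have ho : orderOf (⟨D, hDk⟩ : σ1.ker) ∣ p ^ 2 := by rw [← hc]; exact orderOf_dvd_natCard _
    obtain ⟨k, hk, hok⟩ := (Nat.dvd_prime_pow hp.out).1 ho
    have hk2 : k = 2 := by
      by_contra hk2
      apply hne
      have h1 : (⟨D, hDk⟩ : σ1.ker) ^ p = 1 := by
        rw [← orderOf_dvd_iff_pow_eq_one, hok]
        calc p ^ k ∣ p ^ 1 := pow_dvd_pow p (by omega)
          _ = p := pow_one p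
      exact congrArg Subtype.val h1
    rw [hk2, ← hc] at hok
    have hcyc : IsCyclic σ1.ker := isCyclic_of_orderOf_eq_card _ hok
    obtain ⟨f, hf, hkf⟩ := exists_cen_cyclic hσ1 (hc.trans hq.symm) hcyc
    choose x hx using fun r => (hkf _).1 (hd1 r)
    have hx' : Tail f e rules x := fun r => by rw [← hx r]; exact hd r
    have hq0 : 0 < q := by rw [hq]; exact pow_pos hp.out.pos 2
    have hr2 : ∀ row ∈ rows2, ev x row = 0 ∧ Bd 7 row := by
      intro row hrow
      obtain ⟨dd, hdd⟩ := hrows2 row hrow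
      exact pathOK_spec hf hx' hq0 hK hdd
    have h1 := tOK_spec hK hr2 hT7 hT2
    have h2 : D = f (ev x T) :=
      evG_map (MonoidHom.id Γ1) hf.zero hf.add T d x (fun k => hx k)
    rw [h2, ← f_mul hf.zero hf.add, h1, hf.zero] at hne
    exact hne rfl
  obtain ⟨L, hLk, hLc, hDL⟩ : ∃ L : Subgroup Γ1, L ≤ σ1.ker ∧ Nat.card L = p ∧ D ∈ L := by
    by_cases hD1 : D = 1
    · obtain ⟨x, hx⟩ := exists_prime_orderOf_dvd_card' (G := σ1.ker) p (by rw [hc]; exact dvd_pow_self p two_ne_zero)
      refine ⟨Subgroup.zpowers (x : Γ1), by rw [Subgroup.zpowers_le]; exact x.2, ?_, by rw [hD1]; exact Subgroup.one_mem _⟩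
      rw [Nat.card_zpowers, Subgroup.orderOf_coe, hx]
    · refine ⟨Subgroup.zpowers D, by rw [Subgroup.zpowers_le]; exact hDk, ?_, Subgroup.mem_zpowers _⟩
      rw [Nat.card_zpowers]
      exact orderOf_eq_prime hDp hD1
  obtain ⟨Δ, j1, j2, τ, π, hπ, hπk, hcomp, hst, hct⟩ := Cfsg.Agent.H90.Stem.quot_stem hσ1 L hLk
  have hct' : Nat.card τ.ker = p := by
    rw [hLc, hc, pow_two] at hct
    exact Nat.eq_of_mul_eq_mul_right hp.out.pos hct
  have hτπ : ∀ y, τ (π y) = σ1 y := fun y => by rw [← hcomp]; rfl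
  obtain ⟨f, hf, hkf⟩ := exists_cen hst hct'
  have hd2 : ∀ r, τ (π (d r)) = 1 := fun r => by rw [hτπ]; exact hd1 r
  choose x hx using fun r => (hkf _).1 (hd2 r)
  have hmv : ∀ w, π (val e w) = val (fun i => π (e i)) w := by
    intro w
    induction w with
    | nil => rw [val_nil, val_nil, map_one]
    | cons i w ih => rw [val_cons, val_cons, map_mul, ih]
  have hx' : Tail f (fun i => π (e i)) rules x := by
    intro r
    rw [← hmv, ← hmv, hd r, map_mul, ← hx r]
  have hT0 : ev x T = 0 := by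
    apply hf.inj
    have h2 : π D = f (ev x T) :=
      evG_map π hf.zero hf.add T d x (fun k => hx k)
    rw [← h2]
    have : D ∈ π.ker := by rw [hπk]; exact hDL
    exact this
  have hrows' : ∀ row ∈ rows, ev x row = 0 ∧ Bd 7 row := by
    intro row hrow
    obtain ⟨dd, hdd⟩ := hrows row hrow
    exact pathOK_spec hf hx' hp.out.pos hK hdd
  have hgau' : ∀ i, Bd 7 (gauge.getD i 0) := by
    intro i
    by_cases hi : i < gauge.length
    · have h1 := List.all_eq_true.1 hgau (gauge.getD i 0) (by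
        rw [List.getD_eq_getElem _ _ hi]; exact List.getElem_mem hi)
      exact bd_of_land hK.h7 h1
    · rw [List.getD_eq_default _ _ (by omega)]; exact bd_nil _
  refine no_split hst hct' (g := g) (e := fun i => π (e i) * f (ev x (gauge.getD i 0))) (fun i => ?_) hok (fun r hr => ?_)
    hcard hidx
  · show τ (π (e i) * f (ev x (gauge.getD i 0))) = g i
    rw [map_mul, hτπ, he, (hkf _).2 ⟨_, rfl⟩, mul_one]
  · obtain ⟨c, M, hM⟩ := htgt r hr
    exact tgt1OK_spec hf hx' hp.out.one_lt hK hrows' hlen hgau' hT7 hT0 hM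

end Cfsg.Agent.MulX.Stb
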